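import Mathlib
import Cfsg.Agent.Class.MinDegO.End
import Cfsg.Agent.Class.MinDegO.Chr

/-!
Minimal degree of classical groups: the symmetry argument for symmetric forms. If `x` has a
minimal Eichler subgroup, then its parameters form a totally singular subspace.
-/

set_option autoImplicit false
set_option linter.unusedSectionVars false

namespace Cfsg.Agent.Class.MinDegO

open Module Cfsg.Agent.Class.Max Cfsg.Agent.Class.Max.Fm

variable {F V : Type*} [Field F] [AddCommGroup V] [Module F V] {Φ : Fm F V}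
  {H : Subgroup (V ≃ₗ[F] V)} {x z : V}

variable (Φ H) in
/-- The Eichler transformation with these parameters exists and lies in `H`. -/
def RR (x w : V) (c : F) : Prop := Φ.Valid x w c ∧ Φ.HasE H x w c

theorem mem_RS_iff (hx : Φ.Q x = 0) {p : Hat Φ} : p ∈ RS Φ H x ↔ RR Φ H x p.w p.c :=
  (mem_RS hx).trans ⟨fun h => ⟨p.valid hx h.1, h.2⟩, fun h => ⟨h.1.perp, h.2⟩⟩

theorem RR.mem {w : V} {c : F} (h : RR Φ H x w c) : (⟨w, c, h.1.norm⟩ : Hat Φ) ∈ RS Φ H x :=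
  (mem_RS_iff h.1.sing).2 h

theorem RR.inA {w : V} {c : F} (h : RR Φ H x w c) : Φ.InA H x w := ⟨c, h⟩

theorem RR.congr {w w' : V} {c c' : F} (h : RR Φ H x w c) (e : w = w') (e' : c = c') :
    RR Φ H x w' c' := e ▸ e' ▸ h

theorem RR.add {w w' : V} {c c' : F} (h : RR Φ H x w c) (h' : RR Φ H x w' c') :
    RR Φ H x (w + w') (c + c' + Φ.B w w') := ⟨h.1.add h'.1, h.2.add h.1 h'.1 h'.2⟩

theorem RR.neg {w : V} {c : F} (h : RR Φ H x w c) : RR Φ H x (-w) (Φ.ε * Φ.σ c) :=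
  ⟨h.1.neg, h.2.neg h.1⟩

theorem RR.trace {w : V} {c : F} (h : RR Φ H x w c) : c + Φ.ε * Φ.σ c = Φ.B w w :=
  Φ.trace c w h.1.norm

theorem RR.sub {w w' : V} {c c' : F} (h : RR Φ H x w c) (h' : RR Φ H x w' c') :
    RR Φ H x (w - w') (c - c' + Φ.B (w' - w) w') :=
  (h.add h'.neg).congr (by abel) (by
    have := h'.trace
    simp only [Φ.bsimp]
    linear_combination this)

theorem rr_zero (hx : Φ.Q x = 0) : RR Φ H x 0 0 :=
  ⟨valid_zero hx (map_zero _) Φ.Q_zero, hasE_zero x⟩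

theorem RR.conj {w : V} {c : F} (h : RR Φ H x w c) {g : V ≃ₗ[F] V} (hg : g ∈ H)
    (hI : g ∈ Φ.Iso) : RR Φ H (g x) (g w) c := ⟨h.1.map hI, h.2.conj hg hI⟩

theorem RR.exists {w : V} {c : F} (h : RR Φ H x w c) :
    ∃ g ∈ H, g ∈ Φ.Iso ∧ ∀ v, g v = Φ.ef x w c v := by
  obtain ⟨g, hg, e⟩ := h.2
  exact ⟨g, hg, h.1.mem_Iso e, e⟩

theorem RR.swap {t : F} (h : RR Φ H z (t • x) 0) (hx : Φ.Q x = 0) (hxz : Φ.B x z = 0) :
    RR Φ H x ((-(Φ.ε * Φ.σ t)) • z) 0 :=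
  ⟨valid_zero hx (by simp [hxz]) (Φ.Q_smul_zero h.1.sing _), hasE_swap h.2⟩

/-- The multiples of a singular vector as parameters. -/
def LZ (hz : Φ.Q z = 0) : Subgroup (Hat Φ) where
  carrier := {p | p.c = 0 ∧ ∃ t : F, p.w = t • z}
  one_mem' := ⟨rfl, 0, by rw [zero_smul]; rfl⟩
  mul_mem' := by
    rintro p q ⟨hp, s, hs⟩ ⟨hq, t, ht⟩
    exact ⟨by rw [Hat.mul_c, hp, hq, hs, ht]; simp [Φ.B_self hz], s + t,
      by rw [Hat.mul_w, hs, ht, add_smul]⟩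
  inv_mem' := by
    rintro p ⟨hp, s, hs⟩
    exact ⟨by rw [Hat.inv_c, hp]; simp, -s, by rw [Hat.inv_w, hs, neg_smul]⟩

/-- The parameter `(t • z, 0)`. -/
def lzEl (hz : Φ.Q z = 0) (t : F) : Hat Φ := ⟨t • z, 0, by rw [map_zero, Φ.Q_smul_zero hz]⟩

theorem card_inf_LZ (A : Subgroup (Hat Φ)) (hz : Φ.Q z = 0) (hz0 : z ≠ 0) :
    Nat.card ↥(A ⊓ LZ hz) = {t : F | lzEl hz t ∈ A}.ncard := by
  symm
  refine Nat.card_congr (Equiv.ofBijective (fun t : {t : F | lzEl hz t ∈ A} =>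
    (⟨lzEl hz t.1, t.2, rfl, t.1, rfl⟩ : ↥(A ⊓ LZ hz))) ⟨fun s t e => ?_, ?_⟩)
  · exact Subtype.ext (smul_left_injective F hz0 (congrArg (fun p => p.1.w) e))
  · rintro ⟨p, hp, h1, t, h2⟩
    obtain rfl : p = lzEl hz t := Hat.ext h2 h1
    exact ⟨⟨t, hp⟩, rfl⟩

theorem card_LZ (hz : Φ.Q z = 0) (hz0 : z ≠ 0) : Nat.card (LZ hz) = Nat.card F := by
  have := card_inf_LZ ⊤ hz hz0
  rw [top_inf_eq] at this
  simpa using this

theorem LZ_le (hz : Φ.Q z = 0) : LZ hz ≤ HU Φ (LinearMap.ker (Φ.B z)) := by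
  rintro p ⟨-, t, h⟩
  rw [mem_HU, h]
  simp [Φ.B_self hz]

theorem LZ_normal (hz : Φ.Q z = 0) :
    ∀ g ∈ HU Φ (LinearMap.ker (Φ.B z)), ∀ u ∈ LZ hz, g * u * g⁻¹ ∈ LZ hz := by
  intro g hg u hu
  have hg : Φ.B z g.w = 0 := hg
  have : g * u = u * g := by
    obtain ⟨h, t, ht⟩ := hu
    refine Hat.ext (add_comm _ _) ?_
    rw [Hat.mul_c, Hat.mul_c, ht]
    simp [hg, Φ.perp_symm hg, add_comm]
  rwa [this, mul_inv_cancel_right]

variable (Φ H) in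
/-- The multiples of `z` that are parameters at `x`. -/
def LL (x z : V) : Set F := {t | RR Φ H x (t • z) 0}

variable [Finite F] [Finite V] [FiniteDimensional F V]

theorem card_Y (hx : Φ.Q x = 0) (hz : Φ.Q z = 0) (hz0 : z ≠ 0) :
    Nat.card ↥((RS Φ H x ⊓ HU Φ (LinearMap.ker (Φ.B z))) ⊔ LZ hz) * (LL Φ H x z).ncard =
      Nat.card ↥(RS Φ H x ⊓ HU Φ (LinearMap.ker (Φ.B z))) * Nat.card F := by
  rw [← card_LZ hz hz0, ← card_sup_mul_card_inf inf_le_right (LZ_le hz) (LZ_normal hz),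
    card_inf_LZ _ hz hz0]
  congr 2
  ext t
  exact ⟨fun h => ⟨h.mem, LZ_le hz ⟨rfl, t, rfl⟩⟩, fun h => (mem_RS_iff hx).1 h.1⟩

theorem card_RS_le (z : V) : Nat.card (RS Φ H x) ≤
    Nat.card ↥(RS Φ H x ⊓ HU Φ (LinearMap.ker (Φ.B z))) * Nat.card F := by
  rw [card_eq_map_mul (RS Φ H x) (bHom Φ z), ker_bHom, mul_comm]
  exact Nat.mul_le_mul_left _ (Subgroup.card_le_card_group _)

theorem card_RS_eq (hx : Φ.Q x = 0) (h : ∀ β, ∃ m c, RR Φ H x m c ∧ Φ.B z m = β) :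
    Nat.card (RS Φ H x) =
      Nat.card ↥(RS Φ H x ⊓ HU Φ (LinearMap.ker (Φ.B z))) * Nat.card F := by
  have : (RS Φ H x).map (bHom Φ z) = ⊤ := eq_top_iff.2 fun β _ => by
    obtain ⟨m, c, h, e⟩ := h (Multiplicative.toAdd β)
    exact ⟨_, h.mem, congrArg Multiplicative.ofAdd e⟩
  rw [card_eq_map_mul (RS Φ H x) (bHom Φ z), ker_bHom, mul_comm, this, Subgroup.card_top]
  rfl

theorem ncard_LL_le (hx : Φ.Q x = 0) (hxz : Φ.B x z = 0) :
    (LL Φ H z x).ncard ≤ (LL Φ H x z).ncard :=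
  Set.ncard_le_ncard_of_injOn (fun t => -(Φ.ε * Φ.σ t)) (fun _ ht => RR.swap ht hx hxz)
    fun _ _ _ _ e => Φ.σ.injective (mul_left_cancel₀ Φ.eps_ne (neg_injective e))

theorem LL_pos (hx : Φ.Q x = 0) : 0 < (LL Φ H x z).ncard :=
  (Set.ncard_pos (Set.toFinite _)).2 ⟨0, (rr_zero hx).congr (zero_smul _ _).symm rfl⟩

theorem two_mul_LL_le (hx : Φ.Q x = 0) (hz : Φ.Q z = 0) (hz0 : z ≠ 0)
    (h : ∃ t : F, ¬ RR Φ H x (t • z) 0) : 2 * (LL Φ H x z).ncard ≤ Nat.card F := by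
  obtain ⟨t, ht⟩ := h
  have := two_mul_card_le_of_ne_top (A := RS Φ H x ⊓ LZ hz) (B := LZ hz) inf_le_right
    fun c => ht ((mem_RS_iff hx).1 (c (x := lzEl hz t) ⟨rfl, t, rfl⟩).1)
  rw [card_inf_LZ _ hz hz0, card_LZ hz hz0] at this
  convert this using 3
  ext s
  exact (mem_RS_iff hx (p := lzEl hz s)).symm

section Symm

variable (hσ : ∀ a, Φ.σ a = a) (hε : Φ.ε = 1)
include hσ hε

theorem B_comm (u v : V) : Φ.B u v = Φ.B v u := by rw [Φ.symm v u, hσ, hε, one_mul]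

theorem RR.add_self {w : V} {c : F} (h : RR Φ H x w c) (t : F) : RR Φ H x (w + t • x) c := by
  refine ⟨⟨h.1.sing, by simp [h.1.perp, Φ.B_self h.1.sing], ?_⟩, ?_⟩
  · rw [Φ.Q_add_perp (by simp [Φ.perp_symm h.1.perp]), Φ.Q_smul_zero h.1.sing, add_zero, h.1.norm]
  · obtain ⟨g, hg, e⟩ := h.2
    exact ⟨g, hg, fun v => by rw [e, ef_add_smul, hσ, hε]; simp⟩

theorem RR.closure {m u : V} {c d : F} (hm : RR Φ H x m c) (hu : RR Φ H z u d)
    (hxz : Φ.B x z = 0) (hxu : Φ.B x u = 0) :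
    RR Φ H x (Φ.B z m • u - (Φ.B u m + d * Φ.B z m) • z) (Φ.B z m * Φ.B z m * d) := by
  have hv : Φ.Valid x (Φ.B z m • u - (Φ.B u m + d * Φ.B z m) • z) (Φ.B z m * Φ.B z m * d) := by
    refine ⟨hm.1.sing, by simp [hxz, hxu], ?_⟩
    have := Φ.π_norm (Φ.B z m) d
    rw [hσ] at this
    rw [Φ.Q_sub, Φ.Q_smul_zero hu.1.sing, Φ.smul, hσ, this, hu.1.norm]
    simp [Φ.perp_symm hu.1.perp]
  refine ⟨hv, ?_⟩
  obtain ⟨g, hg, hI, e⟩ := hm.exists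
  obtain ⟨g₁, hg₁, e₁⟩ := hu.2.conj hg hI
  obtain ⟨g₂, hg₂, e₂⟩ := hu.2
  refine ⟨g₂ * g₁⁻¹, H.mul_mem hg₂ (H.inv_mem hg₁), fun v => ?_⟩
  obtain ⟨v, rfl⟩ := g₁.surjective v
  have t := hu.trace
  rw [hσ, hε] at t
  rw [mul_app, inv_app_app, e₂, e₁, e, e, ef_apply_of_perp' hxz, ef_apply_of_perp' hxu]
  simp only [ef, Φ.bsimp, hσ, hε, hxz, hxu, Φ.perp_symm hxz, Φ.perp_symm hxu, hu.1.perp,
    Φ.perp_symm hu.1.perp, Φ.B_self hm.1.sing, Φ.B_self hu.1.sing, ← t,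
    B_comm hσ hε m z, B_comm hσ hε m u]
  module

omit hσ hε in
variable (Φ H) in
/-- Good partners of a point. -/
structure Good (x z : V) : Prop where
  sing : Φ.Q z = 0
  perp : Φ.B x z = 0
  surj : ∀ β, ∃ m c, RR Φ H x m c ∧ Φ.B z m = β
  nl : ∃ t : F, ¬ RR Φ H x (t • z) 0

omit hσ hε in
theorem Good.ne (g : Good Φ H x z) : z ≠ 0 := by
  rintro rfl
  obtain ⟨m, c, -, h⟩ := g.surj 1
  simp at h

omit hσ hε in
theorem Good.eq_zero (g : Good Φ H x z) {a : F} (h : ∀ t : F, RR Φ H x ((t * a) • z) 0) :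
    a = 0 := by
  by_contra ha
  obtain ⟨t, ht⟩ := g.nl
  exact ht (by simpa [ha] using h (t * a⁻¹))

theorem Good.sym (g : Good Φ H x z) (hx : Φ.Q x = 0) (hx0 : x ≠ 0)
    (hmin : Nat.card (RS Φ H x) ≤ Nat.card (RS Φ H z)) {w : V} {c : F} (h : RR Φ H x w c)
    (hw : Φ.B z w = 0) : ∃ r : F, RR Φ H z (w + r • x) c := by
  have hzx := Φ.perp_symm g.perp
  have hle : (RS Φ H z ⊓ HU Φ (LinearMap.ker (Φ.B x))) ⊔ LZ hx ≤
      (RS Φ H x ⊓ HU Φ (LinearMap.ker (Φ.B z))) ⊔ LZ g.sing := by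
    refine sup_le (fun p hp => ?_) (le_sup_of_le_left ?_)
    · obtain ⟨m, c, hm, e⟩ := g.surj 1
      have hp1 := (mem_RS_iff g.sing).1 hp.1
      have h1 := hm.closure hσ hε hp1 g.perp hp.2
      have h2 : p = ⟨_, _, h1.1.norm⟩ * lzEl g.sing (Φ.B p.w m + p.c * Φ.B z m) := by
        refine Hat.ext ?_ ?_
        · simp [Hat.mul_w, lzEl, e]
        · simp [Hat.mul_c, lzEl, e, Φ.B_self g.sing, Φ.perp_symm hp1.1.perp]
      rw [h2]
      refine Subgroup.mul_mem_sup ⟨h1.mem, ?_⟩ ⟨rfl, _, rfl⟩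
      change Φ.B z _ = 0
      simp [hp1.1.perp, Φ.B_self g.sing]
    · rintro p ⟨h1, t, h2⟩
      refine ⟨(mem_RS_iff hx).2 (((rr_zero hx).add_self hσ hε t).congr (by simp [h2]) h1.symm), ?_⟩
      change Φ.B z p.w = 0
      simp [h2, hzx]
  have h1 := card_Y (H := H) hx g.sing g.ne
  have h2 := card_Y (H := H) g.sing hx hx0
  rw [← card_RS_eq hx g.surj] at h1
  have h3 := card_RS_le (Φ := Φ) (H := H) (x := z) x
  have h4 := ncard_LL_le (H := H) hx g.perp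
  have heq := Subgroup.eq_of_le_of_card_ge hle (Nat.le_of_mul_le_mul_right (by
    rw [h1]
    exact hmin.trans (h3.trans (h2 ▸ Nat.mul_le_mul_left _ h4))) (LL_pos hx))
  have h5 : (⟨w, c, h.1.norm⟩ : Hat Φ) ∈ (RS Φ H z ⊓ HU Φ (LinearMap.ker (Φ.B x))) ⊔ LZ hx :=
    heq ▸ Subgroup.mem_sup_left ⟨h.mem, hw⟩
  obtain ⟨k, hk, hk', u, ⟨hu, t, ht⟩, e⟩ := mem_sup_of_normal (LZ_le hx) (LZ_normal hx) h5
  have e1 : w = k.w + u.w := congrArg Hat.w e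
  have e2 : c = k.c + u.c + Φ.B k.w u.w := congrArg Hat.c e
  have hk' : Φ.B x k.w = 0 := hk'
  refine ⟨-t, ((mem_RS_iff g.sing).1 hk).congr (by rw [e1, ht]; simp) ?_⟩
  rw [e2, hu, ht]
  simp [Φ.perp_symm hk']

theorem Good.main (g : Good Φ H x z) (hx : Φ.Q x = 0) (hx0 : x ≠ 0)
    (hmin : Nat.card (RS Φ H x) ≤ Nat.card (RS Φ H z)) {w m : V} {c c' : F} (h : RR Φ H x w c)
    (hw : Φ.B z w = 0) (hm : RR Φ H x m c') (t : F) :
    RR Φ H x ((Φ.B z m * t) • w - (t * Φ.B w m + t * t * c * Φ.B z m) • z)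
      (Φ.B z m * Φ.B z m * (t * t * c)) := by
  have hzx := Φ.perp_symm g.perp
  obtain ⟨r, h1⟩ := g.sym hσ hε hx hx0 hmin h hw
  obtain ⟨m₁, c₁, hm₁, e⟩ := g.surj t
  have h2 := hm₁.closure hσ hε h1 g.perp (by simp [h.1.perp, Φ.B_self hx])
  obtain ⟨r', h3⟩ := g.sym hσ hε hx hx0 hmin h2 (by simp [hw, hzx, Φ.B_self g.sing])
  have h4 : RR Φ H z (t • w + (t * r + r') • x) (t * t * c) :=
    (h3.add_self hσ hε (Φ.B (w + r • x) m₁ + c * Φ.B z m₁)).congr (by rw [e]; module) (by rw [e])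
  have h5 := hm.closure hσ hε h4 g.perp (by simp [h.1.perp, Φ.B_self hx])
  refine (h5.add_self hσ hε (-(Φ.B z m * (t * r + r')))).congr ?_ rfl
  simp only [Φ.bsimp, hσ, hm.1.perp]
  module

theorem Good.B_eq_zero (g : Good Φ H x z) (hx : Φ.Q x = 0) (hx0 : x ≠ 0)
    (hmin : Nat.card (RS Φ H x) ≤ Nat.card (RS Φ H z)) {w m : V} {c c' : F} (h : RR Φ H x w c)
    (hw : Φ.B z w = 0) (hm : RR Φ H x m c') (hm' : Φ.B z m = 0) : Φ.B w m = 0 :=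
  g.eq_zero fun t => (g.main hσ hε hx hx0 hmin h hw hm (-t)).congr (by simp [hm']) (by simp [hm'])

theorem Good.line (g : Good Φ H x z) (hx : Φ.Q x = 0) (hx0 : x ≠ 0)
    (hmin : Nat.card (RS Φ H x) ≤ Nat.card (RS Φ H z)) {w : V} (h : RR Φ H x w 0)
    (hw : Φ.B z w = 0) (hn : ∀ a b : F, w ≠ a • x + b • z) :
    ∃ s, (∀ t : F, RR Φ H x (t • s) 0) ∧ (∀ m c, RR Φ H x m c → Φ.B s m = 0) ∧
      ∀ a : F, s ≠ a • x := by
  obtain ⟨m₁, c₁, hm₁, e⟩ := g.surj 1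
  have h1 : ∀ t : F, RR Φ H x (t • (w - Φ.B w m₁ • z)) 0 := fun t =>
    (g.main hσ hε hx hx0 hmin h hw hm₁ t).congr (by rw [e]; module) (by simp)
  refine ⟨_, h1, fun m c hm => g.eq_zero fun t => ?_, fun a c => hn a (Φ.B w m₁) (by
    rw [← c]; simp)⟩
  refine ((h1 (Φ.B z m * t)).sub (g.main hσ hε hx hx0 hmin h hw hm t)).congr ?_ ?_
  · simp only [Φ.bsimp, hσ]
    module
  · have h0 : Φ.B w w = 0 := by simpa using h.trace.symm
    simp [hw, Φ.perp_symm hw, Φ.B_self g.sing, h0]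

theorem Good.c_eq_zero (g : Good Φ H x z) (hx : Φ.Q x = 0) (hx0 : x ≠ 0)
    (hmin : Nat.card (RS Φ H x) ≤ Nat.card (RS Φ H z)) (hL : ∀ t : F, RR Φ H x (t • z) 0 → t = 0)
    {β : F} (hβ0 : β ≠ 0) (hβ1 : β ≠ 1) {w : V} {c : F} (h : RR Φ H x w c)
    (hw : Φ.B z w = 0) : c = 0 := by
  have h0 := g.B_eq_zero hσ hε hx hx0 hmin h hw h hw
  have uniq : ∀ {s a a' d d' : F}, RR Φ H x (s • w - a • z) d → RR Φ H x (s • w - a' • z) d' →
      d = d' → a = a' := fun {s a a' d d'} h1 h2 e => by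
    refine (sub_eq_zero.1 (hL _ ((h1.sub h2).congr (by module) ?_))).symm
    simp [e, hw, Φ.perp_symm hw, Φ.B_self g.sing, h0]
  obtain ⟨m₁, c₁, hm₁, e₁⟩ := g.surj 1
  obtain ⟨m, c', hm, e⟩ := g.surj β
  have a1 := g.main hσ hε hx hx0 hmin h hw hm₁
  have a2 := g.main hσ hε hx hx0 hmin h hw hm
  simp only [e₁, e, one_mul] at a1 a2
  have b1 := uniq (a1 β) ((a2 1).congr (by rw [mul_one]) rfl) (by ring)
  have b2 := uniq (a1 (β * β)) (a2 β) (by ring)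
  have : c * (β * β * (β - 1) * (β - 1)) = 0 := by linear_combination b2 - β * b1
  simpa [hβ0, sub_ne_zero.2 hβ1] using this

theorem exists_sigma_of_line (hx : Φ.Q x = 0) (hx0 : x ≠ 0)
    (hmin : ∀ z, Good Φ H x z → Nat.card (RS Φ H x) ≤ Nat.card (RS Φ H z)) {s : V}
    (h1 : ∀ t : F, RR Φ H x (t • s) 0) (h2 : ∀ m c, RR Φ H x m c → Φ.B s m = 0)
    (h3 : ∀ a : F, s ≠ a • x) :
    ∃ S : Submodule F V, Φ.TS S ∧ ∀ w c, RR Φ H x w c ↔ w ∈ S ∧ c = 0 := by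
  have hs : RR Φ H x s 0 := by simpa using h1 1
  have hs0 : Φ.Q s = 0 := by rw [← hs.1.norm, map_zero]
  obtain ⟨z, hz, hz0, hsz⟩ := exists_partner (U := LinearMap.ker (Φ.B x)) hs.1.perp hs0 (by
    by_contra c
    push Not at c
    obtain ⟨a, ha⟩ := Φ.exists_smul_of_perp c
    exact h3 a ha)
  have hzs : Φ.B z s = 1 := by rw [B_comm hσ hε, hsz]
  have g : Good Φ H x z := ⟨hz0, hz, fun β => ⟨_, _, h1 β, by simp [hzs]⟩,
    1, fun c => by simpa [hsz] using h2 _ _ c⟩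
  have key : ∀ w c, RR Φ H x w c → c = 0 ∧ ∀ t : F, RR Φ H x (t • w) 0 := by
    intro w c h
    have a1 := h.sub (h1 (Φ.B z w))
    have e1 : Φ.B s w = 0 := h2 _ _ h
    have e2 : c - 0 + Φ.B (Φ.B z w • s - w) (Φ.B z w • s) = c := by
      simp [Φ.B_self hs0, Φ.perp_symm e1]
    rw [e2] at a1
    have a2 := g.main hσ hε hx hx0 (hmin z g) a1 (by simp [hzs]) hs
    have e3 : Φ.B (w - Φ.B z w • s) s = 0 := by simp [Φ.B_self hs0, Φ.perp_symm e1]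
    have hc : c = 0 := by
      have := h2 _ _ (a2 1)
      rw [map_sub, map_smul, map_smul, Φ.perp_symm e3, hsz, hzs, e3] at this
      simpa using this
    refine ⟨hc, fun t => ((a2 t).add (h1 (t * Φ.B z w))).congr ?_ ?_⟩
    · rw [hzs, e3, hc]; module
    · simp [hc, e3, Φ.B_self hs0, Φ.perp_symm e1]
  let S : Submodule F V :=
    { carrier := {w | RR Φ H x w 0}
      zero_mem' := rr_zero hx
      add_mem' := fun ha hb => (ha.add hb).congr rfl (key _ _ (ha.add hb)).1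
      smul_mem' := fun t _ hw => (key _ _ hw).2 t }
  refine ⟨S, ⟨fun w hw => by rw [← hw.1.norm, map_zero], fun v hv w hw => ?_⟩,
    fun w c => ⟨fun h => ⟨h.congr rfl (key _ _ h).1, (key _ _ h).1⟩, fun h => h.1.congr rfl h.2.symm⟩⟩
  simpa using (key _ _ (RR.add hv hw)).1

end Symm

end Cfsg.Agent.Class.MinDegO
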