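import Mathlib
import Cfsg.Agent.Class.MinDegO.Sym

/-!
Minimal degree of classical groups: existence of good partners by counting.
-/

set_option autoImplicit false
set_option linter.unusedSectionVars false

namespace Cfsg.Agent.Class.MinDegO

open Module Cfsg.Agent.Class.Max Cfsg.Agent.Class.Max.Fm

variable {F V : Type*} [Field F] [AddCommGroup V] [Module F V] {Φ : Fm F V}
  {H : Subgroup (V ≃ₗ[F] V)} {x x' z e f : V}

theorem ncard_le_of_rel {α β : Type*} [Finite β] {S : Set α} {T : Set β} (R : α → β → Prop)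
    (h1 : ∀ a ∈ S, ∃ b ∈ T, R a b) (h2 : ∀ a ∈ S, ∀ a' ∈ S, ∀ b, R a b → R a' b → a = a') :
    S.ncard ≤ T.ncard := by
  rcases S.eq_empty_or_nonempty with rfl | ⟨a₀, h₀⟩
  · simp
  have : Nonempty β := ⟨(h1 a₀ h₀).choose⟩
  choose! φ hφ hφ' using h1
  exact Set.ncard_le_ncard_of_injOn φ hφ fun a ha a' ha' e =>
    h2 a ha a' ha' _ (hφ' a ha) (e ▸ hφ' a' ha')

variable (Φ H) in
/-- The vector parts of the parameters at `x`. -/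
def MA (x : V) : AddSubgroup V where
  carrier := {w | ∃ p ∈ RS Φ H x, p.w = w}
  zero_mem' := ⟨1, Subgroup.one_mem _, rfl⟩
  add_mem' := by
    rintro _ _ ⟨p, hp, rfl⟩ ⟨q, hq, rfl⟩
    exact ⟨p * q, Subgroup.mul_mem _ hp hq, rfl⟩
  neg_mem' := by
    rintro _ ⟨p, hp, rfl⟩
    exact ⟨p⁻¹, Subgroup.inv_mem _ hp, rfl⟩

theorem mem_MA (hx : Φ.Q x = 0) {w : V} : w ∈ MA Φ H x ↔ Φ.InA H x w := (inA_iff hx).symm

theorem MA_le : MA Φ H x ≤ (LinearMap.ker (Φ.B x)).toAddSubgroup := by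
  rintro _ ⟨p, hp, rfl⟩
  exact RS_le hp

variable (Φ H) in
/-- The index of the vector parts in the perpendicular of `x`. -/
noncomputable def abar (x : V) : ℕ := (MA Φ H x).relIndex (LinearMap.ker (Φ.B x)).toAddSubgroup

theorem card_RS_eq_MA :
    Nat.card (RS Φ H x) = Nat.card (MA Φ H x) * Nat.card ↥(RS Φ H x ⊓ HU Φ ⊥) := by
  rw [card_eq_map_mul (RS Φ H x) (wHom Φ), ker_wHom]
  rfl

variable [Finite F] [Finite V] [FiniteDimensional F V]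

theorem card_MA_mul (hx0 : x ≠ 0) :
    Nat.card (MA Φ H x) * abar Φ H x = Nat.card F ^ (finrank F V - 1) := by
  have h1 := AddSubgroup.card_mul_index
    ((MA Φ H x).addSubgroupOf (LinearMap.ker (Φ.B x)).toAddSubgroup)
  rw [Nat.card_congr (AddSubgroup.addSubgroupOfEquivOfLe MA_le).toEquiv] at h1
  have h2 := finrank_ker_B (Φ := Φ) hx0
  rw [← h2, Nat.add_sub_cancel, ← card_submodule]
  exact h1

theorem ncard_bad (hx : Φ.Q x = 0) {ι : Type*} (S : Set ι) (ζ : ι → V)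
    (h1 : ∀ i ∈ S, ¬ ∀ β, ∃ m c, RR Φ H x m c ∧ Φ.B (ζ i) m = β)
    (h2 : ∀ i ∈ S, ∀ a : F, ζ i ≠ a • x)
    (h3 : ∀ i ∈ S, ∀ j ∈ S, i ≠ j → ∀ a b : F, ζ j ≠ a • x + b • ζ i) :
    S.ncard + 1 ≤ abar Φ H x ∧ ((2 : F) ≠ 0 → 2 * S.ncard + 1 ≤ abar Φ H x) := by
  let T := (LinearMap.ker (Φ.B x)).toAddSubgroup
  have := ncard_proper_le ((MA Φ H x).addSubgroupOf T) S (fun i =>
    (((MA Φ H x).map (Φ.B (ζ i)).toAddMonoidHom).comap (Φ.B (ζ i)).toAddMonoidHom).addSubgroupOf T)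
    (fun i _ v hv => ⟨v, hv, rfl⟩) (fun i hi c => h1 i hi fun β => by
      obtain ⟨y, hy, hy'⟩ : ∃ y, Φ.B x y = 0 ∧ Φ.B (ζ i) y ≠ 0 := by
        by_contra c
        push Not at c
        obtain ⟨a, ha⟩ := Φ.exists_smul_of_perp c
        exact h2 i hi a ha
      obtain ⟨m, hm, e⟩ := (eq_top_iff.1 c) (AddSubgroup.mem_top
        (⟨(β * (Φ.B (ζ i) y)⁻¹) • y, by simp [T, hy]⟩ : T))
      obtain ⟨c, hc⟩ := (mem_MA hx).1 hm
      exact ⟨m, c, hc, by simpa [hy'] using e⟩) (fun i hi j hj hij a => by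
      obtain ⟨y, hy, hy', hy''⟩ : ∃ y, Φ.B x y = 0 ∧ Φ.B (ζ i) y = 0 ∧ Φ.B (ζ j) y ≠ 0 := by
        by_contra c
        push Not at c
        obtain ⟨a, b, ha⟩ := mem_span_pair_of_perp c
        exact h3 i hi j hj hij a b ha
      refine ⟨⟨(Φ.B (ζ j) a * (Φ.B (ζ j) y)⁻¹) • y, by simp [T, hy]⟩,
        ⟨0, AddSubgroup.zero_mem _, by simp [hy']⟩, 0, AddSubgroup.zero_mem _, by simp [hy'']⟩)
  exact ⟨this.1, fun h => this.2 fun a => ⟨⟨(2 : F)⁻¹ • a.1, (LinearMap.ker _).smul_mem _ a.2⟩,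
    Subtype.ext (by
      change (2 : F)⁻¹ • a.1 + (2 : F)⁻¹ • a.1 = a.1
      rw [← add_smul, ← two_mul, mul_inv_cancel₀ h, one_smul])⟩⟩

variable (Φ) in
/-- Two orthogonal hyperbolic pairs. -/
structure Hyp2 (x x' e f : V) : Prop where
  qx : Φ.Q x = 0
  qx' : Φ.Q x' = 0
  qe : Φ.Q e = 0
  qf : Φ.Q f = 0
  xx' : Φ.B x x' = 1
  hef : Φ.B e f = 1
  he : e ∈ pp Φ ⊤ x x'
  hf : f ∈ pp Φ ⊤ x x'

theorem Hyp2.rank_eq (h : Hyp2 Φ x x' e f) :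
    finrank F (pp Φ (pp Φ ⊤ x x') e f) + 4 = finrank F V := by
  have h1 := finrank_pp h.he h.hf h.qe h.qf h.hef
  have h2 := finrank_pp (U := ⊤) trivial trivial h.qx h.qx' h.xx'
  rw [finrank_top] at h2
  omega

theorem Hyp2.ne (h : Hyp2 Φ x x' e f) : x ≠ 0 := fun c => by simpa [c] using h.xx'

theorem Hyp2.zeta (h : Hyp2 Φ x x' e f) {p : Hat Φ} (hp : p ∈ HU Φ (pp Φ (pp Φ ⊤ x x') e f)) :
    Φ.ef e p.w p.c f ∈ pp Φ ⊤ x x' ∧ Φ.Q (Φ.ef e p.w p.c f) = 0 ∧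
      Φ.B e (Φ.ef e p.w p.c f) = 1 := by
  have hp := mem_pp.1 (mem_HU.1 hp)
  have hv := p.valid h.qe hp.2.1
  exact ⟨ef_mem _ h.he hp.1 h.hf, by rw [hv.Q_ef, h.qf], by rw [hv.B_ef, h.hef]⟩

theorem Hyp2.zeta_inj (h : Hyp2 Φ x x' e f) {p q : Hat Φ}
    (hp : p ∈ HU Φ (pp Φ (pp Φ ⊤ x x') e f)) (hq : q ∈ HU Φ (pp Φ (pp Φ ⊤ x x') e f)) {a b : F}
    (e' : Φ.ef e q.w q.c f = a • x + b • Φ.ef e p.w p.c f) : q = p := by
  have h1 := congrArg (Φ.B x') e'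
  have h2 := congrArg (Φ.B e) e'
  rw [map_add, map_smul, map_smul, (mem_pp.1 (h.zeta hp).1).2.2, (mem_pp.1 (h.zeta hq).1).2.2,
    B_eq_eps h.xx'] at h1
  rw [map_add, map_smul, map_smul, (h.zeta hp).2.2, (h.zeta hq).2.2,
    Φ.perp_symm (mem_pp.1 h.he).2.1] at h2
  obtain rfl : a = 0 := by simpa [Φ.eps_ne] using h1
  obtain rfl : b = 1 := by simpa using h2.symm
  have := ef_inj (v := f) h.hef (by simp [h.hef]) (mem_pp.1 (mem_HU.1 hq)).2.2 (mem_pp.1 (mem_HU.1 hp)).2.2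
    (by simpa using e')
  exact Hat.ext this.1 this.2

theorem Hyp2.ncard_bad (h : Hyp2 Φ x x' e f) (S : Set (Hat Φ))
    (hS : S = {p | p ∈ HU Φ (pp Φ (pp Φ ⊤ x x') e f) ∧
      ¬ ∀ β, ∃ m c, RR Φ H x m c ∧ Φ.B (Φ.ef e p.w p.c f) m = β}) :
    S.ncard + 1 ≤ abar Φ H x ∧ ((2 : F) ≠ 0 → 2 * S.ncard + 1 ≤ abar Φ H x) := by
  subst hS
  refine MinDegO.ncard_bad h.qx _ (fun p : Hat Φ => Φ.ef e p.w p.c f) (fun _ hp => hp.2)
    (fun p hp a c => ?_) fun p hp q hq hpq a b c => hpq (h.zeta_inj hp.1 hq.1 c).symm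
  have := (h.zeta hp.1).2.2
  simp [c, Φ.perp_symm (mem_pp.1 h.he).2.1] at this

theorem Hyp2.card_HU (h : Hyp2 Φ x x' e f) :
    (HU Φ (pp Φ (pp Φ ⊤ x x') e f) : Set (Hat Φ)).ncard =
      Nat.card F ^ (finrank F V - 4) * lam Φ := by
  rw [ncard_subgroup, MinDegO.card_HU, card_submodule, ← h.rank_eq, Nat.add_sub_cancel]

theorem exists_hyp2 (hx : Φ.Q x = 0) (hx' : Φ.Q x' = 0) (h : Φ.B x x' = 1)
    (he : e ∈ pp Φ ⊤ x x') (he0 : e ≠ 0) (qe : Φ.Q e = 0) : ∃ f, Hyp2 Φ x x' e f := by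
  obtain ⟨f, hf, qf, hef⟩ := exists_partner he qe
    ((nd_pp Φ.nd_top trivial trivial hx hx' h).exists_ne he he0)
  exact ⟨f, hx, hx', qe, qf, h, hef, he, hf⟩

theorem exists_hyp2' (hd : Φ.d + 2 ≤ finrank F V) (hx : Φ.Q x = 0) (hx' : Φ.Q x' = 0)
    (h : Φ.B x x' = 1) : ∃ e f, Hyp2 Φ x x' e f := by
  have h2 := finrank_pp (U := ⊤) trivial trivial hx hx' h
  rw [finrank_top] at h2
  obtain ⟨e, he, he0, qe⟩ := Φ.iso (pp Φ ⊤ x x') (by omega)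
  exact ⟨e, exists_hyp2 hx hx' h he he0 qe⟩

section Symm

variable (hσ : ∀ a, Φ.σ a = a) (hε : Φ.ε = 1)
include hσ hε

theorem Hyp2.ncard_line (h : Hyp2 Φ x x' e f) (he : ∀ t : F, RR Φ H x (t • e) 0)
    (hF : ¬ Φ.Full H x) : 2 * {p | p ∈ HU Φ (pp Φ (pp Φ ⊤ x x') e f) ∧
      ∀ t : F, RR Φ H x (t • Φ.ef e p.w p.c f) 0}.ncard ≤
        Nat.card F ^ (finrank F V - 4) * lam Φ := by
  set W := pp Φ (pp Φ ⊤ x x') e f with hW
  rcases Set.eq_empty_or_nonempty {p | p ∈ HU Φ W ∧ ∀ t : F, RR Φ H x (t • Φ.ef e p.w p.c f) 0}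
    with h0 | ⟨p₀, hp₀, hp₀'⟩
  · simp [h0]
  have hee := Φ.B_self h.qe
  let A : Subgroup (Hat Φ) :=
    { carrier := {p | p ∈ HU Φ W ∧ RR Φ H x p.w p.c}
      one_mem' := ⟨Subgroup.one_mem _, rr_zero h.qx⟩
      mul_mem' := fun hp hq => ⟨Subgroup.mul_mem _ hp.1 hq.1, hp.2.add hq.2⟩
      inv_mem' := fun hp => ⟨Subgroup.inv_mem _ hp.1, hp.2.neg⟩ }
  have hA : ¬ HU Φ W ≤ A := fun hle => hF fun w c' hv => by
    refine InA.hasE ?_ (fun c hc => ?_) hv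
    · obtain ⟨d, hd, e1⟩ := hyp_decomp_mem (U := ⊤) trivial trivial h.qx h.qx' h.xx'
        (y := w) trivial
      obtain ⟨u, hu, e2⟩ := hyp_decomp_mem h.he h.hf h.qe h.qf h.hef hd
      have hu' := W.sub_mem hu (W.smul_mem (Φ.B e d) hp₀)
      obtain ⟨c₁, hc₁⟩ := Φ.range (u - Φ.B e d • p₀.w)
      have := ((((hle (x := ⟨_, c₁, hc₁⟩) hu').2.inA.add (hp₀' (Φ.B e d)).inA).add
        (he (Φ.B f d + Φ.B e d * (Φ.B p₀.w f + p₀.c))).inA)).add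
        (inA_smul_self h.qx (Φ.B x' w))
      convert this using 1
      rw [hv.perp, hε] at e1
      rw [hε] at e2
      simp only [ef, h.hef, hε]
      linear_combination (norm := module) e1 + e2
    · exact (hle (x := ⟨0, c, hc.trans Φ.Q_zero.symm⟩) W.zero_mem).2.2
  have h1 := two_mul_card_le_of_ne_top (A := A) (fun p hp => hp.1) hA
  rw [← ncard_subgroup, ← ncard_subgroup, h.card_HU] at h1
  refine le_trans (Nat.mul_le_mul_left _ ?_) h1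
  refine Set.ncard_le_ncard_of_injOn (fun p => p₀⁻¹ * p) (fun p hp => ⟨Subgroup.mul_mem _
    (Subgroup.inv_mem _ hp₀) hp.1, ?_⟩) fun _ _ _ _ e => mul_left_cancel e
  obtain ⟨-, a1, a2⟩ := mem_pp.1 (mem_HU.1 hp₀)
  obtain ⟨-, b1, b2⟩ := mem_pp.1 (mem_HU.1 hp.1)
  refine (((hp.2 1).sub (hp₀' 1)).add (he (p.c - p₀.c))).congr ?_ ?_
  · simp only [ef, h.hef, hε, Hat.mul_w, Hat.inv_w, Φ.perp_symm a2, Φ.perp_symm b2]
    module
  · have t := Φ.trace _ _ p₀.h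
    rw [hσ, hε] at t
    simp only [ef, h.hef, hε, hσ, Hat.mul_c, Hat.inv_c, Hat.inv_w, Φ.bsimp, a1, a2, b1, b2, hee,
      Φ.perp_symm a1, Φ.perp_symm b1, Φ.perp_symm a2, Φ.perp_symm b2, B_eq_eps h.hef,
      Φ.B_self h.qf, ← t, B_comm hσ hε p.w p₀.w]
    ring

theorem card_RS_eq' (hx : Φ.Q x = 0) (h : Φ.B x x' = 1) : Nat.card (RS Φ H x) =
    Nat.card ↥(RS Φ H x ⊓ HU Φ (LinearMap.ker (Φ.B x'))) * Nat.card F :=
  card_RS_eq hx fun β => ⟨_, _, (rr_zero hx).add_self hσ hε β, by simp [B_eq_eps h, hε]⟩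

theorem Hyp2.ncard_nz (h : Hyp2 Φ x x' e f) :
    ({p | p ∈ HU Φ (pp Φ (pp Φ ⊤ x x') e f) ∧
      ¬ ∀ t : F, RR Φ H x (t • Φ.ef e p.w p.c f) 0 → t = 0}.ncard + 1) * Nat.card F ≤
        Nat.card (RS Φ H x) := by
  rw [card_RS_eq' hσ hε h.qx h.xx', ← ncard_subgroup]
  refine Nat.mul_le_mul_right _ ?_
  rw [← Set.ncard_sdiff_singleton_add_one (Subgroup.one_mem _), Nat.add_le_add_iff_right]
  refine ncard_le_of_rel (fun p q => ∃ t : F, t ≠ 0 ∧ q.w = t • Φ.ef e p.w p.c f)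
    (fun p hp => ?_) ?_
  · obtain ⟨t, ht⟩ := not_forall.1 hp.2
    obtain ⟨h1, h2⟩ := Classical.not_imp.1 ht
    refine ⟨_, ⟨⟨h1.mem, ?_⟩, fun c => h2 ?_⟩, t, h2, rfl⟩
    · change Φ.B x' _ = 0
      simp [(mem_pp.1 (h.zeta hp.1).1).2.2]
    · simpa [(h.zeta hp.1).2.2] using congrArg (fun q : Hat Φ => Φ.B e q.w) c
  · rintro p hp p' hp' q ⟨t, ht, e1⟩ ⟨t', -, e2⟩
    refine h.zeta_inj hp'.1 hp.1 (a := 0) (b := t⁻¹ * t') ?_
    rw [mul_smul, ← e2, e1, inv_smul_smul₀ ht, zero_smul, zero_add]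

omit hσ hε in
theorem Hyp2.exists_of_lt (h : Hyp2 Φ x x' e f) (P : V → Prop)
    (hlt : {p | p ∈ HU Φ (pp Φ (pp Φ ⊤ x x') e f) ∧
      ¬ ∀ β, ∃ m c, RR Φ H x m c ∧ Φ.B (Φ.ef e p.w p.c f) m = β}.ncard +
      {p | p ∈ HU Φ (pp Φ (pp Φ ⊤ x x') e f) ∧ ¬ P (Φ.ef e p.w p.c f)}.ncard <
        Nat.card F ^ (finrank F V - 4) * lam Φ) :
    ∃ z, Φ.Q z = 0 ∧ Φ.B x z = 0 ∧ (∀ β, ∃ m c, RR Φ H x m c ∧ Φ.B z m = β) ∧ P z := by
  by_contra c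
  refine absurd hlt (not_lt.2 ?_)
  rw [← h.card_HU]
  refine le_trans (Set.ncard_le_ncard fun p hp => ?_) (Set.ncard_union_le _ _)
  by_cases h1 : P (Φ.ef e p.w p.c f)
  · exact .inl ⟨hp, fun h2 => c ⟨_, (h.zeta hp).2.1, (mem_pp.1 (h.zeta hp).1).2.1, h2, h1⟩⟩
  · exact .inr ⟨hp, h1⟩

theorem exists_good (hd : Φ.d + 2 ≤ finrank F V) (hx : Φ.Q x = 0) (hx0 : x ≠ 0)
    (hF : ¬ Φ.Full H x) (h1 : 2 * abar Φ H x ≤ Nat.card F ^ (finrank F V - 4) * lam Φ ∨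
      ((2 : F) ≠ 0 ∧ abar Φ H x ≤ Nat.card F ^ (finrank F V - 4) * lam Φ)) :
    ∃ z, Good Φ H x z := by
  obtain ⟨x', hx', h⟩ := exists_partner_top hx hx0
  obtain ⟨e, f, hh, h2⟩ : ∃ e f, Hyp2 Φ x x' e f ∧ 2 * {p | p ∈ HU Φ (pp Φ (pp Φ ⊤ x x') e f) ∧
      ∀ t : F, RR Φ H x (t • Φ.ef e p.w p.c f) 0}.ncard ≤
        Nat.card F ^ (finrank F V - 4) * lam Φ := by
    by_cases c : ∃ e ∈ pp Φ ⊤ x x', e ≠ 0 ∧ ∀ t : F, RR Φ H x (t • e) 0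
    · obtain ⟨e, he, he0, he1⟩ := c
      obtain ⟨f, hh⟩ := exists_hyp2 hx hx' h he he0 (by simpa using (he1 1).1.norm.symm)
      exact ⟨e, f, hh, hh.ncard_line hσ hε he1 hF⟩
    · obtain ⟨e, f, hh⟩ := exists_hyp2' hd hx hx' h
      refine ⟨e, f, hh, ?_⟩
      rw [Set.eq_empty_of_forall_notMem (s := {p | _}) fun p hp => c ⟨_, (hh.zeta hp.1).1,
        fun c => by simpa [c] using (hh.zeta hp.1).2.2, hp.2⟩]
      simp
  obtain ⟨z, a1, a2, a3, a4⟩ := hh.exists_of_lt (H := H) (fun z => ¬ ∀ t : F, RR Φ H x (t • z) 0) (by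
    have := hh.ncard_bad (H := H) _ rfl
    simp only [not_not]
    rcases h1 with h1 | h1
    · omega
    · have := this.2 h1.1
      omega)
  exact ⟨z, a1, a2, a3, not_forall.1 a4⟩

theorem exists_very_good (hd : Φ.d + 2 ≤ finrank F V) (hx : Φ.Q x = 0) (hx0 : x ≠ 0)
    (h1 : 2 * abar Φ H x ≤ Nat.card F ^ (finrank F V - 4) * lam Φ)
    (h2 : 2 * Nat.card (RS Φ H x) ≤ Nat.card F ^ (finrank F V - 4) * lam Φ * Nat.card F) :
    ∃ z, Good Φ H x z ∧ ∀ t : F, RR Φ H x (t • z) 0 → t = 0 := by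
  obtain ⟨x', hx', h⟩ := exists_partner_top hx hx0
  obtain ⟨e, f, hh⟩ := exists_hyp2' hd hx hx' h
  obtain ⟨z, a1, a2, a3, a4⟩ := hh.exists_of_lt (H := H)
    (fun z => ∀ t : F, RR Φ H x (t • z) 0 → t = 0) (by
    have h3 := (hh.ncard_bad (H := H) _ rfl).1
    have h4 := (Nat.mul_le_mul_left 2 (hh.ncard_nz (H := H) hσ hε)).trans h2
    rw [← mul_assoc] at h4
    have := Nat.le_of_mul_le_mul_right h4 Nat.card_pos
    omega)
  exact ⟨z, ⟨a1, a2, a3, 1, fun c => one_ne_zero (a4 1 c)⟩, a4⟩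

theorem Good.card_le (g : Good Φ H x z) (hx : Φ.Q x = 0) (hx0 : x ≠ 0)
    (hmin : Nat.card (RS Φ H x) ≤ Nat.card (RS Φ H z))
    (hn : ∀ w, RR Φ H x w 0 → Φ.B z w = 0 → ∃ a b : F, w = a • x + b • z) (T : Set F)
    (hT : ∀ w c, RR Φ H x w c → Φ.B z w = 0 → c ∈ T) :
    Nat.card (RS Φ H x) ≤ T.ncard * (Nat.card F * (LL Φ H x z).ncard) * Nat.card F := by
  rw [card_RS_eq hx g.surj, ← ncard_subgroup]
  refine Nat.mul_le_mul_right _ (ncard_le_mul_of_fiber _ _ Hat.c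
    (fun p hp => hT _ _ ((mem_RS_iff hx).1 hp.1) hp.2) _ fun c _ => ?_)
  rcases Set.eq_empty_or_nonempty {p : Hat Φ | p ∈ (↑(RS Φ H x ⊓ HU Φ (LinearMap.ker (Φ.B z))) :
    Set (Hat Φ)) ∧ p.c = c} with h0 | ⟨p₀, hp₀, e₀⟩
  · rw [h0]; simp
  rw [← Set.ncard_univ F, ← Set.ncard_prod]
  refine ncard_le_of_rel (fun p q => p.w - p₀.w = q.1 • x + q.2 • z) (fun p hp => ?_) ?_
  · have a0 := (mem_RS_iff hx).1 hp₀.1
    have a1 := (mem_RS_iff hx).1 hp.1.1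
    have b0 : Φ.B z p₀.w = 0 := hp₀.2
    have b1 : Φ.B z p.w = 0 := hp.1.2
    have a2 : RR Φ H x (p.w - p₀.w) 0 := (a1.sub a0).congr rfl (by
      simp [hp.2, e₀, g.B_eq_zero hσ hε hx hx0 hmin a0 b0 a0 b0,
        g.B_eq_zero hσ hε hx hx0 hmin a1 b1 a0 b0])
    obtain ⟨a, b, e⟩ := hn _ a2 (by simp [b0, b1])
    exact ⟨(a, b), ⟨trivial, (a2.add_self hσ hε (-a)).congr (by rw [e]; module) rfl⟩, e⟩
  · intro p hp p' hp' q e1 e2
    exact Hat.ext (sub_left_injective (e1.trans e2.symm)) (hp.2.trans hp'.2.symm)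

/-- The symmetry lemma. -/
theorem sym_main (hd : Φ.d + 2 ≤ finrank F V) (hx : Φ.Q x = 0) (hx0 : x ≠ 0)
    (hF : ¬ Φ.Full H x)
    (hmin : ∀ z, Good Φ H x z → Nat.card (RS Φ H x) ≤ Nat.card (RS Φ H z))
    (h1 : 2 * abar Φ H x ≤ Nat.card F ^ (finrank F V - 4) * lam Φ ∨
      ((2 : F) ≠ 0 ∧ abar Φ H x ≤ Nat.card F ^ (finrank F V - 4) * lam Φ))
    (h2 : ((2 : F) ≠ 0 ∧ Nat.card F ^ 3 < 2 * Nat.card (RS Φ H x)) ∨
      Nat.card F ^ 4 < 2 * Nat.card (RS Φ H x) ∨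
      (3 ≤ Nat.card F ∧ Nat.card F ^ 2 < Nat.card (RS Φ H x) ∧
        2 * abar Φ H x ≤ Nat.card F ^ (finrank F V - 4) * lam Φ ∧
        2 * Nat.card (RS Φ H x) ≤ Nat.card F ^ (finrank F V - 4) * lam Φ * Nat.card F)) :
    ∃ S : Submodule F V, Φ.TS S ∧ ∀ w c, RR Φ H x w c ↔ w ∈ S ∧ c = 0 := by
  have key : ∀ z, Good Φ H x z → ∀ T : Set F, (∀ w c, RR Φ H x w c → Φ.B z w = 0 → c ∈ T) →
      T.ncard * (Nat.card F * (LL Φ H x z).ncard) * Nat.card F < Nat.card (RS Φ H x) →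
      ∃ S : Submodule F V, Φ.TS S ∧ ∀ w c, RR Φ H x w c ↔ w ∈ S ∧ c = 0 := by
    intro z g T hT hlt
    by_cases hn : ∀ w, RR Φ H x w 0 → Φ.B z w = 0 → ∃ a b : F, w = a • x + b • z
    · exact absurd (g.card_le hσ hε hx hx0 (hmin z g) hn T hT) (not_le.2 hlt)
    push Not at hn
    obtain ⟨w, a1, a2, a3⟩ := hn
    obtain ⟨s, b1, b2, b3⟩ := g.line hσ hε hx hx0 (hmin z g) a1 a2 a3
    exact exists_sigma_of_line hσ hε hx hx0 hmin b1 b2 b3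
  rcases h2 with h2 | h2 | ⟨h2, h3, h4, h5⟩
  · obtain ⟨z, g⟩ := exists_good hσ hε hd hx hx0 hF h1
    have := Nat.mul_le_mul_left (Nat.card F ^ 2) (two_mul_LL_le hx g.sing g.ne g.nl)
    refine key z g {0} (fun w c a1 a2 => ?_) (by rw [Set.ncard_singleton]; nlinarith [h2.2])
    have t := a1.trace
    rw [hσ, hε, g.B_eq_zero hσ hε hx hx0 (hmin z g) a1 a2 a1 a2, one_mul, ← two_mul] at t
    exact (mul_eq_zero.1 t).resolve_left h2.1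
  · obtain ⟨z, g⟩ := exists_good hσ hε hd hx hx0 hF h1
    have := Nat.mul_le_mul_left (Nat.card F ^ 3) (two_mul_LL_le hx g.sing g.ne g.nl)
    exact key z g Set.univ (fun _ _ _ _ => trivial) (by rw [Set.ncard_univ]; nlinarith)
  · obtain ⟨z, g, hL⟩ := exists_very_good hσ hε hd hx hx0 h4 h5
    obtain ⟨β, b0, b1⟩ : ∃ β : F, β ≠ 0 ∧ β ≠ 1 := by
      by_contra c
      push Not at c
      have := Set.ncard_le_ncard (s := Set.univ) (t := {(0 : F), 1}) fun a _ => by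
        by_cases h : a = 0
        · exact .inl h
        · exact .inr (c a h)
      rw [Set.ncard_univ, Set.ncard_pair zero_ne_one] at this
      omega
    have : (LL Φ H x z).ncard ≤ 1 := (Set.ncard_le_one (Set.toFinite _)).2 fun a ha b hb => by
      rw [hL a ha, hL b hb]
    refine key z g {0} (fun w c a1 a2 => g.c_eq_zero hσ hε hx hx0 (hmin z g) hL b0 b1 a1 a2) ?_
    have := Nat.mul_le_mul_left (Nat.card F ^ 2) this
    rw [Set.ncard_singleton]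
    nlinarith

end Symm

end Cfsg.Agent.Class.MinDegO
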