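import Mathlib
import Cfsg.Agent.Class.MinDegO.End

/-!
Minimal degree of classical groups: torus elements split the point stabiliser.
-/

set_option autoImplicit false
set_option linter.unusedSectionVars false

namespace Cfsg.Agent.Class.MinDegO

open Module Cfsg.Agent.Class.Max Cfsg.Agent.Class.Max.Fm

theorem mem_of_fpf {G : Type*} [Group G] [Finite G] {H Q : Subgroup G} {k l g u : G} (hk : k ∈ H)
    (hn : ∀ u ∈ Q, k * u * k⁻¹ ∈ Q) (hf : ∀ u ∈ Q, k * u * k⁻¹ = u → u = 1)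
    (hc : k * l = l * k) (hg : g ∈ H) (hu : u ∈ Q) (e : l = g * u) : l ∈ H := by
  let ψ : ↥(H ⊓ Q) → ↥(H ⊓ Q) := fun a => ⟨a * (k * (a : G)⁻¹ * k⁻¹),
    H.mul_mem a.2.1 (H.mul_mem (H.mul_mem hk (H.inv_mem a.2.1)) (H.inv_mem hk)),
    Q.mul_mem a.2.2 (hn _ (Q.inv_mem a.2.2))⟩
  have inj : ∀ a ∈ Q, ∀ b ∈ Q, a * (k * a⁻¹ * k⁻¹) = b * (k * b⁻¹ * k⁻¹) → a = b := by
    intro a ha b hb h
    refine (inv_mul_eq_one.1 (hf _ (Q.mul_mem (Q.inv_mem hb) ha) ?_)).symm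
    calc k * (b⁻¹ * a) * k⁻¹ = b⁻¹ * (b * (k * b⁻¹ * k⁻¹)) * (k * a * k⁻¹) := by group
      _ = b⁻¹ * a := by rw [← h]; group
  have hψ : Function.Surjective ψ := Finite.surjective_of_injective fun a b h =>
    Subtype.ext (inj _ a.2.2 _ b.2.2 (congrArg Subtype.val h))
  have h1 : u * (k * u⁻¹ * k⁻¹) = g⁻¹ * k * g * k⁻¹ := by
    have : g = l * u⁻¹ := by rw [e]; group
    rw [this]
    calc u * (k * u⁻¹ * k⁻¹) = u * l⁻¹ * (l * k) * u⁻¹ * k⁻¹ := by group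
      _ = _ := by rw [← hc]; group
  obtain ⟨a, ha⟩ := hψ ⟨u * (k * u⁻¹ * k⁻¹), h1 ▸ H.mul_mem (H.mul_mem (H.mul_mem (H.inv_mem hg)
    hk) hg) (H.inv_mem hk), Q.mul_mem hu (hn _ (Q.inv_mem hu))⟩
  rw [e, ← inj _ a.2.2 _ hu (congrArg Subtype.val ha)]
  exact H.mul_mem hg a.2.1

variable {F V : Type*} [Field F] [AddCommGroup V] [Module F V] {Φ : Fm F V}
  {H : Subgroup (V ≃ₗ[F] V)} {x x' : V} {t : F} {k : V ≃ₗ[F] V}

variable (Φ) in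
/-- Elements scaling `x` and acting trivially on `x^⊥ / x`. -/
def IsTor (x : V) (t : F) (k : V ≃ₗ[F] V) : Prop :=
  k x = t • x ∧ ∀ v, Φ.B x v = 0 → ∃ s : F, k v = v + s • x

theorem IsTor.mul (h : IsTor Φ x t k) {u : V ≃ₗ[F] V} (hu : u ∈ Qx Φ x) : IsTor Φ x t (k * u) := by
  refine ⟨by rw [mul_app, hu.2.1, h.1], fun v hv => ?_⟩
  obtain ⟨s, hs⟩ := hu.2.2 v hv
  obtain ⟨r, hr⟩ := h.2 v hv
  exact ⟨r + s * t, by rw [mul_app, hs, map_add, map_smul, hr, h.1]; module⟩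

theorem isTor_of_fix (hx : Φ.Q x = 0) (hx' : Φ.Q x' = 0) (h : Φ.B x x' = 1) (h1 : k x = t • x)
    (h2 : ∀ v ∈ pp Φ ⊤ x x', k v = v) : IsTor Φ x t k := by
  refine ⟨h1, fun v hv => ?_⟩
  obtain ⟨d, hd, e⟩ := hyp_decomp_mem (U := ⊤) trivial trivial hx hx' h (y := v) trivial
  refine ⟨Φ.ε * Φ.B x' v * (t - 1), ?_⟩
  rw [hv, zero_smul, add_zero] at e
  have := congrArg k e
  rw [map_add, map_smul, h2 d hd, h1] at this
  linear_combination (norm := module) this - e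

variable [Finite F] [Finite V] [FiniteDimensional F V]

theorem exists_partner_of_compl (hx : Φ.Q x = 0) {D : Submodule F V} (h1 : x ∉ D)
    (h2 : ∀ v ∈ D, Φ.B x v = 0) (h3 : ∀ v, Φ.B x v = 0 → ∃ s : F, v + s • x ∈ D) :
    ∃ x', Φ.Q x' = 0 ∧ Φ.B x x' = 1 ∧ pp Φ ⊤ x x' = D := by
  obtain ⟨y, hy, hy1⟩ := Φ.exists_perp_not_perp h1
  obtain ⟨x', hx', hq, h⟩ := exists_partner (U := Φ.perp D) (e := x)
    (fun v hv => Φ.perp_symm (h2 v hv)) hx ⟨y, hy, Φ.ne_symm (by simp [hy1])⟩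
  refine ⟨x', hq, h, le_antisymm (fun v hv => ?_) fun v hv =>
    mem_pp.2 ⟨trivial, h2 v hv, Φ.perp_symm (hx' v hv)⟩⟩
  obtain ⟨-, a1, a2⟩ := mem_pp.1 hv
  obtain ⟨s, hs⟩ := h3 v a1
  have := Φ.perp_symm (hx' _ hs)
  rw [map_add, map_smul, a2, B_eq_eps h] at this
  obtain rfl : s = 0 := by simpa [Φ.eps_ne] using this
  simpa using hs

theorem IsTor.exists_fix (h : IsTor Φ x t k) (hx : Φ.Q x = 0) (hx0 : x ≠ 0) (ht : t ≠ 1) :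
    ∃ x', Φ.Q x' = 0 ∧ Φ.B x x' = 1 ∧ ∀ v ∈ pp Φ ⊤ x x', k v = v := by
  have ht' : t - 1 ≠ 0 := sub_ne_zero.2 ht
  obtain ⟨x', a1, a2, a3⟩ := exists_partner_of_compl hx
    (D := LinearMap.ker (Φ.B x) ⊓ LinearMap.ker ((k : V →ₗ[F] V) - LinearMap.id)) (fun c => by
      have : k x - x = 0 := c.2
      rw [h.1] at this
      exact hx0 ((smul_eq_zero.1 (show (t - 1) • x = 0 by rw [← this]; module)).resolve_left ht'))
    (fun v hv => hv.1) fun v hv => by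
      obtain ⟨s, hs⟩ := h.2 v hv
      refine ⟨-(s / (t - 1)), by simp [hv, Φ.B_self hx], ?_⟩
      change k (v + _) - (v + _) = 0
      rw [map_add, map_smul, hs, h.1]
      match_scalars
      · ring
      · field_simp; ring
  exact ⟨x', a1, a2, fun v hv => sub_eq_zero.1 (a3 ▸ hv).2⟩

theorem exists_of_mem_Qx' (hx : Φ.Q x = 0) (hx' : Φ.Q x' = 0) (h : Φ.B x x' = 1)
    {u : V ≃ₗ[F] V} (hu : u ∈ Qx Φ x) :
    ∃ w ∈ pp Φ ⊤ x x', ∃ c, Φ.Valid x w c ∧ ∀ v, u v = Φ.ef x w c v := by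
  obtain ⟨w, c, hv, e⟩ := exists_of_mem_Qx hx (fun c => by simp [c] at h) hu
  obtain ⟨d, hd, e'⟩ := hyp_decomp_mem (U := ⊤) trivial trivial hx hx' h (y := w) trivial
  rw [hv.perp, zero_smul, add_zero] at e'
  have e2 : ∀ v, u v = Φ.ef x d (c + Φ.σ (Φ.ε * Φ.B x' w) - Φ.ε * (Φ.ε * Φ.B x' w)) v :=
    fun v => by rw [← ef_add_smul, ← e', e]
  exact ⟨d, hd, _, valid_of_Iso hx (fun c => by simp [c] at h) (mem_pp.1 hd).2.1 hu.1 e2, e2⟩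

theorem comm_of_fix (hx : Φ.Q x = 0) (hx' : Φ.Q x' = 0) (h : Φ.B x x' = 1) (hI : k ∈ Φ.Iso)
    (hk : ∀ v ∈ pp Φ ⊤ x x', k v = v) {l : V ≃ₗ[F] V} (hl : l ∈ GU Φ (pp Φ ⊤ x x')) :
    k * l = l * k := by
  refine LinearEquiv.ext fun v => ?_
  obtain ⟨d, hd, e⟩ := (nd_pp Φ.nd_top trivial trivial hx hx' h).exists_decomp v
  have h1 : k (v - d) ∈ Φ.perp (pp Φ ⊤ x x') := fun y hy => by
    rw [← hk y hy, Iso.B hI]; exact e y hy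
  have h2 := hl.2 _ e
  have h3 := hl.2 _ h1
  rw [map_sub] at h2
  rw [map_sub, map_sub, hk d hd] at h3
  have h4 := congrArg k h2
  rw [map_sub, map_sub, hk d hd, hk _ (GU_mem hl hd)] at h4
  rw [mul_app, mul_app]
  linear_combination (norm := module) h4 - h3

theorem torus (hx : Φ.Q x = 0) (hx' : Φ.Q x' = 0) (h : Φ.B x x' = 1) (hkH : k ∈ H)
    (hE : k ∈ Φ.EG) (hk1 : k x = t • x) (hk : ∀ v ∈ pp Φ ⊤ x x', k v = v) (ht : t ≠ 1)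
    (ht' : t * Φ.σ t ≠ 1 ∨ ∀ c, Φ.π c = 0 → c = 0) {l g u : V ≃ₗ[F] V}
    (hl : l ∈ GU Φ (pp Φ ⊤ x x')) (hg : g ∈ H) (hu : u ∈ Qx Φ x) (e : l = g * u) : l ∈ H := by
  have := finite_equiv (F := F) (V := V)
  have hx0 : x ≠ 0 := fun c => by simp [c] at h
  have hI := Φ.EG_le_Iso hE
  refine mem_of_fpf hkH (fun u hu => conj_mem_Qx hx0 (mem_Px.2 ⟨⟨t, hk1⟩, hE⟩) hu) (fun u hu hc => ?_)
    (comm_of_fix hx hx' h hI hk hl) hg hu e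
  obtain ⟨w, hw, c, hv, e⟩ := exists_of_mem_Qx' hx hx' h hu
  have h1 := congrArg (fun g : V ≃ₗ[F] V => g x') hc
  simp only [mul_app] at h1
  rw [e, e, Iso.ef hI, app_inv_app, hk1, hk w hw, ef_smul_left] at h1
  obtain ⟨h2, h3⟩ := ef_inj h (by simp [h]) (by simp [(mem_pp.1 hw).2.2]) (mem_pp.1 hw).2.2 h1
  have hσ : Φ.σ t - 1 ≠ 0 := sub_ne_zero.2 fun c => ht (by rw [← Φ.invol t, c, map_one])
  obtain rfl : w = 0 := (smul_eq_zero.1 (show (Φ.σ t - 1) • w = 0 by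
    rw [sub_smul, h2]; simp)).resolve_left hσ
  obtain rfl : c = 0 := by
    rcases ht' with ht' | ht'
    · exact (mul_eq_zero.1 (show (t * Φ.σ t - 1) * c = 0 by linear_combination h3)).resolve_left
        (sub_ne_zero.2 ht')
    · exact ht' c (hv.norm.trans Φ.Q_zero)
  exact LinearEquiv.ext fun v => by rw [e, ef_zero]; rfl

theorem hasOn_of_GU {D : Submodule F V} (h : ∀ l ∈ GU Φ D, l ∈ H) : Φ.HasOn H D :=
  (hasOn_GU D).mono h le_rfl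

theorem GU_pp_le_Sx : GU Φ (pp Φ ⊤ x x') ≤ Sx Φ x := fun _ hg => mem_Sx.2 ⟨GU_pp_left hg, hg.1⟩

theorem not_le_Px_of_smul (hH : H ≤ Φ.EG) (hk : k ∈ H) (h1 : k x = t • x) (ht : t * Φ.σ t ≠ 1)
    {w : V} (hw : Φ.Q w ≠ 0) (hxw : Φ.B x w ≠ 0) : ¬ H ≤ Px Φ w := fun c => by
  obtain ⟨μ, hμ⟩ := (mem_Px.1 (c hk)).1
  have hI := Φ.EG_le_Iso (hH hk)
  have a1 := Iso.B hI x w
  have a2 := Iso.Q hI w
  rw [h1, hμ, Φ.B_smul_left, Φ.B_smul_right] at a1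
  rw [hμ, Φ.smul] at a2
  have b1 : Φ.σ t * μ = 1 := mul_right_cancel₀ hxw (by linear_combination a1)
  have b2 : μ * Φ.σ μ = 1 := mul_right_cancel₀ hw (by linear_combination a2)
  have b3 := congrArg Φ.σ b1
  rw [Φ.σ.map_mul, Φ.invol, map_one] at b3
  exact ht (by linear_combination (-(t * Φ.σ t)) * b2 + b3 * Φ.σ t * μ + b1)

/-- A regular point whose stabiliser is covered, in the presence of a torus element. -/
theorem regular_torus (hd : Φ.d + 4 ≤ finrank F V) (hH : H ≤ Φ.EG) (hx : Φ.Q x = 0) (hx0 : x ≠ 0)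
    (hreg : ∀ w, Φ.InA H x w → ∃ t : F, w = t • x)
    (hcov : ∀ g ∈ Px Φ x, ∃ k ∈ H, k ∈ Px Φ x ∧ ∃ u ∈ Qx Φ x, g = k * u)
    (hE : k ∈ Φ.EG) (hk : IsTor Φ x t k) (ht : t ≠ 1)
    (ht' : t * Φ.σ t ≠ 1 ∨ ∀ c, Φ.π c = 0 → c = 0) (hs : ∃ s : F, s ≠ 0 ∧ s * Φ.σ s ≠ 1) :
    Φ.EG ≤ H ∨ ns Φ ≤ (Nat.card F - 1) * H.relIndex Φ.EG := by
  obtain ⟨k', hk', -, u, hu, rfl⟩ := hcov k (mem_Px.2 ⟨⟨t, hk.1⟩, hE⟩)
  have h1 := hk.mul ((Qx Φ x).inv_mem hu)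
  rw [mul_inv_cancel_right] at h1
  obtain ⟨x', hx', h, h2⟩ := h1.exists_fix hx hx0 ht
  rcases end_lemma hd hH hx hx' h (hasOn_of_GU fun l hl => by
    obtain ⟨g, hg, -, u, hu, e⟩ := hcov l (Sx_le_Px (GU_pp_le_Sx hl))
    exact torus hx hx' h hk' (hH hk') h1.1 h2 ht ht' hl hg hu e) hreg with h3 | h3 | h3
  · exact .inl h3
  · exact .inr h3
  obtain ⟨w, a1, a2, -, a3⟩ := h3
  obtain ⟨s, hs0, hs⟩ := hs
  obtain ⟨g, hg, e⟩ := move_EG (by omega) hx0 (smul_ne_zero hs0 hx0)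
    ((Φ.Q_smul_zero hx s).trans hx.symm)
  obtain ⟨k, hk, -, u, hu, rfl⟩ := hcov g (mem_Px.2 ⟨⟨s, e⟩, hg⟩)
  rw [mul_app, hu.2.1] at e
  exact absurd a3 (not_le_Px_of_smul hH hk e hs a1 a2)

/-- Torus elements of orthogonal groups. -/
theorem exists_tor_orth (hσ : ∀ a, Φ.σ a = a) (hε : Φ.ε = 1) (hπ : ∀ c, Φ.π c = c)
    (hd : Φ.d + 2 ≤ finrank F V) (hx : Φ.Q x = 0) (hx' : Φ.Q x' = 0) (h : Φ.B x x' = 1) {s : F}
    (hs : s ≠ 0) : ∃ k ∈ Φ.EG, IsTor Φ x (s * s) k := by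
  have h' := (B_eq_eps h).trans hε
  have hne : ∀ a : F, a ≠ 0 → a⁻¹ • x - a • x' ≠ 0 := fun a ha c => by
    simpa [h, Φ.B_self hx, ha] using congrArg (Φ.B x) c
  have hQ : ∀ a : F, a ≠ 0 → Φ.π (-1) = Φ.Q (a⁻¹ • x - a • x') := fun a ha => by
    rw [Φ.Q_sub, Φ.Q_smul_zero hx, Φ.Q_smul_zero hx']
    simp [hσ, hπ, h, ha]
  refine ⟨_, refl_mul_inv_mem_EG hd (neg_ne_zero.2 one_ne_zero) (hQ 1 one_ne_zero) (hQ s hs)
    (hne 1 one_ne_zero) (hne s hs), isTor_of_fix hx hx' h ?_ fun v hv => ?_⟩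
  · rw [mul_app, refl_inv_apply, refl_apply]
    simp only [Φ.bsimp, hσ, hε, h, h', Φ.B_self hx, Φ.B_self hx']
    match_scalars
    · field_simp; ring
    · field_simp; ring
  · rw [mul_app, refl_inv_apply, refl_apply]
    simp [(mem_pp.1 hv).2.1, (mem_pp.1 hv).2.2]

/-- Torus elements of symplectic groups. -/
theorem exists_tor_alt (hQ : ∀ v, Φ.Q v = 0) (hx : Φ.B x x' = 1) (ht : t ≠ 0) :
    ∃ k ∈ Φ.EG, IsTor Φ x t k := by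
  have hon : Φ.HasOn (Φ.EG ⊓ fixing (pp Φ ⊤ x x')) (Φ.perp (pp Φ ⊤ x x')) :=
    (hasOn_EG _).inf (hasOn_fixing fun y hy z hz => Φ.perp_symm (hy z hz))
  have h1 : x ∈ Φ.perp (pp Φ ⊤ x x') := fun z hz => Φ.perp_symm (mem_pp.1 hz).2.1
  have h2 : x' ∈ Φ.perp (pp Φ ⊤ x x') := fun z hz => Φ.perp_symm (mem_pp.1 hz).2.2
  have key : ∀ a b, Φ.B b a ≠ 0 → b - a ∈ Φ.perp (pp Φ ⊤ x x') →
      ∃ g ∈ Φ.EG ⊓ fixing (pp Φ ⊤ x x'), g a = b := fun a b h hab =>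
    hon.exists_move hab hab (hQ _) (by simpa [Φ.B_self (hQ a)] using h) (by
      have := Φ.B_self (hQ (b - a))
      rwa [map_sub, sub_eq_zero] at this) (by rw [hQ, hQ])
  obtain ⟨g, hg, e⟩ := key x x' (Φ.ne_symm (by simp [hx])) (Submodule.sub_mem _ h2 h1)
  obtain ⟨g', hg', e'⟩ := key x' (t • x) (by simp [hx, ht])
    (Submodule.sub_mem _ (Submodule.smul_mem _ _ h1) h2)
  have := Subgroup.mul_mem _ hg' hg
  exact ⟨_, this.1, isTor_of_fix (hQ _) (hQ _) hx (by rw [mul_app, e, e']) this.2⟩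

end Cfsg.Agent.Class.MinDegO
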