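import Mathlib
import Cfsg.Agent.Class.MinDegO.SymCount
import Cfsg.Agent.Class.MinDegO.Torus

/-!
Minimal degree of classical groups: covering bounds, and points whose parameters form a totally
singular subspace.
-/

set_option autoImplicit false
set_option linter.unusedSectionVars false

namespace Cfsg.Agent.Class.MinDegO

open Module Cfsg.Agent.Class.Max Cfsg.Agent.Class.Max.Fm

variable {F V : Type*} [Field F] [AddCommGroup V] [Module F V] {Φ : Fm F V}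
  {H : Subgroup (V ≃ₗ[F] V)} {x x' : V} [Finite F] [Finite V] [FiniteDimensional F V]

variable (Φ H) in
/-- The order of the image of `H ⊓ Qx` in `x^⊥ / x`. -/
noncomputable def mb (x : V) : ℕ := Nat.card (MA Φ H x) / Nat.card F

theorem card_MA_eq (hx : Φ.Q x = 0) (hx0 : x ≠ 0) :
    Nat.card (MA Φ H x) = mb Φ H x * Nat.card F := by
  have h : (Submodule.span F {x}).toAddSubgroup ≤ MA Φ H x := fun v hv => by
    obtain ⟨t, rfl⟩ := Submodule.mem_span_singleton.1 hv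
    exact (mem_MA hx).2 (inA_smul_self hx t)
  have h1 := AddSubgroup.card_dvd_of_le h
  have h2 := card_submodule (Submodule.span F {x})
  rw [finrank_span_singleton hx0, pow_one] at h2
  exact (Nat.div_mul_cancel (h2 ▸ h1)).symm

theorem two_le_finrank (h : Φ.B x x' = 1) (hx : Φ.Q x = 0) (hx' : Φ.Q x' = 0) :
    finrank F (pp Φ ⊤ x x') + 2 = finrank F V := by
  rw [finrank_pp (U := ⊤) trivial trivial hx hx' h, finrank_top]

theorem mb_mul_abar (hx : Φ.Q x = 0) (hx0 : x ≠ 0) :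
    mb Φ H x * abar Φ H x = Nat.card F ^ (finrank F V - 2) := by
  obtain ⟨x', hx', h⟩ := exists_partner_top hx hx0
  have h1 := two_le_finrank h hx hx'
  have h2 := card_MA_mul (Φ := Φ) (H := H) hx0
  rw [card_MA_eq hx hx0, show finrank F V - 1 = finrank F V - 2 + 1 by omega, pow_succ] at h2
  exact Nat.eq_of_mul_eq_mul_right Nat.card_pos (by rw [← h2]; ring)

variable (Φ H) in
/-- The order of the central part of `H ⊓ Qx`. -/
noncomputable def r0 (x : V) : ℕ := Nat.card ↥(RS Φ H x ⊓ HU Φ ⊥)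

theorem r0_pos : 0 < r0 Φ H x := Nat.card_pos

theorem r0_dvd : r0 Φ H x ∣ lam Φ := Subgroup.card_dvd_of_le inf_le_right

theorem card_RS_eq_mb (hx : Φ.Q x = 0) (hx0 : x ≠ 0) :
    Nat.card (RS Φ H x) = mb Φ H x * Nat.card F * r0 Φ H x := by
  rw [card_RS_eq_MA, card_MA_eq hx hx0, r0]

theorem r0_mul (hx : Φ.Q x = 0) (hx0 : x ≠ 0) :
    r0 Φ H x * H.relIndex (Qx Φ x) = abar Φ H x * lam Φ := by
  have h1 := card_RS_mul (H := H) hx hx0
  rw [card_RS_eq_MA, ← card_MA_mul (Φ := Φ) (H := H) hx0, mul_assoc, mul_assoc] at h1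
  exact Nat.eq_of_mul_eq_mul_left Nat.card_pos h1

theorem ncard_succ_le_mb (hx : Φ.Q x = 0) (h : Φ.B x x' = 1) {g : V ≃ₗ[F] V} (hg : g x = x)
    (T : Set V) (hT : ∀ t ∈ T, t ≠ 0 ∧ Φ.B x' t = 0 ∧ ∃ w, Φ.InA H x w ∧ ∃ s : F, t = g w + s • x) :
    T.ncard + 1 ≤ mb Φ H x := by
  have hx0 : x ≠ 0 := fun c => by simp [c] at h
  refine Nat.le_of_mul_le_mul_right ?_ (Nat.card_pos (α := F))
  rw [← card_MA_eq hx hx0, ← Set.ncard_insert_of_notMem (fun c => (hT 0 c).1 rfl),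
    ← Set.ncard_univ F, ← Set.ncard_prod]
  have hg' : g⁻¹ x = x := g.injective (by rw [app_inv_app, hg])
  have h0 : ∀ t ∈ insert 0 T, Φ.B x' t = 0 := by
    rintro t (rfl | ht)
    · simp
    · exact (hT t ht).2.1
  refine Set.ncard_le_ncard_of_injOn (t := (MA Φ H x : Set V)) (fun p => g⁻¹ (p.1 + p.2 • x)) ?_ ?_
  · rintro ⟨t, s⟩ ⟨rfl | ht, -⟩
    · exact (mem_MA hx).2 (by simpa [hg'] using inA_smul_self hx s)
    · obtain ⟨-, -, w, hw, r, rfl⟩ := hT t ht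
      refine (mem_MA hx).2 ?_
      convert hw.add (inA_smul_self hx (r + s)) using 1
      simp only [map_add, map_smul, inv_app_app, hg']
      module
  · rintro ⟨t, s⟩ ⟨ht, -⟩ ⟨t', s'⟩ ⟨ht', -⟩ e
    have e1 : t + s • x = t' + s' • x := g⁻¹.injective e
    have e2 := congrArg (Φ.B x') e1
    simp only [map_add, map_smul, h0 t ht, h0 t' ht', B_eq_eps h, zero_add, smul_eq_mul] at e2
    obtain rfl := mul_right_cancel₀ Φ.eps_ne e2
    rw [add_right_cancel e1]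

theorem exists_inA_pp (hx : Φ.Q x = 0) (hx' : Φ.Q x' = 0) (h : Φ.B x x' = 1) {w : V}
    (hw : Φ.InA H x w) : ∃ v ∈ pp Φ ⊤ x x', Φ.InA H x v ∧ ∃ s : F, w = v + s • x := by
  obtain ⟨d, hd, e⟩ := hyp_decomp_mem (U := ⊤) trivial trivial hx hx' h (y := w) trivial
  rw [hw.perp, zero_smul, add_zero] at e
  exact ⟨d, hd, by simpa [← eq_sub_of_add_eq e.symm] using hw.sub (inA_smul_self hx (Φ.ε * Φ.B x' w)),
    _, e⟩

/-- The images of `H ⊓ Qx` under the Levi factor cover all vectors of some norm. -/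
theorem cover_vec (hx : Φ.Q x = 0) (hx' : Φ.Q x' = 0) (h : Φ.B x x' = 1)
    (hB : Φ.Big (pp Φ ⊤ x x')) {v : V} (hv : v ∈ pp Φ ⊤ x x') (hv0 : v ≠ 0) (hA : Φ.InA H x v) :
    H.relIndex (Qx Φ x) * {u | u ∈ pp Φ ⊤ x x' ∧ u ≠ 0 ∧ Φ.Q u = Φ.Q v}.ncard ≤
      H.relIndex (Sx Φ x) * (mb Φ H x - 1) := by
  have hx0 : x ≠ 0 := fun c => by simp [c] at h
  have hD := nd_pp Φ.nd_top trivial trivial hx hx' h
  refine count_in hx0 (Qx_le_Sx hx hx0) Sx_le_Px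
    (fun g t => t ≠ 0 ∧ Φ.B x' t = 0 ∧ ∃ w, Φ.InA H x w ∧ ∃ s : F, t = g w + s • x) ?_ ?_ _
    (fun g hg => Nat.le_sub_one_of_lt (ncard_succ_le_mb hx h (mem_Sx.1 hg).1 _ fun _ ht => ht)) _ ?_
  · rintro g hg k hk hkH t ⟨a1, a2, w, hw, s, rfl⟩
    have hk' := mem_Sx.1 ((Sx Φ x).inv_mem hk)
    have := hw.conj (H.inv_mem hkH) (Φ.EG_le_Iso hk'.2)
    rw [hk'.1] at this
    exact ⟨a1, a2, _, this, s, by rw [mul_app, app_inv_app]⟩
  · rintro g hg u hu t ⟨a1, a2, w, hw, s, rfl⟩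
    obtain ⟨r, hr⟩ := hu.2.2 w hw.perp
    exact ⟨a1, a2, w, hw, s - r, by
      rw [mul_app, hr, map_add, map_smul, (mem_Sx.1 hg).1]; module⟩
  · rintro u ⟨a1, a2, a3⟩
    obtain ⟨g, hg, e⟩ := hB.move (hasOn_GU _) hv a1 a3 (hD.exists_ne hv hv0) (hD.exists_ne a1 a2)
    exact ⟨g, GU_pp_le_Sx hg, a2, (mem_pp.1 a1).2.2, v, hA, 0, by simp [e]⟩

theorem nv_two_step {U : Submodule F V} (hU : Φ.ND U) (hd : Φ.d + 2 ≤ finrank F U) (h4 : 4 ≤ finrank F U)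
    (v : V) : (Nat.card F ^ 2 - 1) * Nat.card F ^ (finrank F U - 3) * lam Φ ≤
      {u | u ∈ U ∧ u ≠ 0 ∧ Φ.Q u = Φ.Q v}.ncard := by
  obtain ⟨c, hc⟩ := Φ.range v
  obtain ⟨e, he, f, hf, qe, qf, h⟩ := hU.exists_hyp (by omega)
  have r1 := finrank_pp he hf qe qf h
  obtain ⟨e', he', f', hf', qe', qf', h'⟩ := (nd_pp hU he hf qe qf h).exists_hyp (by omega)
  have h1 := nv_step he hf qe qf h c
  have h2 := nv_step he' hf' qe' qf' h' c
  obtain ⟨k, hk⟩ : ∃ k, finrank F U = k + 4 := ⟨_, (Nat.sub_add_cancel h4).symm⟩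
  obtain ⟨q, hq⟩ : ∃ q, Nat.card F = q + 1 := ⟨_, (Nat.sub_add_cancel Nat.card_pos).symm⟩
  rw [show finrank F (pp Φ U e f) - 2 = k by omega] at h2
  rw [show finrank F U - 2 = k + 2 by omega] at h1
  have h3 := Nat.mul_le_mul_left (Nat.card F) h2
  rw [show finrank F U - 3 = k + 1 by omega, show Nat.card F ^ 2 - 1 = q * (q + 2) by
    rw [hq]; exact Nat.sub_eq_of_eq_add (by ring)]
  rw [hc] at h1 h3
  simp only [hq, Nat.add_sub_cancel] at h1 h3 ⊢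
  by_cases h0 : Φ.Q v = 0
  · have h5 : 0 < nv Φ (pp Φ (pp Φ U e f) e' f') (Φ.Q v) :=
      (Set.ncard_pos (Set.toFinite _)).2 ⟨0, Submodule.zero_mem _, by rw [h0, Φ.Q_zero]⟩
    have h6 : {u | u ∈ U ∧ u ≠ 0 ∧ Φ.Q u = Φ.Q v}.ncard + 1 = nv Φ U (Φ.Q v) := by
      rw [nv, ← Set.ncard_sdiff_singleton_add_one (a := 0) (s := {u | u ∈ U ∧ Φ.Q u = Φ.Q v})
        ⟨U.zero_mem, by rw [h0, Φ.Q_zero]⟩]
      congr 2
      ext; simp; tauto
    have h7 : 1 ≤ (q + 1) * ((q + 1) * nv Φ (pp Φ (pp Φ U e f) e' f') (Φ.Q v)) :=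
      Nat.mul_pos q.succ_pos (Nat.mul_pos q.succ_pos h5)
    simp only [pow_succ] at h1 h3 ⊢
    nlinarith
  · have h6 : {u | u ∈ U ∧ u ≠ 0 ∧ Φ.Q u = Φ.Q v}.ncard = nv Φ U (Φ.Q v) := by
      rw [nv]
      congr 1
      ext u
      exact ⟨fun h => ⟨h.1, h.2.2⟩, fun h => ⟨h.1, fun c => h0 (by rw [← h.2, c, Φ.Q_zero]), h.2⟩⟩
    simp only [pow_succ] at h1 h3 ⊢
    nlinarith [Nat.zero_le ((q + 1) * ((q + 1) * nv Φ (pp Φ (pp Φ U e f) e' f') (Φ.Q v)))]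

theorem full_of_card_le {y : V} (hx : Φ.Q x = 0) (hx0 : x ≠ 0) (hy : Φ.Q y = 0) (hy0 : y ≠ 0)
    (hF : Φ.Full H x) (h : Nat.card (RS Φ H x) ≤ Nat.card (RS Φ H y)) : Φ.Full H y := by
  have h1 : RS Φ H x = HU Φ (LinearMap.ker (Φ.B x)) :=
    le_antisymm RS_le fun p hp => (mem_RS hx).2 ⟨hp, hF _ _ (p.valid hx hp)⟩
  have h2 := finrank_ker_B (Φ := Φ) hx0
  have h3 := finrank_ker_B (Φ := Φ) hy0
  have h4 : RS Φ H y = HU Φ (LinearMap.ker (Φ.B y)) := Subgroup.eq_of_le_of_card_ge RS_le (by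
    rwa [h1, card_HU, card_submodule, show finrank F (LinearMap.ker (Φ.B x)) =
      finrank F (LinearMap.ker (Φ.B y)) by omega, ← card_submodule, ← card_HU] at h)
  intro w c hv
  exact ((mem_RS hy (p := ⟨w, c, hv.norm⟩)).1 (h4 ▸ hv.perp)).2

theorem orb_le_of_le_stab {W : Submodule F V} (hW : Φ.TS W) (h : ∀ g ∈ H, g ∈ stab W) :
    ob (Nat.card F) (lam Φ) (finrank F V) (finrank F W) ≤ H.relIndex Φ.EG := by
  have := finite_equiv (F := F) (V := V)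
  have h1 := orb_ge _ Φ.nd_top hW le_top rfl
  rw [finrank_top] at h1
  refine h1.trans ((cover H Φ.EG (fun g W' => W' = W.map (g : V →ₗ[F] V)) ?_ 1
    (fun g _ => by simp) _ ?_).trans_eq (mul_one _))
  · rintro g - k - hk _ rfl
    rw [map_mul, mem_stab_iff_map.1 (h k hk)]
  · rintro _ ⟨g, hg, rfl⟩
    exact ⟨g, hg.1, rfl⟩

/-- The span of the full singular vectors is invariant. -/
theorem le_or_exists_ts (hH : H ≤ Φ.EG) : Φ.EG ≤ H ∨ ∃ W : Submodule F V, Φ.TS W ∧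
    (∀ g ∈ H, g ∈ stab W) ∧ ∀ e, Φ.Q e = 0 → Φ.Full H e → e ∈ W := by
  by_cases h : ∃ e f, (Φ.Q e = 0 ∧ Φ.Full H e) ∧ (Φ.Q f = 0 ∧ Φ.Full H f) ∧ Φ.B e f ≠ 0
  · obtain ⟨e, f, he, hf, h⟩ := h
    exact .inl (EG_le_of_full he.2 hf.2 he.1 hf.1 h)
  push Not at h
  refine .inr ⟨Submodule.span F {e | Φ.Q e = 0 ∧ Φ.Full H e}, ts_span (fun _ h => h.1)
    fun e he f hf => h e f he hf, fun g hg => mem_stab_of_mapsTo fun v hv => ?_,
    fun e h1 h2 => Submodule.subset_span ⟨h1, h2⟩⟩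
  have hI := Φ.EG_le_Iso (hH hg)
  refine Submodule.mem_comap.1
    ((Submodule.span_le (p := Submodule.comap (g : V →ₗ[F] V) _)).2 (fun e he => ?_) hv)
  exact Submodule.subset_span ⟨(Iso.Q hI e).trans he.1, he.2.conj hg hI⟩

section Sigma

variable {S : Submodule F V}

theorem sigma_card (hx : Φ.Q x = 0) (hx0 : x ≠ 0) (hS : ∀ w, Φ.InA H x w ↔ w ∈ S) :
    mb Φ H x = Nat.card F ^ (finrank F S - 1) ∧ 1 ≤ finrank F S := by
  have h1 : Nat.card (MA Φ H x) = Nat.card S :=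
    Nat.card_congr (Equiv.subtypeEquivRight fun w => (mem_MA hx).trans (hS w))
  have h2 : 1 ≤ finrank F S := by
    rw [← finrank_span_singleton (K := F) hx0]
    exact Submodule.finrank_mono ((Submodule.span_singleton_le_iff_mem _ _).2
      ((hS x).1 (by simpa using inA_smul_self hx 1)))
  rw [card_MA_eq hx hx0, card_submodule, ← Nat.sub_add_cancel h2, pow_succ] at h1
  exact ⟨Nat.eq_of_mul_eq_mul_right Nat.card_pos h1, h2⟩

theorem sigma_index (hx : Φ.Q x = 0) (hx0 : x ≠ 0) (hT : Φ.TS S)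
    (hS : ∀ w, Φ.InA H x w ↔ w ∈ S) :
    H.relIndex (Qx Φ x) * (((H ⊓ Px Φ x) ⊔ Qx Φ x).relIndex (stab S ⊓ Px Φ x) *
      ob (Nat.card F) (lam Φ) (finrank F V - 2) (finrank F S - 1)) ≤ H.relIndex (Px Φ x) := by
  have := finite_equiv (F := F) (V := V)
  have hxS : x ∈ S := (hS x).1 (by simpa using inA_smul_self hx 1)
  have hQP := (Qx_le_Sx hx hx0).trans (Sx_le_Px (Φ := Φ))
  have hle : (H ⊓ Px Φ x) ⊔ Qx Φ x ≤ stab S ⊓ Px Φ x := by
    refine sup_le (fun k hk => ⟨mem_stab_of_mapsTo fun v hv => ?_, hk.2⟩)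
      fun u hu => ⟨mem_stab_of_mapsTo fun v hv => ?_, hQP hu⟩
    · obtain ⟨⟨t, ht⟩, hE⟩ := mem_Px.1 hk.2
      have h1 := ((hS v).2 hv).conj hk.1 (Φ.EG_le_Iso hE)
      rw [ht] at h1
      have ht0 := smul_ne_of_eq hx0 ht
      exact (S.smul_mem_iff (Φ.σ_ne ht0)).1 ((hS _).1 (h1.of_smul_left ht0))
    · obtain ⟨t, ht⟩ := hu.2.2 v (hT.2 x hxS v hv)
      exact ht ▸ S.add_mem hv (S.smul_mem _ hxS)
  rw [relIndex_split H (Px Φ x) (Qx Φ x) hQP fun g hg u hu => conj_mem_Qx hx0 hg hu,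
    ← Subgroup.relIndex_mul_relIndex _ _ _ hle inf_le_right]
  refine Nat.mul_le_mul_left _ (Nat.mul_le_mul_left _ ?_)
  obtain ⟨x', hx', h⟩ := exists_partner_top hx hx0
  have h1 : S ⊓ pp Φ ⊤ x x' = S ⊓ LinearMap.ker (Φ.B x') := le_antisymm
    (fun v hv => ⟨hv.1, (mem_pp.1 hv.2).2.2⟩) fun v hv =>
      ⟨hv.1, mem_pp.2 ⟨trivial, hT.2 x hxS v hv.1, hv.2⟩⟩
  have h2 := finrank_inf_ker_add S (Φ.B x') ⟨x, hxS, Φ.ne_symm (by simp [h])⟩
  have h3 := orb_ge (finrank F S - 1) (nd_pp Φ.nd_top trivial trivial hx hx' h)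
    (hT.mono (inf_le_left (b := pp Φ ⊤ x x'))) inf_le_right (by rw [h1]; omega)
  rw [show finrank F (pp Φ ⊤ x x') = finrank F V - 2 by rw [← two_le_finrank h hx hx']; simp] at h3
  refine h3.trans ((cover (stab S ⊓ Px Φ x) (Px Φ x)
    (fun g W' => W' = S.map (g : V →ₗ[F] V) ⊓ pp Φ ⊤ x x') ?_ 1 (fun g _ => by simp) _ ?_).trans_eq
    (mul_one _))
  · rintro g - k - hk _ rfl
    rw [map_mul, mem_stab_iff_map.1 hk.1]
  · rintro _ ⟨g, hg, rfl⟩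
    refine ⟨g, Sx_le_Px (GU_pp_le_Sx hg), ?_⟩
    rw [Submodule.map_inf _ g.injective,
      mem_stab_iff_map.1 (mem_stab_of_mapsTo fun v hv => GU_mem hg hv)]

theorem sigma_bound (hx : Φ.Q x = 0) (hx0 : x ≠ 0) (hT : Φ.TS S)
    (hS : ∀ w, Φ.InA H x w ↔ w ∈ S) : H.relIndex (Qx Φ x) *
      ob (Nat.card F) (lam Φ) (finrank F V - 2) (finrank F S - 1) ≤ H.relIndex (Px Φ x) :=
  le_trans (Nat.mul_le_mul_left _ (Nat.le_mul_of_pos_left _ (relIndex_pos _ _)))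
    (sigma_index hx hx0 hT hS)

theorem sigma_cover (hx : Φ.Q x = 0) (hx0 : x ≠ 0) (hT : Φ.TS S)
    (hS : ∀ w, Φ.InA H x w ↔ w ∈ S) (hlt : H.relIndex (Px Φ x) < 2 * (H.relIndex (Qx Φ x) *
      ob (Nat.card F) (lam Φ) (finrank F V - 2) (finrank F S - 1))) {g : V ≃ₗ[F] V}
    (hg : g ∈ Px Φ x) (hg' : g ∈ stab S) : ∃ k ∈ H, k ∈ Px Φ x ∧ ∃ u ∈ Qx Φ x, g = k * u := by
  have h1 := sigma_index hx hx0 hT hS
  have h2 := relIndex_pos ((H ⊓ Px Φ x) ⊔ Qx Φ x) (stab S ⊓ Px Φ x)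
  have h3 : ((H ⊓ Px Φ x) ⊔ Qx Φ x).relIndex (stab S ⊓ Px Φ x) = 1 := by
    by_contra c
    have : 2 ≤ ((H ⊓ Px Φ x) ⊔ Qx Φ x).relIndex (stab S ⊓ Px Φ x) := by omega
    have := Nat.mul_le_mul_left (H.relIndex (Qx Φ x)) (Nat.mul_le_mul_right
      (ob (Nat.card F) (lam Φ) (finrank F V - 2) (finrank F S - 1)) this)
    nlinarith
  exact mem_sup_of_normal ((Qx_le_Sx hx hx0).trans Sx_le_Px)
    (fun g hg u hu => conj_mem_Qx hx0 hg hu) (Subgroup.relIndex_eq_one.1 h3 ⟨hg', hg⟩)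

end Sigma

theorem ob_pos {q l : ℕ} (hq : 0 < q) (hl : 0 < l) (j : ℕ) : ∀ k, 0 < ob q l k j := by
  induction j with
  | zero => exact fun _ => one_pos
  | succ j ih => exact fun k => Nat.mul_pos (by positivity) (ih _)

theorem le_ob_succ {q l : ℕ} (k j : ℕ) :
    l * q ^ (k - 2 - j) * ob q l (k - 2) j ≤ ob q l k (j + 1) :=
  Nat.mul_le_mul_right _ (Nat.le_add_right _ _)

theorem pow_le_ob {q l : ℕ} (hq : 0 < q) (hl : 0 < l) (j : ℕ) :
    ∀ k, 2 * j + 1 ≤ k → q ^ j ≤ ob q l k j := by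
  induction j with
  | zero => exact fun _ _ => le_rfl
  | succ j ih =>
    intro k hk
    refine le_trans ?_ (le_ob_succ k j)
    rw [pow_succ']
    exact Nat.mul_le_mul ((Nat.le_self_pow (by omega) q).trans (Nat.le_mul_of_pos_left _ hl))
      (ih _ (by omega))

theorem two_mul_pow_le_ob {q l k j : ℕ} (hq : 2 ≤ q) (hl : 0 < l) (hj : 2 ≤ j) (hk : 2 * j ≤ k)
    (h : 2 * j = k → 4 ≤ j) : 2 * q ^ j ≤ ob q l k j := by
  obtain ⟨j, rfl⟩ : ∃ i, j = i + 2 := ⟨_, (Nat.sub_add_cancel hj).symm⟩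
  have h0 : 2 * q ^ (j + 2) ≤ q ^ (j + 3) := by rw [pow_succ' q (j + 2)]; gcongr
  refine h0.trans (le_trans ?_ (le_ob_succ k (j + 1)))
  by_cases c : 2 * (j + 2) = k
  · have := h c
    have h1 := le_ob_succ (q := q) (l := l) (k - 2) j
    have h2 := ob_pos (q := q) (by omega) hl j (k - 2 - 2)
    calc q ^ (j + 3) ≤ q ^ (k - 2 - (j + 1)) * q ^ (k - 2 - 2 - j) := by
          rw [← pow_add]; exact Nat.pow_le_pow_right (by omega) (by omega)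
      _ ≤ _ := Nat.mul_le_mul (Nat.le_mul_of_pos_left _ hl) (le_trans
          ((Nat.le_mul_of_pos_left _ hl).trans (Nat.le_mul_of_pos_right _ h2)) h1)
  · calc q ^ (j + 3) ≤ q ^ (k - 2 - (j + 1)) * q ^ (j + 1) := by
          rw [← pow_add]; exact Nat.pow_le_pow_right (by omega) (by omega)
      _ ≤ _ := Nat.mul_le_mul (Nat.le_mul_of_pos_left _ hl) (pow_le_ob (by omega) hl _ _ (by omega))

end Cfsg.Agent.Class.MinDegO
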