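import Mathlib
import Cfsg.Agent.Class.MinDegO.Cover

/-!
Minimal degree of orthogonal groups: subgroups without regular points, and large fields.
-/

set_option autoImplicit false
set_option linter.unusedSectionVars false

namespace Cfsg.Agent.Class.MinDegO

open Module Cfsg.Agent.Class.Max Cfsg.Agent.Class.Max.Fm

variable {F V : Type*} [Field F] [AddCommGroup V] [Module F V] {Φ : Fm F V}
  {H : Subgroup (V ≃ₗ[F] V)} {x x' : V}

/-- Orthogonal formed spaces. -/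
structure IsO (Φ : Fm F V) : Prop where
  hσ : ∀ a, Φ.σ a = a
  hε : Φ.ε = 1
  hπ : ∀ c, Φ.π c = c
  hd : Φ.d = 3

theorem IsO.inj (hO : IsO Φ) : ∀ c, Φ.π c = 0 → c = 0 := fun c h => (hO.hπ c).symm.trans h

theorem IsO.rr (hO : IsO Φ) {w : V} (h : Φ.InA H x w) : RR Φ H x w (Φ.Q w) := by
  obtain ⟨c, h⟩ := h
  exact RR.congr h rfl ((hO.hπ c).symm.trans h.1.norm)

theorem IsO.full (hO : IsO Φ) (h : ∀ w, Φ.B x w = 0 → Φ.InA H x w) : Φ.Full H x :=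
  fun w c hv => ((hO.rr (h w hv.perp)).congr rfl (hv.norm.symm.trans (hO.hπ c))).2

variable [Finite F] [Finite V] [FiniteDimensional F V]

theorem IsO.r0_eq (hO : IsO Φ) : r0 Φ H x = 1 :=
  Nat.dvd_one.1 (lam_eq_one hO.inj ▸ r0_dvd)

theorem IsO.abar_eq (hO : IsO Φ) (hx : Φ.Q x = 0) (hx0 : x ≠ 0) :
    abar Φ H x = H.relIndex (Qx Φ x) := by
  have := r0_mul (H := H) hx hx0
  rwa [hO.r0_eq, lam_eq_one hO.inj, one_mul, mul_one, eq_comm] at this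

theorem mb_dvd (hx : Φ.Q x = 0) (hx0 : x ≠ 0) : mb Φ H x ∣ Nat.card F ^ (finrank F V - 2) :=
  ⟨_, (mb_mul_abar hx hx0).symm⟩

theorem IsO.mb_ge (hO : IsO Φ) (h7 : 7 ≤ finrank F V)
    (hN : H.relIndex Φ.EG < 2 * Nat.card F ^ (finrank F V - 2)) (hx : Φ.Q x = 0) (hx0 : x ≠ 0)
    (hnr : ¬ ∀ w, Φ.InA H x w → ∃ t : F, w = t • x) :
    Nat.card F ^ 2 ≤ mb Φ H x ∧ (8 ≤ finrank F V → 2 * Nat.card F ^ 2 ≤ mb Φ H x) := by
  obtain ⟨x', hx', h⟩ := exists_partner_top hx hx0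
  obtain ⟨w, hw⟩ := not_forall.1 hnr
  obtain ⟨hw, hw'⟩ := Classical.not_imp.1 hw
  obtain ⟨v, hv, hA, s, rfl⟩ := exists_inA_pp hx hx' h hw
  have hD := nd_pp Φ.nd_top trivial trivial hx hx' h
  have hr := two_le_finrank h hx hx'
  have h1 := (cover_vec hx hx' h (hD.big (by rw [hO.hd]; omega)) hv
    (fun c => hw' ⟨s, by simp [c]⟩) hA).trans (Nat.mul_le_mul_right _
      (relIndex_le_EG fun g hg => (mem_Sx.1 hg).2))
  have h2 := nv_two_step hD (by rw [hO.hd]; omega) (by omega) v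
  have h3 := mb_mul_abar (H := H) hx hx0
  have h4 := mb_dvd (H := H) hx hx0
  rw [hO.abar_eq hx hx0] at h3
  rw [lam_eq_one hO.inj, mul_one, show finrank F (pp Φ ⊤ x x') - 3 = finrank F V - 5 by omega] at h2
  have hq := one_lt_card_field (F := F)
  have ha := relIndex_pos H (Qx Φ x)
  generalize H.relIndex (Qx Φ x) = a at *
  generalize H.relIndex Φ.EG = N at *
  generalize mb Φ H x = m at *
  generalize Set.ncard _ = ν at *
  obtain ⟨r, hr⟩ : ∃ r, Nat.card F ^ 2 = r + 1 := ⟨_, (Nat.sub_add_cancel (Nat.pow_pos (by omega))).symm⟩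
  have hr3 : 3 ≤ r := by nlinarith
  rw [hr, Nat.add_sub_cancel] at h2
  have h5 : ν < 2 * m * (m - 1) := by
    have hν : 0 < ν := lt_of_lt_of_le (by positivity) h2
    have hm : 0 < m - 1 := Nat.pos_of_mul_pos_left (lt_of_lt_of_le (Nat.mul_pos ha hν) h1)
    rw [← h3] at hN
    have := Nat.mul_lt_mul_of_pos_right hN hm
    exact Nat.lt_of_mul_lt_mul_left (a := a) (by nlinarith)
  have h6 : Nat.card F ^ 2 ≤ m := by
    by_contra c
    have h7 := two_mul_le_of_dvd h4 (dvd_refl (Nat.card F ^ 2)) (not_le.1 c)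
    have h8 : Nat.card F ^ 2 ≤ Nat.card F ^ (finrank F V - 5) :=
      Nat.pow_le_pow_right (by omega) (by omega)
    have h9 : 2 * m * (m - 1) ≤ (r + 1) * r := Nat.mul_le_mul (by omega) (by omega)
    nlinarith
  refine ⟨h6, fun h8 => two_mul_le_of_dvd (dvd_refl _) h4 (lt_of_le_of_ne h6 fun c => ?_)⟩
  have h8 : Nat.card F ^ 3 ≤ Nat.card F ^ (finrank F V - 5) :=
    Nat.pow_le_pow_right (by omega) (by omega)
  rw [← c, hr, Nat.add_sub_cancel] at h5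
  rw [pow_succ, hr] at h8
  have : r * ((r + 1) * 2) ≤ r * ((r + 1) * Nat.card F) := by gcongr; omega
  nlinarith

/-- The triality exception: all points of a plane are full. -/
theorem IsO.full_of_sigma (hO : IsO Φ) (h8 : finrank F V = 8) (hH : H ≤ Φ.EG) (hx : Φ.Q x = 0)
    (hx' : Φ.Q x' = 0) (h : Φ.B x x' = 1) {S : Submodule F V} (hT : Φ.TS S) (h4 : finrank F S = 4)
    (hS : ∀ w, Φ.InA H x w ↔ w ∈ S) (hl : ∀ l ∈ GU Φ (pp Φ ⊤ x x'), l ∈ stab S → l ∈ H)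
    (hnr : ¬ ∀ w, Φ.InA H x' w → ∃ t : F, w = t • x') {e : V} (he : e ∈ S)
    (he' : e ∈ pp Φ ⊤ x x') : Φ.Full H e := by
  have hxS : x ∈ S := (hS x).1 (by simpa using inA_smul_self hx 1)
  have h' := (B_eq_eps h).trans hO.hε
  have hE : ∀ e ∈ S, e ∈ pp Φ ⊤ x x' → ∀ w ∈ pp Φ ⊤ x x', ∀ c, Φ.Valid e w c →
      ∃ g ∈ H, g x' = x' ∧ ∀ v, g v = Φ.ef e w c v := fun e he he' w hw c hv => by
    obtain ⟨g, hg, e1⟩ := hasOn_GU _ e he' w hw c hv
    exact ⟨g, hl g hg ((hT.full he w c hv).mem e1).1, GU_pp_right hg, e1⟩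
  have hA : ∀ e ∈ S, e ∈ pp Φ ⊤ x x' → ∀ w ∈ pp Φ ⊤ x x', ∀ c, Φ.Valid e w c → ∀ v,
      Φ.InA H x' v → Φ.InA H x' (Φ.ef e w c v - v) := fun e he he' w hw c hv v hv' => by
    obtain ⟨g, hg, e1, e2⟩ := hE e he he' w hw c hv
    have := hv'.conj hg (Φ.EG_le_Iso (hH hg))
    rw [e1, e2] at this
    exact this.sub hv'
  have hr : finrank F ↥(S ⊓ LinearMap.ker (Φ.B x')) = 3 := by
    have := finrank_inf_ker_add S (Φ.B x') ⟨x, hxS, by simp [h']⟩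
    omega
  have hD : ∀ v ∈ S ⊓ LinearMap.ker (Φ.B x'), v ∈ pp Φ ⊤ x x' := fun v hv =>
    mem_pp.2 ⟨trivial, hT.2 x hxS v hv.1, hv.2⟩
  obtain ⟨v, hvS, hvD, hv0, hvA⟩ : ∃ v ∈ S, v ∈ pp Φ ⊤ x x' ∧ v ≠ 0 ∧ Φ.InA H x' v := by
    obtain ⟨w, hw⟩ := not_forall.1 hnr
    obtain ⟨hw, hw'⟩ := Classical.not_imp.1 hw
    obtain ⟨v, hv, hA', s, rfl⟩ := exists_inA_pp hx' hx h' hw
    have hv' : v ∈ pp Φ ⊤ x x' := mem_pp.2 ⟨trivial, (mem_pp.1 hv).2.2, (mem_pp.1 hv).2.1⟩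
    by_cases c : v ∈ S
    · exact ⟨v, c, hv', fun c => hw' ⟨s, by simp [c]⟩, hA'⟩
    have hp : S = Φ.perp S := Submodule.eq_of_le_of_finrank_eq hT.le_perp (by
      have := Φ.finrank_add_perp S
      omega)
    rw [hp, Φ.mem_perp] at c
    push Not at c
    obtain ⟨s, hs, c⟩ := c
    have m1 : s - Φ.B x' s • x ∈ S ⊓ LinearMap.ker (Φ.B x') :=
      ⟨S.sub_mem hs (S.smul_mem _ hxS), by simp [h']⟩
    obtain ⟨u, hu, hu0, hu1⟩ := exists_ne_zero_ker [Φ.B v] (S ⊓ LinearMap.ker (Φ.B x'))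
      (by simp [hr])
    have := hA _ m1.1 (hD _ m1) u (hD u hu) 0 (valid_zero (hT.1 _ m1.1) (hT.2 _ m1.1 _ hu.1)
      (hT.1 _ hu.1)) v hA'
    refine ⟨Φ.B s v • u, S.smul_mem _ hu.1, Submodule.smul_mem _ _ (hD u hu), smul_ne_zero c hu0, ?_⟩
    convert this using 1
    simp [ef, Φ.perp_symm (hu1 _ List.mem_cons_self), (mem_pp.1 hv').2.1]
  have h1 : ∀ e ∈ S, e ∈ pp Φ ⊤ x x' → (∀ t : F, v ≠ t • e) → Φ.InA H x' e := by
    intro e he he' hn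
    obtain ⟨y, hy1, hy2⟩ : ∃ y, Φ.B e y = 0 ∧ Φ.B v y ≠ 0 := by
      by_contra c
      push Not at c
      obtain ⟨t, ht⟩ := Φ.exists_smul_of_perp c
      exact hn t ht
    obtain ⟨d, hd, e1⟩ := hyp_decomp_mem (U := ⊤) trivial trivial hx hx' h (y := y) trivial
    have key : ∀ u ∈ pp Φ ⊤ x x', Φ.B u y = Φ.B u d := fun u hu => by
      rw [e1]
      simp [Φ.perp_symm (mem_pp.1 hu).2.1, Φ.perp_symm (mem_pp.1 hu).2.2]
    rw [key e he'] at hy1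
    rw [key v hvD] at hy2
    obtain ⟨c, hc⟩ := exists_valid (hT.1 e he) (w := (-(Φ.B v d)⁻¹) • d) (by simp [hy1])
    convert hA e he he' _ (Submodule.smul_mem _ _ hd) c hc v hvA using 1
    rw [ef_apply_of_perp' (hT.2 e he v hvS)]
    simp [hO.hσ, hO.hε, B_comm hO.hσ hO.hε d v, hy2]
  have h2 : ∀ e ∈ S, e ∈ pp Φ ⊤ x x' → Φ.InA H x' e := by
    intro e he he'
    by_cases c : ∀ t : F, v ≠ t • e
    · exact h1 e he he' c
    push Not at c
    obtain ⟨t, rfl⟩ := c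
    have : ¬ S ⊓ LinearMap.ker (Φ.B x') ≤ Submodule.span F {e} := fun c => by
      have := (Submodule.finrank_mono c).trans (finrank_span_le_card (R := F) {e})
      simp [hr] at this
    obtain ⟨u, hu, hu'⟩ := SetLike.not_le_iff_exists.1 this
    have key : ∀ r : F, Φ.InA H x' (u + r • e) := fun r =>
      h1 _ (S.add_mem hu.1 (S.smul_mem _ he)) (Submodule.add_mem _ (hD u hu)
        (Submodule.smul_mem _ _ he')) fun s hs => hu' (Submodule.mem_span_singleton.2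
          ⟨s⁻¹ * t - r, by
            have hs0 : s ≠ 0 := fun c => hv0 (by simp [hs, c])
            rw [sub_smul, mul_smul, hs, inv_smul_smul₀ hs0]; simp⟩)
    simpa using (key 1).sub (key 0)
  have he0 := hT.1 e he
  have a1 := (mem_pp.1 he').2.1
  have a2 := (mem_pp.1 he').2.2
  refine hO.full fun w hw => ?_
  obtain ⟨d, hd, e1⟩ := hyp_decomp_mem (U := ⊤) trivial trivial hx hx' h (y := w) trivial
  have b0 : Φ.B e d = 0 := by
    rw [e1] at hw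
    simpa [Φ.perp_symm a1, Φ.perp_symm a2] using hw
  obtain ⟨c, hc⟩ := exists_valid he0 b0
  have key : ∀ y, Φ.Q y = 0 → Φ.B y e = 0 → (∀ t : F, Φ.InA H y (t • e)) → ∀ s : F,
      Φ.InA H e (s • y) := fun y hy h1 h2 s =>
    ⟨0, valid_zero he0 (by simp [Φ.perp_symm h1]) (Φ.Q_smul_zero hy s), hasE_swap' (fun t =>
      ((hO.rr (h2 t)).congr rfl (Φ.Q_smul_zero he0 t)).2) s⟩
  obtain ⟨g, hg, -, e2⟩ := hE e he he' d hd c hc
  rw [e1]
  exact (InA.add ⟨c, hc, g, hg, e2⟩ (key x' hx' a2 (fun t => h2 _ (S.smul_mem t he)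
    (Submodule.smul_mem _ t he')) _)).add (key x hx a1 (fun t => (hS _).2 (S.smul_mem t he)) _)

theorem exists_sq_ne_one (h : 4 ≤ Nat.card F) : ∃ s : F, s ≠ 0 ∧ s * s ≠ 1 := by
  have := Fintype.ofFinite F
  obtain ⟨t, a, b, c⟩ := exists_ne_ne_ne (F := F) (by rwa [← Nat.card_eq_fintype_card]) 1 (-1)
  exact ⟨t, a, fun e => (mul_self_eq_one_iff.1 e).elim b c⟩

theorem IsO.nonreg (hO : IsO Φ) (h7 : 7 ≤ finrank F V) (h8 : 8 ≤ finrank F V ∨ (2 : F) ≠ 0)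
    (hH : H ≤ Φ.EG) (hN : H.relIndex Φ.EG < 2 * Nat.card F ^ (finrank F V - 2))
    (hnr : ∀ x, Φ.Q x = 0 → x ≠ 0 → ¬ ∀ w, Φ.InA H x w → ∃ t : F, w = t • x) :
    Φ.EG ≤ H ∨ ns Φ ≤ (Nat.card F - 1) * H.relIndex Φ.EG ∨
      (finrank F V = 8 ∧ (∃ S : Submodule F V, Φ.TS S ∧ finrank F S = 4) ∧
      Nat.card F ^ 3 * ((Nat.card F ^ 2 + 1) * (Nat.card F + 1)) ≤ H.relIndex Φ.EG ∧
      (4 ≤ Nat.card F → (Nat.card F ^ 3 + 1) * ((Nat.card F ^ 2 + 1) * (Nat.card F + 1)) ≤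
        H.relIndex Φ.EG)) := by
  obtain ⟨e₀, f₀, qe, qf, hef⟩ := Φ.exists_hyp (by rw [hO.hd]; omega)
  obtain ⟨x, ⟨hx, hx0⟩, hmin⟩ := Set.exists_min_image {x | Φ.Q x = 0 ∧ x ≠ 0}
    (fun x => Nat.card (RS Φ H x)) (Set.toFinite _) ⟨e₀, qe, fun c => by simp [c] at hef⟩
  by_cases hF : Φ.Full H x
  · have := fun y hy hy0 => full_of_card_le hx hx0 hy hy0 hF (hmin y ⟨hy, hy0⟩)
    exact .inl (EG_le_of_full (this e₀ qe fun c => by simp [c] at hef)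
      (this f₀ qf fun c => by simp [c] at hef) qe qf (by simp [hef]))
  have hq := one_lt_card_field (F := F)
  obtain ⟨m1, m2⟩ := hO.mb_ge h7 hN hx hx0 (hnr x hx hx0)
  have m3 := mb_mul_abar (H := H) hx hx0
  have m4 := card_RS_eq_mb (H := H) hx hx0
  rw [hO.r0_eq, mul_one] at m4
  rw [show finrank F V - 2 = finrank F V - 4 + 2 by omega, pow_add] at m3
  have hq2 : 0 < Nat.card F ^ 2 := by positivity
  have a1 : abar Φ H x ≤ Nat.card F ^ (finrank F V - 4) :=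
    Nat.le_of_mul_le_mul_right (by nlinarith) hq2
  have a2 : 8 ≤ finrank F V → 2 * abar Φ H x ≤ Nat.card F ^ (finrank F V - 4) := fun h =>
    Nat.le_of_mul_le_mul_right (by nlinarith [m2 h]) hq2
  obtain ⟨S, hT, hS⟩ := sym_main hO.hσ hO.hε (by rw [hO.hd]; omega) hx hx0 hF
    (fun z g => hmin z ⟨g.sing, g.ne⟩) (by
      rw [lam_eq_one hO.inj, mul_one]
      exact h8.imp a2 fun h => ⟨h, a1⟩) (by
      rw [lam_eq_one hO.inj, mul_one, m4]
      rcases h8 with h8 | h8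
      · have := m2 h8
        by_cases c : Nat.card F ^ 4 < 2 * (mb Φ H x * Nat.card F)
        · exact .inr (.inl c)
        refine .inr (.inr ⟨?_, by nlinarith, a2 h8, (not_lt.1 c).trans ?_⟩)
        · by_contra c2
          rw [show Nat.card F = 2 by omega] at c this
          omega
        · rw [← pow_succ]
          exact Nat.pow_le_pow_right (by omega) (by omega)
      · exact .inl ⟨h8, by nlinarith⟩)
  have hS' : ∀ w, Φ.InA H x w ↔ w ∈ S := fun w =>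
    ⟨fun h => ((hS _ _).1 (hO.rr h)).1, fun h => ((hS w 0).2 ⟨h, rfl⟩).inA⟩
  obtain ⟨c1, c2⟩ := sigma_card hx hx0 hS'
  have c3 := hT.two_mul_le
  have c4 : 2 ≤ finrank F S - 1 := (Nat.pow_le_pow_iff_right hq).1 (c1 ▸ m1)
  have hP := relIndex_le_EG (H := H) (S := Px Φ x) inf_le_right
  have c5 := (sigma_bound hx hx0 hT hS').trans hP
  have m5 := mb_mul_abar (H := H) hx hx0
  rw [hO.abar_eq hx hx0, c1] at m5
  by_cases c : finrank F V = 8 ∧ finrank F S = 4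
  swap
  · have := two_mul_pow_le_ob hq (lam_pos (Φ := Φ)) c4 (k := finrank F V - 2) (by omega) (by omega)
    nlinarith
  obtain ⟨d1, d2⟩ := c
  have ha : H.relIndex (Qx Φ x) = Nat.card F ^ 3 := by
    rw [d1, d2, show 8 - 2 = 3 + 3 from rfl, pow_add] at m5
    exact Nat.eq_of_mul_eq_mul_left (by positivity) m5
  have ob3 : ob (Nat.card F) (lam Φ) (finrank F V - 2) (finrank F S - 1) =
      (Nat.card F ^ 2 + 1) * (Nat.card F + 1) := by simp [d1, d2, ob, lam_eq_one hO.inj]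
  by_cases hEG : Φ.EG ≤ H
  · exact .inl hEG
  refine .inr (.inr ⟨d1, ⟨S, hT, d2⟩, by rwa [ha, ob3] at c5, fun h4 => ?_⟩)
  by_contra hlt
  have hcov := fun g => sigma_cover (g := g) hx hx0 hT hS' (by
    rw [ha, ob3]
    have : 1 ≤ Nat.card F ^ 3 := Nat.pow_pos (by omega)
    nlinarith)
  obtain ⟨s, hs0, hs⟩ := exists_sq_ne_one h4
  obtain ⟨x', hx', h⟩ := exists_partner_top hx hx0
  obtain ⟨k, hE, hk⟩ := exists_tor_orth hO.hσ hO.hε hO.hπ (by rw [hO.hd]; omega) hx hx' h hs0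
  have hxS : x ∈ S := (hS' x).1 (by simpa using inA_smul_self hx 1)
  obtain ⟨k', hk', -, u, hu, rfl⟩ := hcov k (mem_Px.2 ⟨⟨_, hk.1⟩, hE⟩)
    (mem_stab_of_mapsTo fun v hv => by
      obtain ⟨r, hr⟩ := hk.2 v (hT.2 x hxS v hv)
      exact hr ▸ S.add_mem hv (S.smul_mem _ hxS))
  have h1 := hk.mul ((Qx Φ x).inv_mem hu)
  rw [mul_inv_cancel_right] at h1
  obtain ⟨y, hy, hxy, h2⟩ := h1.exists_fix hx hx0 hs
  have hfull := fun e => hO.full_of_sigma (e := e) d1 hH hx hy hxy hT d2 hS' (fun l hl hl' => by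
    obtain ⟨g, hg, -, u, hu, e⟩ := hcov l (Sx_le_Px (GU_pp_le_Sx hl)) hl'
    exact torus hx hy hxy hk' (hH hk') h1.1 h2 hs (.inr hO.inj) hl hg hu e)
    (hnr y hy fun c => by simp [c] at hxy)
  obtain ⟨W, hW, hW1, hW2⟩ := (le_or_exists_ts hH).resolve_left hEG
  have b1 := orb_le_of_le_stab hW hW1
  have b2 := hW.two_mul_le
  have b3 := finrank_inf_ker_add S (Φ.B y) ⟨x, hxS, Φ.ne_symm (by simp [hxy])⟩
  have b4 : finrank F ↥(S ⊓ LinearMap.ker (Φ.B y)) ≤ finrank F W := Submodule.finrank_mono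
    fun e he => hW2 e (hT.1 e he.1) (hfull e he.1 (mem_pp.2 ⟨trivial, hT.2 x hxS e he.1, he.2⟩))
  refine hlt (le_trans ?_ b1)
  obtain b5 | b5 : finrank F W = 3 ∨ finrank F W = 4 := by omega
  · simp only [b5, d1, ob, lam_eq_one hO.inj]
    norm_num
    have : Nat.card F ≤ Nat.card F ^ 4 := Nat.le_self_pow (by omega) _
    nlinarith [Nat.mul_le_mul_left ((Nat.card F ^ 3 + 1) * (Nat.card F ^ 2 + 1))
      (Nat.add_le_add_right this 1)]
  · simp [b5, d1, ob, lam_eq_one hO.inj]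

theorem IsO.big (hO : IsO Φ) (h7 : 7 ≤ finrank F V) (h8 : 8 ≤ finrank F V ∨ (2 : F) ≠ 0)
    (h4 : 4 ≤ Nat.card F) (hH : H ≤ Φ.EG)
    (hN : H.relIndex Φ.EG < 2 * Nat.card F ^ (finrank F V - 2)) :
    Φ.EG ≤ H ∨ ns Φ ≤ (Nat.card F - 1) * H.relIndex Φ.EG ∨
      (finrank F V = 8 ∧ (∃ S : Submodule F V, Φ.TS S ∧ finrank F S = 4) ∧
      (Nat.card F ^ 3 + 1) * ((Nat.card F ^ 2 + 1) * (Nat.card F + 1)) ≤ H.relIndex Φ.EG) := by
  by_cases hnr : ∀ x, Φ.Q x = 0 → x ≠ 0 → ¬ ∀ w, Φ.InA H x w → ∃ t : F, w = t • x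
  · exact (hO.nonreg h7 h8 hH hN hnr).imp_right (.imp_right fun h => ⟨h.1, h.2.1, h.2.2.2 h4⟩)
  push Not at hnr
  obtain ⟨x, hx, hx0, hreg⟩ := hnr
  obtain ⟨s, hs0, hs⟩ := exists_sq_ne_one h4
  obtain ⟨x', hx', h⟩ := exists_partner_top hx hx0
  obtain ⟨k, hE, hk⟩ := exists_tor_orth hO.hσ hO.hε hO.hπ (by rw [hO.hd]; omega) hx hx' h hs0
  have := pow_le_relIndex_Qx hx hx0 hreg
  exact (regular_torus (by rw [hO.hd]; omega) hH hx hx0 hreg (fun g => covers hx hx0 (by omega))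
    hE hk hs (.inr hO.inj) ⟨s, hs0, by rwa [hO.hσ]⟩).imp_right .inl

end Cfsg.Agent.Class.MinDegO
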