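import Mathlib
import Cfsg.Agent.Class.MinDegO.OMain
import Cfsg.Agent.Class.MinDegO.Transfer
import Cfsg.Agent.Class.Orth.TypeCount

/-!
Minimal degree of orthogonal groups: the standard forms.
-/

set_option autoImplicit false
set_option linter.unusedSectionVars false

namespace Cfsg.Agent.Class.MinDegO

open Module Cfsg.Agent.Class.Max Cfsg.Agent.Class.Max.Fm

section General

variable {F V : Type*} [Field F] [AddCommGroup V] [Module F V] {Φ : Fm F V}
  [Finite F] [Finite V] [FiniteDimensional F V] {G : Type*} [Group G]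

theorem ns_add_one : ns Φ + 1 = Nat.card {x // Φ.Q x = 0} := by
  rw [ns, ← Set.ncard_insert_of_notMem (a := (0 : V)) (fun h => h.1 rfl)]
  refine congrArg Set.ncard (Set.ext fun v => ⟨?_, fun h => ?_⟩)
  · rintro (rfl | h)
    · exact Φ.Q_zero
    · exact h.2
  · by_cases c : v = 0
    · exact .inl c
    · exact .inr ⟨c, h⟩

/-- The minimal index is the number of singular points. -/
theorem transfer_sing (e : G →* (V ≃ₗ[F] V)) (he : Function.Injective e) (hE : e.range = Φ.EG)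
    (hd : Φ.d + 2 ≤ finrank F V) {a : ℕ} (ha : ns Φ = a)
    (h : ∀ H, H ≤ Φ.EG → ¬ Φ.EG ≤ H → (Nat.card F - 1) * H.relIndex Φ.EG < ns Φ → False) :
    (∀ K : Subgroup (G ⧸ Subgroup.center G), K ≠ ⊤ → a / (Nat.card F - 1) ≤ K.index) ∧
      ∃ K : Subgroup (G ⧸ Subgroup.center G), K.index = a / (Nat.card F - 1) := by
  obtain ⟨x, -, hx0, hx⟩ := Φ.iso ⊤ (by rw [finrank_top]; omega)
  have hq := one_lt_card_field (F := F)
  have h1 := relIndex_Px_sing hd hx hx0
  have hd0 := Φ.d_pos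
  refine transfer e he hE (fun H h2 h3 => ?_) (P := Px Φ x)
    (fun z => central_mem_Px_sing (by omega) hx hx0)
    (by rw [← ha, ← h1, Nat.mul_div_cancel_left _ (by omega)])
  exact Nat.div_le_of_le_mul (ha ▸ not_lt.1 (h H h2 h3))

end General

variable {F : Type*} [Field F] [Finite F] {ι : Type} [Fintype ι] [DecidableEq ι]

theorem isO_fmO {Q : (ι → F) → F} (hQ : Geo.IsNondegenerateQuadraticForm Q) : IsO (fmO hQ) :=
  ⟨fun _ => rfl, rfl, fun _ => rfl, rfl⟩

theorem ns_odd {m : ℕ} (hQ : Geo.IsNondegenerateQuadraticForm (quadFormOdd m F)) :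
    ns (fmO hQ) = Nat.card F ^ (2 * m) - 1 := by
  rw [← Orth.card_oddQF_zero, ← Nat.add_sub_cancel (ns _) 1, ns_add_one, Orth.coe_oddQF]
  rfl

theorem ns_plus {m : ℕ} (hQ : Geo.IsNondegenerateQuadraticForm (quadFormPlus (m + 1) F)) :
    ns (fmO hQ) = (Nat.card F ^ (m + 1) - 1) * (Nat.card F ^ m + 1) := by
  have h := Orth.card_plusQF_zero (F := F) (m + 1)
  have h1 : Nat.card {x // Orth.plusQF (m + 1) F x = 0} = ns (fmO hQ) + 1 := by
    rw [ns_add_one, Orth.coe_plusQF]; rfl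
  have hq : 0 < Nat.card F := Nat.card_pos
  zify [Nat.one_le_pow (m + 1) _ hq]
  rw [h1] at h
  refine mul_left_cancel₀ (a := (Nat.card F : ℤ)) (by exact_mod_cast hq.ne') ?_
  push_cast at h
  linear_combination h

theorem ns_minus {m : ℕ} {a b : F}
    (hab : ∀ z₁ z₂ : F, z₁ ^ 2 + a * z₁ * z₂ + b * z₂ ^ 2 = 0 → z₁ = 0 ∧ z₂ = 0)
    (hQ : Geo.IsNondegenerateQuadraticForm (quadFormMinus m F a b)) :
    ns (fmO hQ) = (Nat.card F ^ (m + 1) + 1) * (Nat.card F ^ m - 1) := by
  have h := Orth.card_minusQF_zero (F := F) m hab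
  have h1 : Nat.card {x // Orth.minusQF m F a b x = 0} = ns (fmO hQ) + 1 := by
    rw [ns_add_one, Orth.coe_minusQF]; rfl
  have hq : 0 < Nat.card F := Nat.card_pos
  zify [Nat.one_le_pow m _ hq]
  rw [h1] at h
  push_cast at h
  linear_combination h

theorem isNondegenerateQuadraticForm_minus (m : ℕ) {a b : F}
    (hab : ∀ z₁ z₂ : F, z₁ ^ 2 + a * z₁ * z₂ + b * z₂ ^ 2 = 0 → z₁ = 0 ∧ z₂ = 0) :
    Geo.IsNondegenerateQuadraticForm (quadFormMinus m F a b) := by
  rw [← Orth.coe_minusQF]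
  exact isNondegenerateQuadraticForm_of (Orth.nd_minusQF m hab)

theorem two_ne_zero_of_odd (h : Odd (Nat.card F)) : (2 : F) ≠ 0 := fun c => by
  have := Fintype.ofFinite F
  have h1 : ringChar F = 2 := CharP.ringChar_of_prime_eq_zero Nat.prime_two c
  rw [Nat.card_eq_fintype_card, Nat.odd_iff] at h
  have := FiniteField.even_card_of_char_two h1
  omega

theorem lt_two_mul_of_lt {q N a k : ℕ} (h : (q - 1) * N < a) (h1 : a ≤ (q - 1) * (2 * q ^ k)) :
    N < 2 * q ^ k := Nat.lt_of_mul_lt_mul_left (h.trans_le h1)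

end Cfsg.Agent.Class.MinDegO
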