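import Mathlib
import Cfsg.Agent.Class.MinDegO.OMain

/-!
Minimal degree of orthogonal groups over small fields: symmetric operators normalised by the
Eichler group up to scalars, and cocycles.
-/

set_option autoImplicit false
set_option linter.unusedSectionVars false

namespace Cfsg.Agent.Class.MinDegO

open Module Cfsg.Agent.Class.Max Cfsg.Agent.Class.Max.Fm

variable {F V : Type*} [Field F] [AddCommGroup V] [Module F V] {Φ : Fm F V}
  [Finite F] [Finite V] [FiniteDimensional F V]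

theorem IsO.valid (hO : IsO Φ) {e u : V} (he : Φ.Q e = 0) (hu : Φ.B e u = 0) :
    Φ.Valid e u (Φ.Q u) := ⟨he, hu, hO.hπ _⟩

theorem IsO.comm (hO : IsO Φ) (u v : V) : Φ.B u v = Φ.B v u := B_comm hO.hσ hO.hε u v

theorem exists_B_eq {W : Submodule F V} (hW : Φ.ND W) {a : V} (ha : a ∈ W) (h0 : a ≠ 0) (t : F) :
    ∃ u ∈ W, Φ.B a u = t := by
  obtain ⟨u, hu, h⟩ := hW.exists_ne ha h0
  exact ⟨(t * (Φ.B a u)⁻¹) • u, W.smul_mem _ hu, by simp [h]⟩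

theorem exists_ne_zero_pp {W : Submodule F V} (h3 : 3 ≤ finrank F W) (e f : V) :
    ∃ u ∈ pp Φ W e f, u ≠ 0 := by
  obtain ⟨u, hu, h0, h⟩ := exists_ne_zero_ker [Φ.B e, Φ.B f] W h3
  exact ⟨u, mem_pp.2 ⟨hu, h _ (by simp), h _ (by simp)⟩, h0⟩

theorem pp_comm {W : Submodule F V} {e f u : V} (h : u ∈ pp Φ W e f) : u ∈ pp Φ W f e :=
  mem_pp.2 ⟨(mem_pp.1 h).1, (mem_pp.1 h).2.2, (mem_pp.1 h).2.1⟩

variable (Φ) in
/-- Symmetric operators normalised by Eichler transformations up to adding scalars. -/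
structure SymOp (W : Submodule F V) (T : V → V) : Prop where
  mem : ∀ v ∈ W, T v ∈ W
  add : ∀ u ∈ W, ∀ v ∈ W, T (u + v) = T u + T v
  smul : ∀ (t : F), ∀ v ∈ W, T (t • v) = t • T v
  sym : ∀ u ∈ W, ∀ v ∈ W, Φ.B u (T v) = Φ.B v (T u)
  conj : ∀ e ∈ W, ∀ u ∈ W, Φ.Q e = 0 → Φ.B e u = 0 → ∃ β : F, ∀ v ∈ W,
    T (Φ.ef e u (Φ.Q u) v) = Φ.ef e u (Φ.Q u) (T v) - β • Φ.ef e u (Φ.Q u) v

variable {W : Submodule F V} {T : V → V}

theorem SymOp.B_self (h : SymOp Φ W T) (hO : IsO Φ) (hW : Φ.ND W) (h3 : 3 ≤ finrank F W) {e : V}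
    (he : e ∈ W) (qe : Φ.Q e = 0) : Φ.B e (T e) = 0 := by
  by_cases h0 : e = 0
  · simp [h0]
  obtain ⟨f, hf, qf, hef⟩ := exists_partner he qe (hW.exists_ne he h0)
  obtain ⟨u, hu, hu0⟩ := exists_ne_zero_pp (Φ := Φ) h3 e f
  obtain ⟨u', hu', huu⟩ := exists_B_eq (nd_pp hW he hf qe qf hef) hu hu0 1
  obtain ⟨a1, a2, a3⟩ := mem_pp.1 hu'
  obtain ⟨β, hβ⟩ := h.conj e he u' a1 qe a2
  have h1 := congrArg (Φ.B u) (hβ e he)
  rw [(hO.valid qe a2).ef_self] at h1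
  simpa [ef, huu, Φ.perp_symm (mem_pp.1 hu).2.1] using h1

theorem SymOp.conj' (h : SymOp Φ W T) (hO : IsO Φ) (hW : Φ.ND W) (h3 : 3 ≤ finrank F W) {e u : V}
    (he : e ∈ W) (qe : Φ.Q e = 0) (h0 : e ≠ 0) (hu : u ∈ W) (heu : Φ.B e u = 0) {v : V}
    (hv : v ∈ W) : T (Φ.ef e u (Φ.Q u) v) =
      Φ.ef e u (Φ.Q u) (T v) + Φ.B u (T e) • Φ.ef e u (Φ.Q u) v := by
  obtain ⟨β, hβ⟩ := h.conj e he u hu qe heu
  have h1 := hβ e he
  rw [(hO.valid qe heu).ef_self, ef_apply_of_perp' (h.B_self hO hW h3 he qe), hO.hε] at h1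
  have h2 : (β + Φ.B u (T e)) • e = 0 := by linear_combination (norm := module) h1
  rw [hβ v hv, eq_neg_of_add_eq_zero_left ((smul_eq_zero.1 h2).resolve_right h0)]
  module

theorem SymOp.formula (h : SymOp Φ W T) (hO : IsO Φ) (hW : Φ.ND W) (h3 : 3 ≤ finrank F W)
    {e f u : V} (he : e ∈ W) (hf : f ∈ W) (qe : Φ.Q e = 0) (hef : Φ.B e f = 1)
    (hu : u ∈ pp Φ W e f) : T u = Φ.B f (T e) • u + Φ.Q u • (T e - Φ.B f (T e) • e) -
      Φ.B u (T f) • e + Φ.B u (T e) • (f + u - Φ.Q u • e) := by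
  obtain ⟨a1, a2, a3⟩ := mem_pp.1 hu
  have h1 := h.conj' hO hW h3 he qe (fun c => by simp [c] at hef) a1 a2 hf
  have h2 : Φ.ef e u (Φ.Q u) f = f + u + (-Φ.Q u) • e := by
    simp [ef, hef, Φ.perp_symm a3, hO.hε, sub_eq_add_neg]
  rw [h2, h.add _ (W.add_mem hf a1) _ (W.smul_mem _ he), h.add _ hf _ a1, h.smul _ _ he, ef,
    h.sym e he f hf, hO.hε] at h1
  linear_combination (norm := module) h1

theorem SymOp.scalar_or (h : SymOp Φ W T) (hO : IsO Φ) (hW : Φ.ND W) (h3 : 3 ≤ finrank F W) :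
    (∃ μ : F, ∀ v ∈ W, T v = μ • v) ∨ (finrank F W ≤ 4 ∧ ∃ (μ : F) (l : V ≃ₗ[F] V),
      (∃ v ∈ W, v ≠ 0 ∧ T v = μ • v) ∧
        ∀ v ∈ W, l v ∈ W ∧ T (l v) = l (T v) + l v) := by
  classical
  by_cases c : ∀ e ∈ W, Φ.Q e = 0 → ∃ μ : F, T e = μ • e
  · obtain ⟨e, he, f, hf, qe, qf, hef⟩ := hW.exists_hyp (by rw [hO.hd]; exact h3)
    obtain ⟨μ, hμ⟩ := c e he qe
    have key : ∀ a ∈ W, ∀ b ∈ W, Φ.Q b = 0 → T a = μ • a → Φ.B a b ≠ 0 → T b = μ • b := by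
      intro a ha b hb qb h1 h2
      obtain ⟨ν, hν⟩ := c b hb qb
      have := h.sym a ha b hb
      rw [h1, hν, map_smul, map_smul, hO.comm b a] at this
      rw [hν, mul_right_cancel₀ h2 this]
    let A : AddSubgroup V :=
      { carrier := {v | v ∈ W ∧ T v = μ • v}
        zero_mem' := ⟨W.zero_mem, by simpa using h.smul 0 0 W.zero_mem⟩
        add_mem' := fun ha hb => ⟨W.add_mem ha.1 hb.1, by
          rw [h.add _ ha.1 _ hb.1, ha.2, hb.2, smul_add]⟩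
        neg_mem' := fun {a} ha => ⟨W.neg_mem ha.1, by
          simpa [ha.2] using h.smul (-1) a ha.1⟩ }
    refine .inl ⟨μ, fun v hv => (le_of_sing he qe ⟨f, hf, by simp [hef]⟩ A
      (fun s hs qs h1 => ⟨hs, ?_⟩) v hv).2⟩
    by_cases h2 : Φ.B e s = 0
    · obtain ⟨s', a1, a2, a3, a4⟩ := Φ.exists_sing_not_perp₂ W he qe h2 ⟨f, hf, by simp [hef]⟩ h1
      exact key s' a1 s hs qs (key e he s' a1 a2 hμ a3) (Φ.ne_symm a4)
    · exact key e he s hs qs hμ h2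
  push Not at c
  obtain ⟨e, he, qe, c⟩ := c
  have he0 : e ≠ 0 := fun h0 => c 0 (by simpa [h0] using h.smul 0 0 W.zero_mem)
  obtain ⟨f, hf, qf, hef⟩ := exists_partner he qe (hW.exists_ne he he0)
  have hfe := (hO.comm f e).trans hef
  have hW₀ := nd_pp hW he hf qe qf hef
  have hee := Φ.B_self qe
  have hff := Φ.B_self qf
  obtain ⟨γ, hγ⟩ : ∃ γ, Φ.B f (T e) = γ := ⟨_, rfl⟩
  have hγ' : Φ.B e (T f) = γ := (h.sym e he f hf).trans hγ
  obtain ⟨a, ha⟩ : ∃ a, T e = γ • e + a := ⟨T e - γ • e, by simp⟩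
  obtain ⟨b, hb⟩ : ∃ b, T f = γ • f + b := ⟨T f - γ • f, by simp⟩
  have m1 : a ∈ pp Φ W e f := mem_pp.2 ⟨by simpa [ha] using W.sub_mem (h.mem e he) (W.smul_mem γ he),
    by simpa [ha, hee] using h.B_self hO hW h3 he qe, by simpa [ha, hfe] using hγ⟩
  have m2 : b ∈ pp Φ W e f := mem_pp.2 ⟨by simpa [hb] using W.sub_mem (h.mem f hf) (W.smul_mem γ hf),
    by simpa [hb, hef] using hγ', by simpa [hb, hff] using h.B_self hO hW h3 hf qf⟩
  have ha0 : a ≠ 0 := fun h0 => c γ (by simp [ha, h0])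
  have comp : ∀ v ∈ pp Φ W e f, ∀ s t : F, v + s • e + t • f = 0 → v = 0 := fun v hv s t h0 => by
    have h1 := congrArg (Φ.B e) h0
    have h2 := congrArg (Φ.B f) h0
    simp only [map_add, map_smul, (mem_pp.1 hv).2.1, (mem_pp.1 hv).2.2, hee, hff, hef, hfe,
      smul_eq_mul, map_zero, mul_zero, mul_one, zero_add, add_zero] at h1 h2
    simpa [h1, h2] using h0
  have f1 : ∀ u ∈ pp Φ W e f, T u = γ • u + Φ.Q u • a - Φ.B u b • e +
      Φ.B u a • (f + u - Φ.Q u • e) := fun u hu => by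
    rw [h.formula hO hW h3 he hf qe hef hu, hγ, ha, hb]
    simp [Φ.perp_symm (mem_pp.1 hu).2.1, Φ.perp_symm (mem_pp.1 hu).2.2]
  have f2 : ∀ u ∈ pp Φ W e f, T u = γ • u + Φ.Q u • b - Φ.B u a • f +
      Φ.B u b • (e + u - Φ.Q u • f) := fun u hu => by
    rw [h.formula hO hW h3 hf he qf hfe (pp_comm hu), hγ', ha, hb]
    simp [Φ.perp_symm (mem_pp.1 hu).2.1, Φ.perp_symm (mem_pp.1 hu).2.2]
  obtain ⟨u, hu, hau⟩ := exists_B_eq hW₀ m1 ha0 1
  have hua := (hO.comm u a).trans hau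
  refine .inr ⟨?_, γ, (hO.valid qe (mem_pp.1 hu).2.1).eich, ?_, fun v hv =>
    ⟨ef_mem _ he (pp_le hu) hv, ?_⟩⟩
  · have h1 : pp Φ W e f ≤ Submodule.span F (({a, u} : Finset V) : Set V) := fun v hv => by
      have h2 := h.add u (pp_le hu) v (pp_le hv)
      rw [f1 _ hu, f1 _ hv, f1 _ (Submodule.add_mem _ hu hv), Φ.add, hO.hπ] at h2
      simp only [Φ.bsimp, hua] at h2
      have := comp (Φ.B u v • a + v + Φ.B v a • u) (Submodule.add_mem _ (Submodule.add_mem _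
        (Submodule.smul_mem _ _ m1) hv) (Submodule.smul_mem _ _ hu))
        (-(Φ.Q v + Φ.B v a * Φ.Q u + (1 + Φ.B v a) * Φ.B u v)) 0
        (by linear_combination (norm := module) h2)
      rw [Finset.coe_pair, Submodule.mem_span_pair]
      exact ⟨-Φ.B u v, -Φ.B v a, by linear_combination (norm := module) -this⟩
    have h2 := (Submodule.finrank_mono h1).trans (finrank_span_finset_le_card _)
    have h3 := finrank_pp he hf qe qf hef
    have := Finset.card_le_two (a := a) (b := u)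
    omega
  · obtain ⟨r, hr⟩ : ∃ r : F, b = r • a := by
      by_cases h0 : a - b = 0
      · exact ⟨1, by rw [one_smul, sub_eq_zero.1 h0]⟩
      have m3 := Submodule.sub_mem _ m1 m2
      have k1 : ∀ v ∈ pp Φ W e f, Φ.B (a - b) v = 1 → v = (-Φ.Q v) • (a - b) := fun v hv h1 => by
        have h2 := (f1 v hv).symm.trans (f2 v hv)
        rw [hO.comm, map_sub] at h1
        have := comp (Φ.Q v • (a - b) + v) (Submodule.add_mem _ (Submodule.smul_mem _ _ m3) hv)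
          (-(2 * Φ.B v b + Φ.B v a * Φ.Q v)) (2 * Φ.B v a + Φ.B v b * Φ.Q v)
          (by linear_combination (norm := module) h2 - h1 • v)
        linear_combination (norm := module) this
      obtain ⟨v, hv, h1⟩ := exists_B_eq hW₀ m3 h0 1
      have h2 := k1 _ (Submodule.add_mem _ m1 (Submodule.smul_mem _ (1 - Φ.B (a - b) a) hv))
        (by rw [map_add, map_smul, h1]; simp)
      obtain ⟨s, hs⟩ : ∃ s : F, a = s • (a - b) :=
        ⟨-Φ.Q (a + (1 - Φ.B (a - b) a) • v) + (1 - Φ.B (a - b) a) * Φ.Q v, by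
          linear_combination (norm := module) h2 - (1 - Φ.B (a - b) a) • k1 v hv h1⟩
      have hs0 : s ≠ 0 := fun c => ha0 (by rw [hs, c, zero_smul])
      refine ⟨1 - s⁻¹, ?_⟩
      have := congrArg (s⁻¹ • ·) hs
      simp only [inv_smul_smul₀ hs0] at this
      linear_combination (norm := module) this
    refine ⟨f + (-r) • e, W.add_mem hf (W.smul_mem _ he), fun c => ?_, ?_⟩
    · simpa [hef, hee] using congrArg (Φ.B e) c
    · rw [h.add _ hf _ (W.smul_mem _ he), h.smul _ _ he, ha, hb, hr]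
      module
  · have := h.conj' hO hW h3 he qe he0 (pp_le hu) (mem_pp.1 hu).2.1 hv
    rw [ha, map_add, map_smul, hua, Φ.perp_symm (mem_pp.1 hu).2.1] at this
    simpa [Valid.eich_apply] using this

open Classical in
variable (Φ) in
/-- Eichler transformations of an orthogonal space. -/
noncomputable def eo (y v : V) : V ≃ₗ[F] V := if h : Φ.Valid y v (Φ.Q v) then h.eich else 1

theorem IsO.eo_apply (hO : IsO Φ) {y v : V} (hy : Φ.Q y = 0) (hv : Φ.B y v = 0) (z : V) :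
    eo Φ y v z = Φ.ef y v (Φ.Q v) z := by
  rw [eo, dif_pos (hO.valid hy hv)]; rfl

theorem IsO.eo_mem (hO : IsO Φ) {U : Submodule F V} {y v : V} (hy : Φ.Q y = 0) (hv : Φ.B y v = 0)
    (hyU : y ∈ U) (hvU : v ∈ U) : eo Φ y v ∈ GU Φ U :=
  (hasOn_GU U y hyU v hvU _ (hO.valid hy hv)).mem (hO.eo_apply hy hv)

theorem IsO.eo_add (hO : IsO Φ) {y v v' : V} (hy : Φ.Q y = 0) (hv : Φ.B y v = 0)
    (hv' : Φ.B y v' = 0) : eo Φ y (v + v') = eo Φ y v * eo Φ y v' := LinearEquiv.ext fun z => by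
  rw [mul_app, hO.eo_apply hy hv, hO.eo_apply hy hv', hO.eo_apply hy (by simp [hv, hv']),
    (hO.valid hy hv).ef_ef (hO.valid hy hv'), Φ.add, hO.hπ]

theorem IsO.eo_conj (hO : IsO Φ) {y v : V} (hy : Φ.Q y = 0) (hv : Φ.B y v = 0) {l : V ≃ₗ[F] V}
    (hl : l ∈ Φ.Iso) (hly : l y = y) : l * eo Φ y v = eo Φ y (l v) * l := LinearEquiv.ext fun z => by
  rw [mul_app, mul_app, hO.eo_apply hy hv, hO.eo_apply hy (by rw [← hly, Iso.B hl, hv]), Iso.ef hl,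
    hly, Iso.Q hl]

theorem smul_of_add (hF : ∀ t : F, t ≠ 0 → t = 1 ∨ t = -1)
    (h : ∀ u ∈ W, ∀ v ∈ W, T (u + v) = T u + T v) (t : F) (v : V) (hv : v ∈ W) :
    T (t • v) = t • T v := by
  have h0 : T 0 = 0 := by simpa using h 0 W.zero_mem 0 W.zero_mem
  by_cases c : t = 0
  · simp [c, h0]
  rcases hF t c with rfl | rfl
  · simp
  · have := h v hv (-v) (W.neg_mem hv)
    rw [add_neg_cancel, h0] at this
    simpa using (neg_eq_of_add_eq_zero_right this.symm).symm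

/-- A cocycle restricted to the unipotent radical of a point stabiliser. -/
theorem IsO.cocycle (hO : IsO Φ) (hF : ∀ t : F, t ≠ 0 → t = 1 ∨ t = -1) {D : Submodule F V}
    (hD : Φ.ND D) (h5 : 5 ≤ finrank F D) {ω : (V ≃ₗ[F] V) → V} (h1 : ∀ g ∈ GU Φ D, ω g ∈ D)
    (h2 : ∀ g ∈ GU Φ D, ∀ g' ∈ GU Φ D, ω (g * g') = ω g + g (ω g')) {y z : V} (hy : y ∈ D)
    (hz : z ∈ D) (qy : Φ.Q y = 0) (qz : Φ.Q z = 0) (hyz : Φ.B y z = 1) :
    ∃ T, SymOp Φ (pp Φ D y z) T ∧ ∀ v ∈ pp Φ D y z, ∃ γ : F, ω (eo Φ y v) = T v + γ • y := by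
  have hW := nd_pp hD hy hz qy qz hyz
  have hr := finrank_pp hy hz qy qz hyz
  have hzy := (hO.comm z y).trans hyz
  have hyy := Φ.B_self qy
  have m1 : ∀ v ∈ pp Φ D y z, eo Φ y v ∈ GU Φ D := fun v hv =>
    hO.eo_mem qy (mem_pp.1 hv).2.1 hy (pp_le hv)
  have a1 : ∀ u ∈ pp Φ D y z, ∀ v ∈ pp Φ D y z, ω (eo Φ y (u + v)) =
      ω (eo Φ y u) + Φ.ef y u (Φ.Q u) (ω (eo Φ y v)) := fun u hu v hv => by
    rw [hO.eo_add qy (mem_pp.1 hu).2.1 (mem_pp.1 hv).2.1, h2 _ (m1 u hu) _ (m1 v hv),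
      hO.eo_apply qy (mem_pp.1 hu).2.1]
  have a2 : ∀ l ∈ GU Φ (pp Φ D y z), ∀ v ∈ pp Φ D y z, ω (eo Φ y (l v)) =
      ω l + l (ω (eo Φ y v)) - Φ.ef y (l v) (Φ.Q (l v)) (ω l) := fun l hl v hv => by
    have := congrArg ω (hO.eo_conj qy (mem_pp.1 hv).2.1 (GU_iso hl) (GU_pp_left hl))
    rw [h2 _ (GU_mono pp_le hl) _ (m1 v hv), h2 _ (m1 _ (GU_mem hl hv)) _ (GU_mono pp_le hl),
      hO.eo_apply qy (mem_pp.1 (GU_mem hl hv)).2.1] at this
    rw [this]; simp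
  have b1 : ∀ u ∈ pp Φ D y z, ∀ v ∈ pp Φ D y z, Φ.B y (ω (eo Φ y (u + v))) =
      Φ.B y (ω (eo Φ y u)) + Φ.B y (ω (eo Φ y v)) := fun u hu v hv => by
    rw [a1 u hu v hv, map_add, (hO.valid qy (mem_pp.1 hu).2.1).B_ef]
  have b2 : ∀ v ∈ pp Φ D y z, Φ.B y (ω (eo Φ y v)) = 0 := by
    have z0 : Φ.B y (ω (eo Φ y 0)) = 0 := by
      simpa using b1 0 (Submodule.zero_mem _) 0 (Submodule.zero_mem _)
    let A : AddSubgroup V :=
      { carrier := {v | v ∈ pp Φ D y z ∧ Φ.B y (ω (eo Φ y v)) = 0}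
        zero_mem' := ⟨Submodule.zero_mem _, z0⟩
        add_mem' := fun ha hb => ⟨Submodule.add_mem _ ha.1 hb.1, by
          rw [b1 _ ha.1 _ hb.1, ha.2, hb.2, add_zero]⟩
        neg_mem' := fun {a} ha => ⟨Submodule.neg_mem _ ha.1, by
          simpa [ha.2, z0] using (b1 a ha.1 _ (Submodule.neg_mem _ ha.1)).symm⟩ }
    obtain ⟨e₀, he₀, f₀, hf₀, q1, -, q2⟩ := hW.exists_hyp (by rw [hO.hd]; omega)
    refine fun v hv => (le_of_sing he₀ q1 ⟨f₀, hf₀, by simp [q2]⟩ A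
      (fun e he qe h => ⟨he, ?_⟩) v hv).2
    obtain ⟨f, hf, qf, hef⟩ := exists_partner he qe h
    obtain ⟨u, hu, hu0⟩ := exists_ne_zero_pp (Φ := Φ) (W := pp Φ D y z) (by omega) e f
    obtain ⟨w, hw, huw⟩ := exists_B_eq (nd_pp hW he hf qe qf hef) hu hu0 (-1)
    have hl := hO.eo_mem qe (mem_pp.1 hu).2.1 he (pp_le hu)
    have c1 := congrArg (Φ.B y) (a2 _ hl w (pp_le hw))
    rw [map_sub, map_add, (hO.valid qy (mem_pp.1 (GU_mem hl (pp_le hw))).2.1).B_ef,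
      add_sub_cancel_left, ← Iso.B_inv_left (GU_iso hl), GU_pp_left ((GU Φ _).inv_mem hl),
      hO.eo_apply qe (mem_pp.1 hu).2.1, ef_apply_of_perp' (mem_pp.1 hw).2.1, huw, hO.hε] at c1
    simpa [b1 w (pp_le hw) e he] using c1
  have c1 : ∀ u ∈ pp Φ D y z, ∀ v ∈ pp Φ D y z, ω (eo Φ y (u + v)) =
      ω (eo Φ y u) + ω (eo Φ y v) - Φ.B u (ω (eo Φ y v)) • y := fun u hu v hv => by
    rw [a1 u hu v hv, ef_apply_of_perp' (b2 v hv), hO.hε]; module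
  have c2 : ∀ u ∈ pp Φ D y z, ∀ v ∈ pp Φ D y z,
      ω (eo Φ y (u + v)) - Φ.B z (ω (eo Φ y (u + v))) • y =
      ω (eo Φ y u) - Φ.B z (ω (eo Φ y u)) • y + (ω (eo Φ y v) - Φ.B z (ω (eo Φ y v)) • y) :=
    fun u hu v hv => by
      rw [c1 u hu v hv]
      simp only [Φ.bsimp, hzy]
      module
  refine ⟨fun v => ω (eo Φ y v) - Φ.B z (ω (eo Φ y v)) • y, ⟨fun v hv => mem_pp.2
    ⟨D.sub_mem (h1 _ (m1 v hv)) (D.smul_mem _ hy), by simp [b2 v hv, hyy], by simp [hzy]⟩, c2,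
    smul_of_add (T := fun v => ω (eo Φ y v) - Φ.B z (ω (eo Φ y v)) • y) hF c2,
    fun u hu v hv => ?_, fun e he u hu qe heu => ?_⟩,
    fun v _ => ⟨Φ.B z (ω (eo Φ y v)), by simp⟩⟩
  · have := congrArg (Φ.B z) ((c1 u hu v hv).symm.trans ((add_comm u v) ▸ c1 v hv u hu))
    simp only [Φ.bsimp, hzy, Φ.perp_symm (mem_pp.1 hu).2.1, Φ.perp_symm (mem_pp.1 hv).2.1] at this ⊢
    linear_combination -this
  · have hl := hO.eo_mem qe heu he hu
    refine ⟨Φ.B y (ω (eo Φ e u)), fun v hv => ?_⟩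
    simp only [← hO.eo_apply qe heu]
    have d1 : ∀ w, Φ.B z (eo Φ e u w) = Φ.B z w := fun w => by
      rw [← Iso.B (GU_iso hl) z w, GU_pp_right hl]
    rw [a2 _ hl v hv, map_sub (eo Φ e u), map_smul, GU_pp_left hl]
    simp only [ef, Φ.bsimp, d1, hzy, (mem_pp.1 hv).2.2, hO.hε]
    module

end Cfsg.Agent.Class.MinDegO
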