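import Mathlib
import Cfsg.Agent.Class.MinDegO.RegT

/-!
Minimal degree of orthogonal groups over fields with at most three elements: regular points.
-/

set_option autoImplicit false
set_option linter.unusedSectionVars false

namespace Cfsg.Agent.Class.MinDegO

open Module Cfsg.Agent.Class.Max Cfsg.Agent.Class.Max.Fm

variable {F V : Type*} [Field F] [AddCommGroup V] [Module F V] {Φ : Fm F V}
  [Finite F] [Finite V] [FiniteDimensional F V] {H : Subgroup (V ≃ₗ[F] V)} {x x' : V}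

theorem exists_ef_eq_add (e w : V) (c : F) (v : V) :
    ∃ s : F, Φ.ef e w c v = v + Φ.B e v • w + s • e :=
  ⟨_, by rw [ef, sub_eq_add_neg, ← neg_smul]⟩

theorem IsO.ef_shift (hO : IsO Φ) {y v : V} (hx : Φ.Q x = 0) (hy : Φ.Q y = 0) (h1 : Φ.B x y = 0)
    (h2 : Φ.B x v = 0) (h3 : Φ.B y v = 0) (μ κ : F) (z : V) :
    Φ.ef (y + μ • x) (v + κ • x) (Φ.Q (v + κ • x)) z =
      Φ.ef x (μ • v + (-κ - Φ.Q v * μ) • y) (Φ.Q (μ • v + (-κ - Φ.Q v * μ) • y))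
        (Φ.ef y v (Φ.Q v) z) := by
  have t := Φ.trace _ _ (hO.hπ (Φ.Q v))
  rw [hO.hσ, hO.hε] at t
  rw [Φ.Q_add_perp (by simp [Φ.perp_symm h2]), Φ.Q_add_perp (by simp [Φ.perp_symm h3]),
    Φ.Q_smul_zero hx, Φ.Q_smul_zero hy, Φ.smul]
  simp only [ef, Φ.bsimp, hO.hσ, hO.hε, h1, h2, h3, Φ.perp_symm h1, Φ.perp_symm h2, Φ.perp_symm h3,
    Φ.B_self hx, Φ.B_self hy, ← t]
  module

variable (Φ H) in
/-- `E(x, w) ∘ φ` lies in `H`. -/
def Lf (x : V) (φ : V → V) (w : V) : Prop :=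
  Φ.B x w = 0 ∧ ∃ k ∈ H, ∀ z, k z = Φ.ef x w (Φ.Q w) (φ z)

theorem Lf.sub (hO : IsO Φ) (hx : Φ.Q x = 0) {φ : V → V} {w w' : V} (h : Lf Φ H x φ w)
    (h' : Lf Φ H x φ w') : Φ.InA H x (w - w') := by
  obtain ⟨h1, k, hk, e⟩ := h
  obtain ⟨h2, k', hk', e'⟩ := h'
  have v1 := hO.valid hx h1
  have v2 := hO.valid hx h2
  rw [sub_eq_add_neg]
  refine ⟨_, v1.add v2.neg, k * k'⁻¹, H.mul_mem hk (H.inv_mem hk'), fun z => ?_⟩
  obtain ⟨z, rfl⟩ := k'.surjective z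
  rw [mul_app, inv_app_app, e, e', ← v1.ef_ef v2.neg, v2.ef_neg_ef]

theorem Lf.mul (hO : IsO Φ) (hx : Φ.Q x = 0) {g g' : V ≃ₗ[F] V} (hg : g ∈ Φ.Iso) (hgx : g x = x)
    {w w' : V} (h : Lf Φ H x g w) (h' : Lf Φ H x g' w') : Lf Φ H x (g * g') (w + g w') := by
  obtain ⟨h1, k, hk, e⟩ := h
  obtain ⟨h2, k', hk', e'⟩ := h'
  have h3 : Φ.B x (g w') = 0 := by rw [← hgx, Iso.B hg, h2]
  refine ⟨by simp [h1, h3], k * k', H.mul_mem hk hk', fun z => ?_⟩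
  rw [mul_app, e, e', Iso.ef hg, hgx, ← Iso.Q hg w', (hO.valid hx h1).ef_ef (hO.valid hx h3),
    Φ.add, hO.hπ, mul_app]

theorem exists_lf (hO : IsO Φ) (hx : Φ.Q x = 0) (hx' : Φ.Q x' = 0) (h : Φ.B x x' = 1)
    (hcov : ∀ g ∈ Px Φ x, ∃ k ∈ H, k ∈ Px Φ x ∧ ∃ u ∈ Qx Φ x, g = k * u) {g : V ≃ₗ[F] V}
    (hg : g ∈ Px Φ x) : ∃ w ∈ pp Φ ⊤ x x', Lf Φ H x g w := by
  obtain ⟨k, hk, -, u, hu, rfl⟩ := hcov g hg
  obtain ⟨w, hw, c, hv, e⟩ := exists_of_mem_Qx' hx hx' h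
    (conj_mem_Qx (fun c => by simp [c] at h) hg ((Qx Φ x).inv_mem hu))
  refine ⟨w, hw, hv.perp, k, hk, fun z => ?_⟩
  rw [← hv.norm, hO.hπ, ← e]
  simp [mul_app]

theorem lf_iff (hO : IsO Φ) {y v : V} (hx : Φ.Q x = 0) (hy : Φ.Q y = 0) (h1 : Φ.B x y = 0)
    (h2 : Φ.B x v = 0) (h3 : Φ.B y v = 0) (μ κ : F) :
    Lf Φ H x (Φ.ef y v (Φ.Q v)) (μ • v + (-κ - Φ.Q v * μ) • y) ↔
      Φ.InA H (y + μ • x) (v + κ • x) := by
  constructor
  · rintro ⟨-, k, hk, e⟩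
    refine ⟨_, hO.valid ?_ ?_, k, hk, fun z => by rw [e, hO.ef_shift hx hy h1 h2 h3]⟩
    · rw [Φ.Q_add_perp (by simp [Φ.perp_symm h1]), hy, Φ.Q_smul_zero hx, add_zero]
    · simp [h2, h3, Φ.perp_symm h1, Φ.B_self hx]
  · intro h
    obtain ⟨k, hk, e⟩ := (hO.rr h).2
    exact ⟨by simp [h1, h2], k, hk, fun z => by rw [e, hO.ef_shift hx hy h1 h2 h3]⟩

variable (Φ H) in
/-- Points of `x^⊥` all of whose Eichler transformations lift. -/
structure Sec (x y : V) : Prop where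
  sing : Φ.Q y = 0
  perp : Φ.B x y = 0
  lift : ∀ v, Φ.B x v = 0 → Φ.B y v = 0 → ∃ κ : F, Φ.InA H y (v + κ • x)

theorem IsO.inA_swap (hO : IsO Φ) {y : V} {t : F} (hx : Φ.Q x = 0) (h : Φ.InA H y (t • x))
    (h1 : Φ.B x y = 0) : Φ.InA H x (t • y) := by
  simpa [hO.hσ, hO.hε] using (((hO.rr h).congr rfl (Φ.Q_smul_zero hx t)).swap hx h1).inA.neg

section Regular

variable (hO : IsO Φ) (h7 : 7 ≤ finrank F V) (hx : Φ.Q x = 0) (hx' : Φ.Q x' = 0)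
  (h : Φ.B x x' = 1) (hreg : ∀ w, Φ.InA H x w → ∃ t : F, w = t • x)
include hO h7 hx hx' h hreg

omit h7 in
theorem lf_unique {φ : V → V} {w w' : V} (h1 : Lf Φ H x φ w) (h2 : Lf Φ H x φ w')
    (hw : w ∈ pp Φ ⊤ x x') (hw' : w' ∈ pp Φ ⊤ x x') : w = w' := by
  obtain ⟨t, ht⟩ := hreg _ (h1.sub hO hx h2)
  have := congrArg (Φ.B x') ht
  rw [map_sub, (mem_pp.1 hw).2.2, (mem_pp.1 hw').2.2, map_smul, hO.comm, h] at this
  obtain rfl : t = 0 := by simpa using this.symm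
  exact sub_eq_zero.1 (by simpa using ht)

theorem exists_sec (hF : ∀ t : F, t ≠ 0 → t = 1 ∨ t = -1) (hH : H ≤ Φ.EG)
    (hN : H.relIndex Φ.EG < 2 * Nat.card F ^ (finrank F V - 2)) {y : V} (hy : y ∈ pp Φ ⊤ x x')
    (qy : Φ.Q y = 0) (hy0 : y ≠ 0) : ∃ μ : F, Sec Φ H x (y + μ • x) := by
  have hx0 : x ≠ 0 := fun c => by simp [c] at h
  have hcov := fun g => covers (g := g) hx hx0
    (lt_of_lt_of_le hN (Nat.mul_le_mul_left 2 (pow_le_relIndex_Qx hx hx0 hreg)))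
  choose! ω hω1 hω2 using fun g (hg : g ∈ GU Φ (pp Φ ⊤ x x')) =>
    exists_lf hO hx hx' h hcov (Sx_le_Px (GU_pp_le_Sx hg))
  have hD := nd_pp Φ.nd_top trivial trivial hx hx' h
  have hr := two_le_finrank h hx hx'
  obtain ⟨z, hz, qz, hyz⟩ := exists_partner hy qy (hD.exists_ne hy hy0)
  have hzy := (hO.comm z y).trans hyz
  have hx'x := (hO.comm x' x).trans h
  obtain ⟨T, hT, hT'⟩ := hO.cocycle hF hD (by omega) hω1 (fun g hg g' hg' =>
    lf_unique hO hx hx' h hreg (hω2 _ (Subgroup.mul_mem _ hg hg'))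
      ((hω2 g hg).mul hO hx (GU_iso hg) (GU_pp_left hg) (hω2 g' hg'))
      (hω1 _ (Subgroup.mul_mem _ hg hg')) (Submodule.add_mem _ (hω1 g hg) (GU_mem hg (hω1 g' hg'))))
    hy hz qy qz hyz
  have hr' := finrank_pp hy hz qy qz hyz
  obtain ⟨-, hxy, hx'y⟩ := mem_pp.1 hy
  have qμ : ∀ μ : F, Φ.Q (y + μ • x) = 0 := fun μ => by
    rw [Φ.Q_add_perp (by simp [Φ.perp_symm hxy]), qy, Φ.Q_smul_zero hx, add_zero]
  have l1 : ∀ v ∈ pp Φ (pp Φ ⊤ x x') y z, ∃ γ : F,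
      Lf Φ H x (Φ.ef y v (Φ.Q v)) (T v + γ • y) := fun v hv => by
    obtain ⟨γ, hγ⟩ := hT' v hv
    have := hω2 _ (hO.eo_mem qy (mem_pp.1 hv).2.1 hy (pp_le hv))
    rw [hγ, show ⇑(eo Φ y v) = _ from funext (hO.eo_apply qy (mem_pp.1 hv).2.1)] at this
    exact ⟨γ, this⟩
  have l2 : ∀ v ∈ pp Φ (pp Φ ⊤ x x') y z, ∀ μ : F,
      T v = μ • v ↔ ∃ κ : F, Φ.InA H (y + μ • x) (v + κ • x) := fun v hv μ => by
    obtain ⟨γ, hγ⟩ := l1 v hv
    obtain ⟨a1, a2, a3⟩ := mem_pp.1 hv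
    constructor
    · intro e
      refine ⟨-γ - Φ.Q v * μ, (lf_iff hO hx qy hxy (mem_pp.1 a1).2.1 a2 _ _).1 ?_⟩
      convert hγ using 2
      · exact e.symm
      · congr 1; ring
    · rintro ⟨κ, hκ⟩
      have := lf_unique hO hx hx' h hreg hγ ((lf_iff hO hx qy hxy (mem_pp.1 a1).2.1 a2 _ _).2 hκ)
        (Submodule.add_mem _ (pp_le (hT.mem v hv)) (Submodule.smul_mem _ _ hy))
        (Submodule.add_mem _ (Submodule.smul_mem _ _ a1) (Submodule.smul_mem _ _ hy))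
      have e := congrArg (Φ.B z) this
      simp only [Φ.bsimp, a3, (mem_pp.1 (hT.mem v hv)).2.2, hzy, mul_zero, zero_add, mul_one] at e
      rw [e] at this
      exact add_right_cancel this
  have dec : ∀ (μ : F) m, Φ.B x m = 0 → Φ.B (y + μ • x) m = 0 →
      ∃ v ∈ pp Φ (pp Φ ⊤ x x') y z, ∃ a b : F, m = v + a • x + b • (y + μ • x) := by
    intro μ m h1 h2
    obtain ⟨d, hd, e1⟩ := hyp_decomp_mem (U := ⊤) trivial trivial hx hx' h (y := m) trivial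
    obtain ⟨v, hv, e2⟩ := hyp_decomp_mem hy hz qy qz hyz hd
    have : Φ.B y d = 0 := by
      rw [e1, h1] at h2
      simpa [Φ.perp_symm hxy, (mem_pp.1 hd).2.1, Φ.B_self hx] using h2
    rw [h1] at e1
    rw [this] at e2
    exact ⟨v, hv, Φ.ε * Φ.B x' m - Φ.ε * Φ.B z d * μ, Φ.ε * Φ.B z d, by
      linear_combination (norm := module) e1 + e2⟩
  rcases hT.scalar_or hO (nd_pp hD hy hz qy qz hyz) (by omega) with ⟨μ, hμ⟩ |
    ⟨h4, μ, l, ⟨v₀, hv₀, hv0, e₀⟩, hl⟩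
  · refine ⟨μ, qμ μ, by simp [hxy, Φ.B_self hx], fun m h1 h2 => ?_⟩
    obtain ⟨v, hv, a, b, rfl⟩ := dec μ m h1 h2
    obtain ⟨κ, hκ⟩ := (l2 v hv μ).1 (hμ v hv)
    refine ⟨κ - a, ?_⟩
    convert hκ.add (inA_smul_self (qμ μ) b) using 1
    module
  exfalso
  have eig : ∀ m, Φ.InA H (y + μ • x) m → ∀ v ∈ pp Φ (pp Φ ⊤ x x') y z, ∀ a b : F,
      m = v + a • x + b • (y + μ • x) → T v = μ • v := by
    rintro _ hm v hv a b rfl
    exact (l2 v hv μ).2 ⟨a, by simpa using hm.sub (inA_smul_self (qμ μ) b)⟩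
  have hperp : ∀ m, Φ.InA H (y + μ • x) m → Φ.B x m = 0 := by
    intro m hm
    by_contra hξ
    obtain ⟨hv, e⟩ := hl v₀ hv₀
    rw [e₀, map_smul] at e
    obtain ⟨γ, a0, k, hk, e1⟩ := l1 _ hv
    obtain ⟨a1, a2, a3⟩ := mem_pp.1 hv
    obtain ⟨-, a4, a5⟩ := mem_pp.1 a1
    have hη : Φ.B y m = -(μ * Φ.B x m) := by
      have := hm.perp
      simp only [Φ.bsimp, hO.hσ] at this
      linear_combination this
    have b1 : k (y + μ • x) = y + μ • x := by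
      rw [e1, ef_apply_of_perp (x := y + μ • x) (by simp [Φ.B_self qy, Φ.perp_symm hxy])
        (by simp [Φ.perp_symm a2, Φ.perp_symm a4]), ef_apply_of_perp (by simp [hxy, Φ.B_self hx])]
      simp [e, Φ.perp_symm a2, Φ.perp_symm a4, Φ.B_self qy, Φ.perp_symm hxy]
    have b2 := hm.conj hk (Φ.EG_le_Iso (hH hk))
    rw [b1] at b2
    obtain ⟨s, t, b3⟩ : ∃ s t : F, k m - m = Φ.B x m • l v₀ + s • x + t • y := by
      obtain ⟨t, ht⟩ := exists_ef_eq_add (Φ := Φ) y (l v₀) (Φ.Q (l v₀)) m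
      obtain ⟨s, hs⟩ := exists_ef_eq_add (Φ := Φ) x (T (l v₀) + γ • y) (Φ.Q (T (l v₀) + γ • y))
        (Φ.ef y (l v₀) (Φ.Q (l v₀)) m)
      refine ⟨s, t + Φ.B x m * γ, ?_⟩
      rw [e1, hs, ht, hη, e]
      simp only [Φ.bsimp, a4, hxy]
      module
    have b4 := eig _ (b2.sub hm) _ (Submodule.smul_mem _ (Φ.B x m) hv) (s - t * μ) t
      (by rw [b3]; module)
    rw [hT.smul _ _ hv, e] at b4
    have : Φ.B x m • l v₀ = 0 := by linear_combination (norm := module) b4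
    exact hv0 (l.map_eq_zero_iff.1 ((smul_eq_zero.1 this).resolve_left hξ))
  have hy1 : y + μ • x ≠ 0 := fun c => by
    simpa [hzy, Φ.perp_symm (mem_pp.1 hz).2.1] using congrArg (Φ.B z) c
  let E : Set V := {v | v ∈ pp Φ (pp Φ ⊤ x x') y z ∧ T v = μ • v}
  have c1 : mb Φ H (y + μ • x) ≤ E.ncard := by
    refine Nat.le_of_mul_le_mul_right ?_ (Nat.card_pos (α := F))
    rw [← card_MA_eq (qμ μ) hy1, ← Set.ncard_univ F, ← Set.ncard_prod]
    refine ncard_le_of_rel (S := (MA Φ H (y + μ • x) : Set V))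
      (fun m p => ∃ a : F, m = p.1 + a • x + p.2 • (y + μ • x)) (fun m hm => ?_) ?_
    · have hm := (mem_MA (qμ μ)).1 hm
      obtain ⟨v, hv, a, b, e⟩ := dec μ m (hperp m hm) hm.perp
      exact ⟨(v, b), ⟨⟨hv, eig m hm v hv a b e⟩, trivial⟩, a, e⟩
    · rintro m hm m' hm' p ⟨a, rfl⟩ ⟨a', rfl⟩
      have h1 : Φ.InA H (y + μ • x) ((a - a') • x) := by
        convert ((mem_MA (qμ μ)).1 hm).sub ((mem_MA (qμ μ)).1 hm') using 1
        module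
      obtain ⟨t, ht⟩ := hreg _ (hO.inA_swap hx h1 (by simp [hxy, Φ.B_self hx]))
      have := congrArg (Φ.B z) ht
      simp only [Φ.bsimp, hzy, Φ.perp_symm (mem_pp.1 hz).2.1, mul_zero, add_zero, mul_one] at this
      rw [sub_eq_zero.1 this]
  have c2 : E.ncard * E.ncard ≤ Nat.card F ^ (finrank F V - 4) := by
    rw [← Set.ncard_prod, show finrank F V - 4 = finrank F (pp Φ (pp Φ ⊤ x x') y z) by omega,
      ← card_submodule]
    refine Set.ncard_le_ncard_of_injOn (t := (pp Φ (pp Φ ⊤ x x') y z : Set V))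
      (fun p => p.1 + l p.2) (fun p hp => Submodule.add_mem _ hp.1.1 (hl _ hp.2.1).1) ?_
    rintro ⟨a, b⟩ ⟨ha, hb⟩ ⟨a', b'⟩ ⟨ha', hb'⟩ e
    have e1 : a + l b = a' + l b' := e
    have e2 := congrArg T e1
    rw [hT.add _ ha.1 _ (hl _ hb.1).1, hT.add _ ha'.1 _ (hl _ hb'.1).1, ha.2, ha'.2, (hl _ hb.1).2,
      (hl _ hb'.1).2, hb.2, hb'.2, map_smul, map_smul] at e2
    have e3 : l b = l b' := by linear_combination (norm := module) e2 - μ • e1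
    rw [e3, add_left_inj] at e1
    exact Prod.ext e1 (l.injective e3)
  obtain ⟨κ, hκ⟩ := (l2 v₀ hv₀ μ).1 e₀
  obtain ⟨d1, d2⟩ := hO.mb_ge h7 hN (qμ μ) hy1 fun c => by
    obtain ⟨t, ht⟩ := c _ hκ
    have a1 := congrArg (Φ.B z) ht
    have a2 := congrArg (Φ.B x') ht
    simp only [Φ.bsimp, hzy, Φ.perp_symm (mem_pp.1 hz).2.1, (mem_pp.1 hv₀).2.2, mul_zero, add_zero,
      mul_one] at a1
    subst a1
    simp only [Φ.bsimp, hx'x, (mem_pp.1 (mem_pp.1 hv₀).1).2.2, zero_add, mul_one, zero_mul] at a2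
    simp [a2, hv0] at ht
  have hq := one_lt_card_field (F := F)
  have c3 := (Nat.mul_le_mul c1 c1).trans c2
  obtain h8 | h8 : finrank F V = 7 ∨ finrank F V = 8 := by omega
  · have := (Nat.mul_le_mul d1 d1).trans c3
    rw [h8, ← pow_add, Nat.pow_le_pow_iff_right hq] at this
    omega
  · have := (Nat.mul_le_mul (d2 h8.ge) (d2 h8.ge)).trans c3
    rw [h8, show 8 - 4 = 4 from rfl] at this
    have : 0 < Nat.card F ^ 4 := Nat.pow_pos (by omega)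
    nlinarith

omit h7 hx' h in
theorem Sec.unique (h3 : 5 ≤ finrank F V) {y : V} {μ : F} (h1 : Sec Φ H x y)
    (h2 : Sec Φ H x (y + μ • x)) : μ = 0 := by
  by_contra hμ
  obtain ⟨v, hv, hv'⟩ : ∃ v ∈ ⊤ ⊓ LinearMap.ker (Φ.B x) ⊓ LinearMap.ker (Φ.B y),
      v ∉ Submodule.span F {x, y} := by
    classical
    refine SetLike.not_le_iff_exists.1 fun c => ?_
    have a1 := finrank_le_inf_ker₂ ⊤ (Φ.B x) (Φ.B y)
    rw [← Finset.coe_pair] at c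
    have a2 := (Submodule.finrank_mono c).trans (finrank_span_finset_le_card _)
    have a3 := Finset.card_le_two (a := x) (b := y)
    rw [finrank_top] at a1
    omega
  have a1 : Φ.B x v = 0 := hv.1.2
  have a2 : Φ.B y v = 0 := hv.2
  obtain ⟨κ, hκ⟩ := h1.lift v a1 a2
  obtain ⟨κ', hκ'⟩ := h2.lift v a1 (by simp [a1, a2])
  have b1 := (lf_iff hO hx h1.sing h1.perp a1 a2 0 κ).2 (by simpa using hκ)
  obtain ⟨t, ht⟩ := hreg _ (((lf_iff hO hx h1.sing h1.perp a1 a2 μ κ').2 hκ').sub hO hx b1)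
  refine hv' (Submodule.mem_span_pair.2 ⟨μ⁻¹ * t, μ⁻¹ * (κ' - κ + Φ.Q v * μ), ?_⟩)
  rw [mul_smul, mul_smul, ← smul_add, inv_smul_eq_iff₀ hμ]
  linear_combination (norm := module) -ht

omit hO h7 hx hx' h hreg in
theorem Sec.conj {y : V} (h1 : Sec Φ H x y) {k : V ≃ₗ[F] V} (hk : k ∈ H) (hI : k ∈ Φ.Iso)
    (hkx : k x = x) : Sec Φ H x (k y) := by
  refine ⟨(Iso.Q hI y).trans h1.sing, by rw [← hkx, Iso.B hI, h1.perp], fun v a1 a2 => ?_⟩
  obtain ⟨v, rfl⟩ := k.surjective v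
  obtain ⟨κ, hκ⟩ := h1.lift v (by rwa [← hkx, Iso.B hI] at a1) (by rwa [Iso.B hI] at a2)
  exact ⟨κ, by simpa [hkx] using hκ.conj hk hI⟩

omit h7 hx' h hreg in
theorem sec_zero : Sec Φ H x 0 :=
  ⟨Φ.Q_zero, map_zero _, fun v _ _ => ⟨0, _, hO.valid Φ.Q_zero (by simp),
    full_zero _ _ (hO.valid Φ.Q_zero (by simp))⟩⟩

omit h7 hx' h hreg in
theorem Sec.smul {y : V} (h1 : Sec Φ H x y) (t : F) : Sec Φ H x (t • y) := by
  by_cases ht : t = 0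
  · simpa [ht] using sec_zero hO hx
  refine ⟨Φ.Q_smul_zero h1.sing t, by simp [h1.perp], fun v a1 a2 => ?_⟩
  obtain ⟨κ, hκ⟩ := h1.lift (t • v) (by simp [a1]) (by simpa [ht] using a2)
  exact ⟨t⁻¹ * κ, by simpa [hO.hσ, ht, smul_smul] using hκ.smul_left ht⟩

theorem exists_hasOn_small (hF : ∀ t : F, t ≠ 0 → t = 1 ∨ t = -1) (hH : H ≤ Φ.EG)
    (hN : H.relIndex Φ.EG < 2 * Nat.card F ^ (finrank F V - 2)) :
    ∃ x', Φ.Q x' = 0 ∧ Φ.B x x' = 1 ∧ Φ.HasOn H (pp Φ ⊤ x x') := by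
  have hxx := Φ.B_self hx
  have ex : ∀ s, Φ.Q s = 0 → Φ.B x s = 0 → ∃ μ : F, Sec Φ H x (s + μ • x) := fun s qs hs => by
    obtain ⟨d, hd, e⟩ := hyp_decomp_mem (U := ⊤) trivial trivial hx hx' h (y := s) trivial
    rw [hs, zero_smul, add_zero] at e
    have qd : Φ.Q d = 0 := by
      rwa [e, Φ.Q_add_perp (by simp [Φ.perp_symm (mem_pp.1 hd).2.1]), Φ.Q_smul_zero hx,
        add_zero] at qs
    obtain ⟨μ, hμ⟩ : ∃ μ : F, Sec Φ H x (d + μ • x) := by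
      by_cases c : d = 0
      · exact ⟨0, by simpa [c] using sec_zero hO hx⟩
      · exact exists_sec hO h7 hx hx' h hreg hF hH hN hd qd c
    exact ⟨μ - Φ.ε * Φ.B x' s, by convert hμ using 1; linear_combination (norm := module) e⟩
  obtain ⟨y₀, z₀, hh⟩ := exists_hyp2' (by rw [hO.hd]; omega) hx hx' h
  obtain ⟨μ, hy⟩ := ex y₀ hh.qe (mem_pp.1 hh.he).2.1
  obtain ⟨ν, hz⟩ := ex z₀ hh.qf (mem_pp.1 hh.hf).2.1
  have hyz : Φ.B (y₀ + μ • x) (z₀ + ν • x) = 1 := by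
    simp [hh.hef, hxx, (mem_pp.1 hh.hf).2.1, Φ.perp_symm (mem_pp.1 hh.he).2.1]
  generalize y₀ + μ • x = y at hy hyz
  generalize z₀ + ν • x = z at hz hyz
  have hyx := Φ.perp_symm hy.perp
  let Dy : Submodule F V :=
    { carrier := {m | Φ.InA H y m ∧ Φ.B x m = 0}
      zero_mem' := ⟨inA_zero hy.sing, map_zero _⟩
      add_mem' := fun ha hb => ⟨ha.1.add hb.1, by simp [ha.2, hb.2]⟩
      smul_mem' := fun t m hm => ⟨by
        by_cases c : t = 0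
        · simpa [c] using inA_zero hy.sing
        rcases hF t c with rfl | rfl
        · simpa using hm.1
        · simpa using hm.1.neg, by simp [hm.2]⟩ }
  have mem : ∀ v, v ∈ Dy ⊔ Submodule.span F {z} ↔ ∃ m ∈ Dy, ∃ t : F, m + t • z = v := fun v => by
    simp [Submodule.mem_sup, Submodule.mem_span_singleton]
  have nx : ∀ s, Sec Φ H x s → ∀ κ : F, Φ.InA H s (κ • x) → s ≠ 0 → κ = 0 := fun s hs κ h1 h0 => by
    by_contra c
    obtain ⟨t, ht⟩ := hreg _ (hO.inA_swap hx h1 hs.perp)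
    have := (sec_zero hO hx).unique hO hx hreg (μ := t) (by omega)
      (by rw [zero_add, ← ht]; exact hs.smul hO hx κ)
    rw [this, zero_smul, smul_eq_zero] at ht
    exact ht.elim c h0
  obtain ⟨x₁, q₁, h₁, hD⟩ := exists_partner_of_compl hx (D := Dy ⊔ Submodule.span F {z})
    (fun c => by
      obtain ⟨m, hm, t, e⟩ := (mem x).1 c
      have := congrArg (Φ.B y) e
      rw [map_add, map_smul, hm.1.perp, hyz, hyx] at this
      obtain rfl : t = 0 := by simpa using this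
      obtain rfl : m = x := by simpa using e
      exact one_ne_zero (nx y hy 1 (by simpa using hm.1) fun c => by simp [c] at hyz))
    (fun v hv => by
      obtain ⟨m, hm, t, rfl⟩ := (mem v).1 hv
      simp [hm.2, hz.perp])
    (fun v hv => by
      obtain ⟨κ, hκ⟩ := hy.lift (v - Φ.B y v • z) (by simp [hv, hz.perp]) (by simp [hyz])
      exact ⟨κ, (mem _).2 ⟨_, ⟨hκ, by simp [hv, hz.perp, hxx]⟩, Φ.B y v, by module⟩⟩)
  have hx₁x := (hO.comm x₁ x).trans h₁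
  have zero_of : ∀ s ∈ pp Φ ⊤ x x₁, ∀ κ : F, s + κ • x ∈ pp Φ ⊤ x x₁ → κ = 0 := fun s hs κ h1 => by
    simpa [(mem_pp.1 hs).2.2, hx₁x] using (mem_pp.1 h1).2.2
  have fix : ∀ s, Sec Φ H x s → ∀ m, Φ.InA H s m → Φ.B x m = 0 → ∀ r, Sec Φ H x r →
      Sec Φ H x (Φ.ef s m (Φ.Q m) r) := fun s hs m hm h1 r hr => by
    obtain ⟨k, hk, hI, e⟩ := (hO.rr hm).exists
    rw [← e]
    exact hr.conj hk hI (by rw [e, ef_apply_of_perp (Φ.perp_symm hs.perp) (Φ.perp_symm h1)])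
  have cA : ∀ s, Sec Φ H x s → Φ.B y s ≠ 0 → s ∈ pp Φ ⊤ x x₁ := fun s hs h1 => by
    obtain ⟨d, hd, e⟩ := hyp_decomp_mem (U := ⊤) trivial trivial hx q₁ h₁ (y := s) trivial
    rw [hs.perp, zero_smul, add_zero] at e
    obtain ⟨m, hm, t, e1⟩ := (mem d).1 (hD ▸ hd)
    have e2 : Φ.B y d = Φ.B y s := by rw [e]; simp [hyx]
    have e3 : Φ.B y (t • z) = Φ.B y d := by rw [← e1]; simp [hm.1.perp]
    have qd : Φ.Q d = 0 := by
      have := hs.sing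
      rwa [e, Φ.Q_add_perp (by simp [Φ.perp_symm (mem_pp.1 hd).2.1]), Φ.Q_smul_zero hx,
        add_zero] at this
    obtain ⟨c, hv, e4⟩ := exists_ef_eq hy.sing (x := t • z) (y := d) (by rwa [e3, e2]) e3.symm
      (qd.trans (Φ.Q_smul_zero hz.sing t).symm)
    have hm' := Dy.smul_mem (Φ.B y (t • z))⁻¹ hm
    rw [eq_sub_of_add_eq e1] at hm'
    have := fix y hy _ hm'.1 hm'.2 _ (hz.smul hO hx t)
    rw [← hv.norm, hO.hπ, e4] at this
    rw [e, this.unique hO hx hreg (μ := Φ.ε * Φ.B x₁ s) (by omega) (e ▸ hs)]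
    simpa using hd
  have cB : ∀ s, Sec Φ H x s → s ∈ pp Φ ⊤ x x₁ := fun s hs => by
    by_cases h1 : Φ.B y s = 0
    swap
    · exact cA s hs h1
    by_cases h2 : ∃ a b : F, s = a • x + b • y
    · obtain ⟨a, b, rfl⟩ := h2
      rw [(hy.smul hO hx b).unique hO hx hreg (μ := a) (by omega) (by rwa [add_comm]), zero_smul,
        zero_add, hD]
      exact Submodule.mem_sup_left ⟨inA_smul_self hy.sing b, by simp [hy.perp]⟩
    obtain ⟨z₁, hz₁, qz₁, e₁⟩ := exists_partner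
      (U := LinearMap.ker (Φ.B x) ⊓ LinearMap.ker (Φ.B s)) ⟨hy.perp, Φ.perp_symm h1⟩ hy.sing (by
        by_contra c
        push Not at c
        obtain ⟨a, b, e⟩ := mem_span_pair_of_perp fun v a1 a2 => c v ⟨a1, a2⟩
        have hb : b ≠ 0 := fun c => by
          rw [e, c] at hyz
          simp [hz.perp] at hyz
        exact h2 ⟨-(b⁻¹ * a), b⁻¹, by rw [e, smul_add, inv_smul_smul₀ hb]; module⟩)
    obtain ⟨ν, hν⟩ := ex z₁ qz₁ hz₁.1
    have b1 : Φ.B y (z₁ + ν • x) = 1 := by simp [e₁, hyx]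
    have b2 : Φ.B (z₁ + ν • x) s = 0 := by simp [hs.perp, Φ.perp_symm hz₁.2]
    generalize z₁ + ν • x = w at hν b1 b2
    obtain ⟨v, a1, a2, a3⟩ : ∃ v, Φ.B x v = 0 ∧ Φ.B w v = 0 ∧ Φ.B s v ≠ 0 := by
      by_contra c
      push Not at c
      obtain ⟨a, b, e⟩ := mem_span_pair_of_perp c
      rw [e] at h1
      obtain rfl : b = 0 := by simpa [hyx, b1] using h1
      exact h2 ⟨a, 0, by simpa using e⟩
    obtain ⟨κ, hκ⟩ := hν.lift ((-(Φ.B s v)⁻¹) • v) (by simp [a1]) (by simp [a2])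
    have := fix w hν _ hκ (by simp [a1, hxx]) s hs
    rw [ef_apply_of_perp' b2, show Φ.ε * Φ.B ((-(Φ.B s v)⁻¹) • v + κ • x) s = -1 by
      simp [hO.hσ, hO.hε, hs.perp, hO.comm v s, a3]] at this
    simpa using Submodule.sub_mem _ (cA _ this (by simp [h1, b1])) (cA _ hν (by simp [b1]))
  have cC : ∀ s ∈ pp Φ ⊤ x x₁, Φ.Q s = 0 → Sec Φ H x s := fun s hs qs => by
    obtain ⟨μ, hμ⟩ := ex s qs (mem_pp.1 hs).2.1
    simpa [zero_of s hs μ (cB _ hμ)] using hμ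
  refine ⟨x₁, q₁, h₁, fun e he w hw c hv => ?_⟩
  by_cases he0 : e = 0
  · exact he0 ▸ full_zero w c (he0 ▸ hv)
  obtain ⟨κ, hκ⟩ := (cC e he hv.sing).lift w (mem_pp.1 hw).2.1 hv.perp
  obtain ⟨f, hf, qf, hef⟩ := exists_partner he hv.sing
    ((nd_pp Φ.nd_top trivial trivial hx q₁ h₁).exists_ne he he0)
  have b1 := cB _ (fix e (cC e he hv.sing) _ hκ (by simp [(mem_pp.1 hw).2.1, hxx]) f (cC f hf qf))
  obtain ⟨s, hs⟩ := exists_ef_eq_add (Φ := Φ) e (w + κ • x) (Φ.Q (w + κ • x)) f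
  obtain rfl := zero_of (f + w + s • e) (Submodule.add_mem _ (Submodule.add_mem _ hf hw)
    (Submodule.smul_mem _ _ he)) κ (by convert b1 using 1; rw [hs, hef]; module)
  exact InA.hasE (by simpa using hκ) (fun c hc => hO.inj c hc ▸ hasE_zero e) hv

end Regular

/-- The main theorem for orthogonal groups over fields with at most three elements. -/
theorem IsO.small (hO : IsO Φ) (h7 : 7 ≤ finrank F V) (h8 : 8 ≤ finrank F V ∨ (2 : F) ≠ 0)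
    (hF : ∀ t : F, t ≠ 0 → t = 1 ∨ t = -1) (hH : H ≤ Φ.EG)
    (hN : H.relIndex Φ.EG < 2 * Nat.card F ^ (finrank F V - 2)) :
    Φ.EG ≤ H ∨ ns Φ ≤ (Nat.card F - 1) * H.relIndex Φ.EG ∨ (∃ w, Φ.Q w ≠ 0 ∧ H ≤ Px Φ w) ∨
      (finrank F V = 8 ∧ (∃ S : Submodule F V, Φ.TS S ∧ finrank F S = 4) ∧
      Nat.card F ^ 3 * ((Nat.card F ^ 2 + 1) * (Nat.card F + 1)) ≤ H.relIndex Φ.EG) := by
  by_cases hnr : ∀ x, Φ.Q x = 0 → x ≠ 0 → ¬ ∀ w, Φ.InA H x w → ∃ t : F, w = t • x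
  · exact (hO.nonreg h7 h8 hH hN hnr).imp_right
      (.imp_right fun h => .inr ⟨h.1, h.2.1, h.2.2.1⟩)
  push Not at hnr
  obtain ⟨x, hx, hx0, hreg⟩ := hnr
  obtain ⟨x', hx', h⟩ := exists_partner_top hx hx0
  obtain ⟨y, hy, hxy, hon⟩ := exists_hasOn_small hO h7 hx hx' h hreg hF hH hN
  exact (end_lemma (by rw [hO.hd]; omega) hH hx hy hxy hon hreg).imp_right
    (.imp_right fun ⟨w, h1, _, _, h2⟩ => .inl ⟨w, h1, h2⟩)

end Cfsg.Agent.Class.MinDegO
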