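import Mathlib
import Cfsg.Agent.Class.MinDegO.OFin
import Cfsg.Agent.Class.MinDegO.RegSmall

/-!
Minimal degree of orthogonal groups: non-singular points over small fields.
-/

set_option autoImplicit false
set_option linter.unusedSectionVars false

namespace Cfsg.Agent.Class.MinDegO

open Module Cfsg.Agent.Class.Max Cfsg.Agent.Class.Max.Fm

theorem small_field {F : Type*} [Field F] [Finite F] (h : Nat.card F ≤ 3) (t : F) (ht : t ≠ 0) :
    t = 1 ∨ t = -1 := by
  have := Fintype.ofFinite F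
  have h1 := FiniteField.pow_card_sub_one_eq_one t ht
  have h2 := one_lt_card_field (F := F)
  rw [← Nat.card_eq_fintype_card] at h1
  obtain h3 | h3 : Nat.card F = 2 ∨ Nat.card F = 3 := by omega
  · rw [h3] at h1
    exact .inl (by simpa using h1)
  · rw [h3] at h1
    simpa using h1

section General

variable {F V : Type*} [Field F] [AddCommGroup V] [Module F V] {Φ : Fm F V}
  [Finite F] [Finite V] [FiniteDimensional F V]

theorem IsO.relIndex_Px_small (hO : IsO Φ) (h5 : 5 ≤ finrank F V) (h : Nat.card F ≤ 3) {w : V}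
    (hw : Φ.Q w ≠ 0) :
    (Nat.card F - 1) * (Px Φ w).relIndex Φ.EG = Nat.card {v // Φ.Q v = Φ.Q w} := by
  have h1 := relIndex_Px (Φ := Φ) (by rw [hO.hd]; exact h5) (x := w) fun c => hw (c ▸ Φ.Q_zero)
  rw [show {t : F | t ≠ 0 ∧ Φ.Q (t • w) = Φ.Q w} = {t | t ≠ 0} from Set.ext fun t =>
    ⟨fun h => h.1, fun ht => ⟨ht, by
      rcases small_field h t ht with rfl | rfl
      · rw [one_smul]
      · rw [neg_one_smul, Φ.Q_neg]⟩⟩, ncard_ne_zero_field] at h1
  rw [h1]
  exact congrArg Set.ncard (Set.ext fun v => ⟨fun h => h.2, fun h =>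
    ⟨fun c => hw (by rw [← h, c, Φ.Q_zero]), h⟩⟩)

theorem IsO.le_of_le_Px (hO : IsO Φ) (h5 : 5 ≤ finrank F V) (h : Nat.card F ≤ 3) {w : V}
    (hw : Φ.Q w ≠ 0) {H : Subgroup (V ≃ₗ[F] V)} (hH : H ≤ Px Φ w) :
    Nat.card {v // Φ.Q v = Φ.Q w} ≤ (Nat.card F - 1) * H.relIndex Φ.EG := by
  rw [← hO.relIndex_Px_small h5 h hw]
  exact Nat.mul_le_mul_left _ (Subgroup.relIndex_le_of_le_left hH (relIndex_ne_zero _ _))

end General

variable {F : Type*} [Field F] [Finite F]

theorem card_plus_eq (m : ℕ) {c : F} (hc : c ≠ 0) :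
    Nat.card F * Nat.card {v // quadFormPlus m F v = c} = Nat.card F ^ m * (Nat.card F ^ m - 1) := by
  obtain ⟨e, he⟩ := Orth.exists_equiv_plus_sumQF (F := F) m
  have h := Orth.card_sumQF_eq_int m (0 : QuadraticForm F (Fin 0 → F)) c
  have h0 : Nat.card {x : Fin 0 → F // (0 : QuadraticForm F (Fin 0 → F)) x = c} = 0 := by
    simp [hc.symm]
  rw [← Orth.card_Q_eq_congr e he, h0, Orth.coe_plusQF] at h
  zify [Nat.one_le_pow m _ (Nat.card_pos (α := F))]
  simpa using h

theorem card_odd_eq (m : ℕ) (c : F) :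
    Nat.card {v // quadFormOdd m F v = c} = Nat.card F ^ m * Nat.card {x : F // x * x = c} +
      Nat.card F ^ m * (Nat.card F ^ m - 1) := by
  obtain ⟨e, he⟩ := Orth.exists_equiv_odd_sumQF (F := F) m
  have h := Orth.card_sumQF_eq_int m (QuadraticMap.sq : QuadraticForm F F) c
  rw [← Orth.card_Q_eq_congr e he, Orth.coe_oddQF] at h
  zify [Nat.one_le_pow m _ (Nat.card_pos (α := F))]
  refine mul_left_cancel₀ (a := (Nat.card F : ℤ)) (by exact_mod_cast Nat.card_pos.ne') ?_
  simp only [QuadraticMap.sq_apply, finrank_self] at h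
  linear_combination h

theorem card_minus_ge (m : ℕ) {a b : F}
    (hab : ∀ z₁ z₂ : F, z₁ ^ 2 + a * z₁ * z₂ + b * z₂ ^ 2 = 0 → z₁ = 0 ∧ z₂ = 0) (c : F) :
    (Nat.card F ^ (m + 1) + 1) * (Nat.card F ^ m - 1) ≤
      Nat.card {v // quadFormMinus m F a b v = c} := by
  obtain ⟨e, he⟩ := Orth.exists_equiv_minus_sumQF (F := F) m a b
  have h := Orth.card_sumQF_eq_int m (Orth.binQF F a b) c
  rw [← Orth.card_Q_eq_congr e he, Orth.coe_minusQF] at h
  obtain ⟨x, y, hxy⟩ := QF.binary_represents (a := 1) (b := a) (c := b) (by simpa using hab) c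
  have : Nonempty {v // Orth.binQF F a b v = c} := ⟨![x, y], by simpa [Orth.binQF_apply] using hxy⟩
  have h1 : (1 : ℤ) ≤ Nat.card {v // Orth.binQF F a b v = c} := by exact_mod_cast Nat.card_pos
  have h2 : (0 : ℤ) < Nat.card F := by exact_mod_cast Nat.card_pos
  zify [Nat.one_le_pow m _ (Nat.card_pos (α := F))]
  refine le_of_mul_le_mul_left ?_ h2
  rw [h]
  simp only [finrank_fintype_fun_eq_card, Fintype.card_fin, pow_succ]
  nlinarith [mul_le_mul_of_nonneg_left h1 (by positivity : (0 : ℤ) ≤ (Nat.card F : ℤ) ^ m * Nat.card F)]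

end Cfsg.Agent.Class.MinDegO
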