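import Mathlib
import Cfsg.Agent.Class.MinDegO.RegT

/-!
Minimal degree of symplectic groups: transvection points, torus indices and orbit bounds.
-/

set_option autoImplicit false
set_option linter.unusedSectionVars false

namespace Cfsg.Agent.Class.MinDegO

open Module Cfsg.Agent.Class.Max Cfsg.Agent.Class.Max.Fm

/-- Multipliers of a proper additive subgroup act semiregularly on the quotient. -/
theorem ncard_mult_le {F : Type*} [Field F] [Finite F] (L : AddSubgroup F) (hL : L ≠ ⊤) :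
    {t : F | t ≠ 0 ∧ ∀ c ∈ L, t * c ∈ L}.ncard + 1 ≤ L.index := by
  obtain ⟨c, hc⟩ : ∃ c, c ∉ L := by
    by_contra h
    push Not at h
    exact hL (eq_top_iff.2 fun a _ => h a)
  have key : ∀ s : F, s ≠ 0 → (∀ c ∈ L, s * c ∈ L) → s * c ∉ L := fun s hs h h1 => by
    obtain ⟨r, hr⟩ := Finite.surjective_of_injective (f := fun r : L => (⟨s * r, h r r.2⟩ : L))
      (fun a b e => Subtype.ext (mul_left_cancel₀ hs (congrArg Subtype.val e))) ⟨_, h1⟩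
    exact hc (mul_left_cancel₀ hs (congrArg Subtype.val hr) ▸ r.2)
  rw [AddSubgroup.index, ← Set.ncard_univ, ← Set.ncard_sdiff_singleton_add_one (Set.mem_univ 0),
    Nat.add_le_add_iff_right]
  refine Set.ncard_le_ncard_of_injOn (fun t => ((t * c : F) : F ⧸ L)) (fun t ht => ⟨trivial,
    fun h => key t ht.1 ht.2 ((QuotientAddGroup.eq_zero_iff _).1 h)⟩) fun s hs t ht e => ?_
  by_contra h
  refine key (t - s) (sub_ne_zero.2 (Ne.symm h)) (fun c hc => ?_) ?_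
  · rw [sub_mul]; exact L.sub_mem (ht.2 c hc) (hs.2 c hc)
  · convert QuotientAddGroup.eq.1 e using 1; ring

variable (F : Type*) [Field F] in
/-- The number of square roots of one. -/
noncomputable def e2 : ℕ := {t : F | t * t = 1}.ncard

theorem e2_le_two {F : Type*} [Field F] : e2 F ≤ 2 :=
  (Set.ncard_le_ncard (t := {1, -1}) fun _ h => mul_self_eq_one_iff.1 h).trans
    ((Set.ncard_insert_le _ _).trans (by simp))

theorem e2_le_one {F : Type*} [Field F] (h : (2 : F) = 0) : e2 F ≤ 1 :=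
  (Set.ncard_le_ncard (t := {1}) fun _ h1 => (mul_self_eq_one_iff.1 h1).elim id fun h2 =>
    h2.trans (show (-1 : F) = 1 by linear_combination -h)).trans (by simp)

theorem ncard_sq_le {F : Type*} [Field F] [Finite F] {s : F} (hs : s ≠ 0) :
    {t : F | t * t = s * s}.ncard ≤ e2 F :=
  Set.ncard_le_ncard_of_injOn (fun t => t * s⁻¹) (fun t ht => by
    have ht : t * t = s * s := ht
    change t * s⁻¹ * (t * s⁻¹) = 1
    field_simp
    linear_combination ht) fun _ _ _ _ e => mul_right_cancel₀ (inv_ne_zero hs) e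

variable {F V : Type*} [Field F] [AddCommGroup V] [Module F V] {Φ : Fm F V}
  [Finite F] [Finite V] [FiniteDimensional F V] {H : Subgroup (V ≃ₗ[F] V)} {x x' y : V}

variable (H) in
/-- The scalars induced on `x`. -/
def Tt (x : V) : Set F := {t | t ≠ 0 ∧ ∃ k ∈ H, k x = t • x}

theorem conj_mem_Sx (hx0 : x ≠ 0) {g u : V ≃ₗ[F] V} (hg : g ∈ Px Φ x) (hu : u ∈ Sx Φ x) :
    g * u * g⁻¹ ∈ Sx Φ x := by
  obtain ⟨⟨t, ht⟩, -⟩ := mem_Px.1 ((Px Φ x).inv_mem hg)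
  refine mem_Sx.2 ⟨?_, (Φ.EG).mul_mem ((Φ.EG).mul_mem hg.2 hu.2) ((Φ.EG).inv_mem hg.2)⟩
  rw [mul_app, mul_app, ht, map_smul, (mem_Sx.1 hu).1, ← ht, app_inv_app]

theorem relIndex_Sx_mul (hd : Φ.d + 2 ≤ finrank F V) (hx : Φ.Q x = 0) (hx0 : x ≠ 0) :
    H.relIndex (Sx Φ x) * (Nat.card F - 1) ≤ H.relIndex (Px Φ x) * (Tt H x).ncard := by
  have := finite_equiv (F := F) (V := V)
  rw [relIndex_split H (Px Φ x) (Sx Φ x) Sx_le_Px fun g hg u hu => conj_mem_Sx hx0 hg hu,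
    mul_assoc, ← ncard_ne_zero_field]
  refine Nat.mul_le_mul_left _ (cover _ _ (fun g t => ∃ k ∈ (H ⊓ Px Φ x) ⊔ Sx Φ x,
    (g * k) x = t • x) ?_ _ (fun g hg => ?_) _ fun t ht => ?_)
  · rintro g - k - hk t ⟨l, hl, e⟩
    exact ⟨k⁻¹ * l, Subgroup.mul_mem _ (Subgroup.inv_mem _ hk) hl, by
      rwa [mul_assoc, mul_inv_cancel_left]⟩
  · obtain ⟨s, hs⟩ := (mem_Px.1 hg).1
    have hs0 := smul_ne_of_eq hx0 hs
    refine Set.ncard_le_ncard_of_injOn (fun t => t * s⁻¹) ?_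
      fun _ _ _ _ e => mul_right_cancel₀ (inv_ne_zero hs0) e
    rintro t ⟨k, hk, e⟩
    obtain ⟨l, hl, -, u, hu, rfl⟩ := mem_sup_of_normal Sx_le_Px
      (fun g hg u hu => conj_mem_Sx hx0 hg hu) hk
    refine ⟨mul_ne_zero (smul_ne_of_eq hx0 e) (inv_ne_zero hs0), l, hl, g.injective ?_⟩
    rw [mul_app, mul_app, (mem_Sx.1 hu).1] at e
    rw [e, map_smul, hs, smul_smul, inv_mul_cancel_right₀ hs0]
  · obtain ⟨g, hg, e⟩ := move_EG hd hx0 (smul_ne_zero ht hx0) ((Φ.Q_smul_zero hx t).trans hx.symm)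
    exact ⟨g, mem_Px.2 ⟨⟨t, e⟩, hg⟩, 1, Subgroup.one_mem _, by rwa [mul_one]⟩

theorem mul_orbit_le (hH : H ≤ Φ.EG) (hx0 : x ≠ 0) (Y : Set V)
    (hY : ∀ g ∈ H, ∀ t : F, t ≠ 0 → t • g x ∈ Y) :
    (Nat.card F - 1) * (Px Φ x).relIndex H ≤ Y.ncard := by
  rw [← ncard_ne_zero_field, Subgroup.relIndex, Subgroup.index, ← Set.ncard_univ, ← Set.ncard_prod]
  refine Set.ncard_le_ncard_of_injOn (fun p => p.1 • p.2.out.1 x)
    (fun p hp => hY _ p.2.out.2 _ hp.1) ?_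
  rintro ⟨s, a⟩ ⟨hs, -⟩ ⟨t, b⟩ ⟨-, -⟩ e
  have e : s • a.out.1 x = t • b.out.1 x := e
  obtain rfl : a = b := by
    have : b.out.1⁻¹ * a.out.1 ∈ Px Φ x := by
      refine mem_Px.2 ⟨⟨s⁻¹ * t, b.out.1.injective ?_⟩, hH (b.out⁻¹ * a.out).2⟩
      rw [mul_app, app_inv_app, map_smul, mul_smul, ← e, inv_smul_smul₀ hs]
    rw [← a.out_eq, ← b.out_eq]
    symm
    exact QuotientGroup.eq.2 this
  rw [smul_left_injective F (a.out.1.map_ne_zero_iff.2 hx0) e]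

theorem ncard_ne_zero_mem (W : Submodule F V) :
    {v | v ∈ W ∧ v ≠ 0}.ncard = Nat.card F ^ finrank F W - 1 := by
  rw [← card_submodule]
  exact Nat.eq_sub_of_add_eq (Set.ncard_sdiff_singleton_add_one (s := (W : Set V)) W.zero_mem)

variable (Φ H) in
/-- `E(x, w, c) ∘ φ` lies in `H` for some `c`. -/
def LF (x : V) (φ : V → V) (w : V) : Prop :=
  ∃ c, Φ.Valid x w c ∧ ∃ k ∈ H, ∀ z, k z = Φ.ef x w c (φ z)

theorem LF.sub {φ : V → V} {w w' : V} (h : LF Φ H x φ w) (h' : LF Φ H x φ w') :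
    Φ.InA H x (w - w') := by
  obtain ⟨c, v1, k, hk, e⟩ := h
  obtain ⟨c', v2, k', hk', e'⟩ := h'
  rw [sub_eq_add_neg]
  refine ⟨_, v1.add v2.neg, k * k'⁻¹, H.mul_mem hk (H.inv_mem hk'), fun z => ?_⟩
  obtain ⟨z, rfl⟩ := k'.surjective z
  rw [mul_app, inv_app_app, e, e', ← v1.ef_ef v2.neg, v2.ef_neg_ef]

theorem LF.mul {g g' : V ≃ₗ[F] V} (hg : g ∈ Φ.Iso) (hgx : g x = x)
    {w w' : V} (h : LF Φ H x g w) (h' : LF Φ H x g' w') : LF Φ H x (g * g') (w + g w') := by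
  obtain ⟨c, v1, k, hk, e⟩ := h
  obtain ⟨c', v2, k', hk', e'⟩ := h'
  have v3 := v2.map hg
  rw [hgx] at v3
  exact ⟨_, v1.add v3, k * k', H.mul_mem hk hk', fun z => by
    rw [mul_app, e, e', Iso.ef hg, hgx, v1.ef_ef v3, mul_app]⟩

theorem exists_LF (hx : Φ.Q x = 0) (hx' : Φ.Q x' = 0) (h : Φ.B x x' = 1) {g k u : V ≃ₗ[F] V}
    (hg : g ∈ Px Φ x) (hk : k ∈ H) (hu : u ∈ Qx Φ x) (e : g = k * u) :
    ∃ w ∈ pp Φ ⊤ x x', LF Φ H x g w := by
  obtain ⟨w, hw, c, hv, e'⟩ := exists_of_mem_Qx' hx hx' h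
    (conj_mem_Qx (fun c => by simp [c] at h) hg ((Qx Φ x).inv_mem hu))
  refine ⟨w, hw, c, hv, k, hk, fun z => ?_⟩
  rw [← e', e]
  simp

theorem eq_zero_of_reg (h : Φ.B x x' = 1) (hreg : ∀ w, Φ.InA H x w → ∃ t : F, w = t • x) {w : V}
    (hw : w ∈ pp Φ ⊤ x x') (h1 : Φ.InA H x w) : w = 0 := by
  obtain ⟨t, rfl⟩ := hreg w h1
  have := (mem_pp.1 hw).2.2
  rw [map_smul, B_eq_eps h] at this
  simp [(mul_eq_zero.1 this).resolve_right Φ.eps_ne]

/-- Symplectic formed spaces. -/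
structure IsSp (Φ : Fm F V) : Prop where
  hσ : ∀ a, Φ.σ a = a
  hε : Φ.ε = -1
  hπ : ∀ c, Φ.π c = 0
  hQ : ∀ v, Φ.Q v = 0
  hd : Φ.d = 1

theorem IsSp.valid (hS : IsSp Φ) {e w : V} (h : Φ.B e w = 0) (c : F) : Φ.Valid e w c :=
  ⟨hS.hQ e, h, (hS.hπ c).trans (hS.hQ w).symm⟩

theorem IsSp.self (hS : IsSp Φ) (v : V) : Φ.B v v = 0 := Φ.B_self (hS.hQ v)

theorem IsSp.skew (hS : IsSp Φ) (u v : V) : Φ.B u v = -Φ.B v u := by
  rw [Φ.symm v u, hS.hσ, hS.hε, neg_one_mul]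

theorem IsSp.lam_eq (hS : IsSp Φ) : lam Φ = Nat.card F := lam_eq_card hS.hπ

theorem IsSp.eps_two (hS : IsSp Φ) (h : (2 : F) = 0) : Φ.ε = 1 := by
  rw [hS.hε]; linear_combination -h

theorem IsSp.ns_eq (hS : IsSp Φ) : ns Φ = Nat.card F ^ finrank F V - 1 := by
  rw [← finrank_top, ← ncard_ne_zero_mem, ns]
  simp [hS.hQ]

theorem IsSp.move (hS : IsSp Φ) {M : Subgroup (V ≃ₗ[F] V)} {U : Submodule F V} (h : Φ.HasOn M U)
    {a b : V} (ha : a ∈ U) (hb : b ∈ U) (ha' : ∃ y ∈ U, Φ.B a y ≠ 0) (hb' : ∃ y ∈ U, Φ.B b y ≠ 0) :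
    ∃ g ∈ M, g a = b := by
  have key : ∀ a ∈ U, ∀ b ∈ U, Φ.B b a ≠ 0 → ∃ g ∈ M, g a = b := fun a ha b hb h1 =>
    h.exists_move (U.sub_mem hb ha) (U.sub_mem hb ha) (hS.hQ _) (by simpa [hS.self] using h1) (by
      have := hS.self (b - a)
      rwa [map_sub, sub_eq_zero] at this) (by rw [hS.hQ, hS.hQ])
  obtain ⟨c, hc, h1, h2⟩ := exists_ne_zero_ne_zero U (φ := Φ.B a) (ψ := Φ.B b) (map_add _)
    (map_add _) ha' hb'
  obtain ⟨g, hg, e⟩ := key a ha c hc (Φ.ne_symm h1)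
  obtain ⟨g', hg', e'⟩ := key c hc b hb h2
  exact ⟨g' * g, M.mul_mem hg' hg, by rw [mul_app, e, e']⟩

variable (Φ H) in
/-- All transvections with centre `x` lie in `H`. -/
def Tv (x : V) : Prop := ∀ c, Φ.HasE H x 0 c

theorem Tv.conj (h : Tv Φ H x) {g : V ≃ₗ[F] V} (hg : g ∈ H) (hI : g ∈ Φ.Iso) : Tv Φ H (g x) :=
  fun c => by simpa using (h c).conj hg hI

theorem Tv.smul (h : Tv Φ H x) (a : F) : Tv Φ H (a • x) :=
  fun c => hasE_smul_left.2 (by simpa using h _)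

theorem Tv.of_smul {a : F} (h : Tv Φ H (a • x)) (ha : a ≠ 0) : Tv Φ H x := by
  simpa [ha] using h.smul a⁻¹

theorem tv_zero : Tv Φ H 0 := fun c => ⟨1, H.one_mem, fun v => by simp [ef]⟩

theorem IsSp.ef_zero (hS : IsSp Φ) (c : F) (v : V) : Φ.ef x 0 c v = v + (c * Φ.B x v) • x := by
  simp [ef, hS.hε]

theorem IsSp.tv_move (hS : IsSp Φ) {c : F} (h : Φ.HasE H x 0 c) (hy : Tv Φ H y) :
    Tv Φ H (y + (c * Φ.B x y) • x) := by
  obtain ⟨g, hg, e⟩ := h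
  rw [← hS.ef_zero, ← e]
  exact hy.conj hg ((hS.valid (map_zero _) c).mem_Iso e)

theorem IsSp.tv_line (hS : IsSp Φ) (hx : Tv Φ H x) (hy : Tv Φ H y) (h : Φ.B x y ≠ 0) (a b : F) :
    Tv Φ H (a • x + b • y) := by
  by_cases hb : b = 0
  · simpa [hb] using hx.smul a
  convert (hS.tv_move (hx (a * b⁻¹ * (Φ.B x y)⁻¹)) hy).smul b using 1
  match_scalars
  · field_simp
  · ring

theorem IsSp.tv_of_center (hS : IsSp Φ) {c : F} (hc : c ≠ 0) (h : Φ.HasE H x 0 c) (hy : Tv Φ H y)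
    (hxy : Φ.B x y ≠ 0) : Tv Φ H x := by
  have := hS.tv_line (hS.tv_move h hy) hy (by simpa [hS.self, hS.hσ, hc] using hxy) 1 (-1)
  exact Tv.of_smul (a := c * Φ.B x y) (by simpa using this) (mul_ne_zero hc hxy)

theorem IsSp.hasE_of_tv (hS : IsSp Φ) (hxy : Φ.B x y = 0) (hx : Tv Φ H x) (hy : Tv Φ H y)
    (h : Tv Φ H (x + y)) (t : F) : Φ.HasE H x (t • y) 0 := by
  simpa [hS.hε] using (hasE_add_center (hS.hQ x) (hS.hQ y) hxy (hS.hπ t) (h t) (hx t)).1 (hy t)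

theorem IsSp.hasOn_of_tv (hS : IsSp Φ) {U : Submodule F V} (h : ∀ e ∈ U, Tv Φ H e) :
    Φ.HasOn H U := fun e he w hw c hv =>
  InA.hasE ⟨0, hS.valid hv.perp 0, by
    simpa using hS.hasE_of_tv hv.perp (h e he) (h w hw) (h _ (U.add_mem he hw)) 1⟩
    (fun c _ => h e he c) hv

theorem IsSp.EG_le (hS : IsSp Φ) (h : ∀ e, Tv Φ H e) : Φ.EG ≤ H :=
  Fm.EG_le fun e w c hv => hS.hasOn_of_tv (U := ⊤) (fun e _ => h e) e trivial w trivial c hv

variable (Φ H) in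
/-- The central parameters. -/
def R0 (hS : IsSp Φ) (x : V) : AddSubgroup F where
  carrier := {c | Φ.HasE H x 0 c}
  zero_mem' := hasE_zero x
  add_mem' {a b} ha hb := by
    simpa using HasE.add (hS.valid (map_zero _) a) (hS.valid (map_zero _) b) ha hb
  neg_mem' {a} ha := by simpa [hS.hε, hS.hσ] using HasE.neg (hS.valid (map_zero _) a) ha

theorem IsSp.card_R0 (hS : IsSp Φ) : Nat.card (R0 Φ H hS x) = r0 Φ H x := by
  refine Nat.card_congr (Equiv.ofBijective (fun c => ⟨⟨0, c.1, (hS.valid (e := x) (map_zero _) c.1).norm⟩,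
    (mem_RS (hS.hQ x)).2 ⟨map_zero _, c.2⟩, mem_HU.2 (Submodule.zero_mem _)⟩) ⟨fun a b e =>
      Subtype.ext (congrArg (fun p => p.1.c) e), ?_⟩)
  rintro ⟨⟨w, c, h⟩, h1, h2⟩
  obtain rfl : w = 0 := h2
  exact ⟨⟨c, ((mem_RS (hS.hQ x)).1 h1).2⟩, rfl⟩

variable (Φ H) in
/-- The index of the central parameters. -/
noncomputable def jj (hS : IsSp Φ) (x : V) : ℕ := (R0 Φ H hS x).index

theorem IsSp.r0_mul_jj (hS : IsSp Φ) : r0 Φ H x * jj Φ H hS x = Nat.card F := by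
  rw [← hS.card_R0, jj, AddSubgroup.card_mul_index]

theorem IsSp.jj_dvd (hS : IsSp Φ) : jj Φ H hS x ∣ Nat.card F := Dvd.intro_left _ hS.r0_mul_jj

theorem IsSp.jj_le (hS : IsSp Φ) : jj Φ H hS x ≤ Nat.card F := Nat.le_of_dvd Nat.card_pos hS.jj_dvd

theorem IsSp.a_eq (hS : IsSp Φ) (hx0 : x ≠ 0) :
    H.relIndex (Qx Φ x) = abar Φ H x * jj Φ H hS x := by
  have := r0_mul (H := H) (hS.hQ x) hx0
  rw [hS.lam_eq, ← hS.r0_mul_jj (H := H) (x := x)] at this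
  exact Nat.eq_of_mul_eq_mul_left r0_pos (by rw [this]; ring)

theorem IsSp.mb_mul_a (hS : IsSp Φ) (hx0 : x ≠ 0) : mb Φ H x * H.relIndex (Qx Φ x) =
    Nat.card F ^ (finrank F V - 2) * jj Φ H hS x := by
  rw [hS.a_eq hx0, ← mul_assoc, mb_mul_abar (hS.hQ x) hx0]

theorem IsSp.R0_ne_top (hS : IsSp Φ) (h : ¬ Tv Φ H x) : R0 Φ H hS x ≠ ⊤ :=
  fun c => h fun a => (c ▸ AddSubgroup.mem_top a : a ∈ R0 Φ H hS x)

theorem IsSp.two_le_jj (hS : IsSp Φ) (h : ¬ Tv Φ H x) : 2 ≤ jj Φ H hS x :=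
  AddSubgroup.one_lt_index_of_ne_top (hS.R0_ne_top h)

theorem IsSp.three_le_jj (hS : IsSp Φ) (h : ¬ Tv Φ H x) (h2 : (2 : F) ≠ 0) : 3 ≤ jj Φ H hS x := by
  have h1 := hS.two_le_jj h
  by_contra c
  have h3 := hS.jj_dvd (H := H) (x := x)
  rw [show jj Φ H hS x = 2 by omega] at h3
  obtain ⟨k, hk⟩ := h3
  have := Fintype.ofFinite F
  have h4 := FiniteField.cast_card_eq_zero F
  rw [← Nat.card_eq_fintype_card] at h4
  have h5 := FiniteField.odd_card_of_char_ne_two (F := F) fun c => h2 (by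
    simpa [c] using ringChar.Nat.cast_ringChar (R := F))
  rw [← Nat.card_eq_fintype_card] at h5
  omega

theorem IsSp.ncard_Tt_le (hS : IsSp Φ) (hH : H ≤ Φ.EG) (h : ¬ Tv Φ H x) :
    (Tt H x).ncard ≤ (jj Φ H hS x - 1) * e2 F := by
  refine (ncard_le_mul_of_fiber _ {t : F | t ≠ 0 ∧ ∀ c ∈ R0 Φ H hS x, t * c ∈ R0 Φ H hS x}
    (fun t => t * t) ?_ (e2 F) fun s _ => ?_).trans (Nat.mul_le_mul_right _
      (Nat.le_sub_one_of_lt (ncard_mult_le _ (hS.R0_ne_top h))))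
  · rintro t ⟨ht, k, hk, e⟩
    refine ⟨mul_ne_zero ht ht, fun c hc => ?_⟩
    have := HasE.conj hc hk (Φ.EG_le_Iso (hH hk))
    rw [e, map_zero, hasE_smul_left, hS.hσ, smul_zero] at this
    exact this
  · rcases Set.eq_empty_or_nonempty {a | a ∈ Tt H x ∧ a * a = s} with h0 | ⟨t, ht, rfl⟩
    · simp [h0]
    · exact (Set.ncard_le_ncard fun a ha => ha.2).trans (ncard_sq_le ht.1)

theorem ncard_Tt_le' : (Tt H x).ncard ≤ Nat.card F - 1 := by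
  rw [← ncard_ne_zero_field]
  exact Set.ncard_le_ncard fun _ h => h.1

theorem mb_eq_one (hx : Φ.Q x = 0) (hx0 : x ≠ 0) :
    mb Φ H x = 1 ↔ ∀ w, Φ.InA H x w → ∃ t : F, w = t • x := by
  have h : (Submodule.span F {x}).toAddSubgroup ≤ MA Φ H x := fun v hv => by
    obtain ⟨t, rfl⟩ := Submodule.mem_span_singleton.1 hv
    exact (mem_MA hx).2 (inA_smul_self hx t)
  have h2 := card_submodule (Submodule.span F {x})
  rw [finrank_span_singleton hx0, pow_one] at h2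
  have h3 := card_MA_eq (H := H) hx hx0
  constructor
  · intro h1 w hw
    have := AddSubgroup.eq_of_le_of_card_ge h (by rw [h3, h1, one_mul]; exact h2.ge)
    obtain ⟨t, ht⟩ := Submodule.mem_span_singleton.1
      (this ▸ (mem_MA hx).2 hw : w ∈ (Submodule.span F {x}).toAddSubgroup)
    exact ⟨t, ht.symm⟩
  · intro h1
    rw [← le_antisymm h fun w hw => by
      obtain ⟨t, rfl⟩ := h1 w ((mem_MA hx).1 hw)
      exact Submodule.smul_mem _ _ (Submodule.mem_span_singleton_self x)] at h3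
    exact Nat.eq_of_mul_eq_mul_right Nat.card_pos (h3.symm.trans (h2.trans (one_mul _).symm))

end Cfsg.Agent.Class.MinDegO
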