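import Mathlib
import Cfsg.Agent.Class.MinDegO.SpBase

/-!
Minimal degree of symplectic groups: points whose parameters form a subspace, and the end game.
-/

set_option autoImplicit false
set_option linter.unusedSectionVars false

namespace Cfsg.Agent.Class.MinDegO

open Module Cfsg.Agent.Class.Max Cfsg.Agent.Class.Max.Fm

theorem mul_self_mem_of_relIndex_le {G : Type*} [Group G] {K T : Subgroup G}
    (h0 : K.relIndex T ≠ 0) (h : K.relIndex T ≤ 2) {g : G} (hg : g ∈ T) : g * g ∈ K := by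
  obtain h1 | h1 : K.relIndex T = 1 ∨ K.relIndex T = 2 := by omega
  · exact Subgroup.relIndex_eq_one.1 h1 (T.mul_mem hg hg)
  · exact Subgroup.mul_self_mem_of_index_two h1 (⟨g, hg⟩ : T)

theorem exists_ne_zero_ne {F : Type*} [Field F] [Finite F] (h : 3 ≤ Nat.card F) (a : F) :
    ∃ β : F, β ≠ 0 ∧ β ≠ a := by
  by_contra c
  push Not at c
  have := (Set.ncard_le_ncard (s := Set.univ) (t := {(0 : F), a}) fun b _ => by
    by_cases h : b = 0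
    · exact .inl h
    · exact .inr (c b h)).trans ((Set.ncard_insert_le _ _).trans_eq (by rw [Set.ncard_singleton]))
  rw [Set.ncard_univ] at this
  omega

variable {F V : Type*} [Field F] [AddCommGroup V] [Module F V] {Φ : Fm F V}
  [Finite F] [Finite V] [FiniteDimensional F V] {H : Subgroup (V ≃ₗ[F] V)} {x x' y : V}

theorem IsTor.inv_mul (hx : Φ.Q x = 0) (hx0 : x ≠ 0) {s t : F} {k l : V ≃ₗ[F] V}
    (hk : IsTor Φ x s k) (hl : IsTor Φ x t l) : IsTor Φ x (s⁻¹ * t) (k⁻¹ * l) := by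
  have hs := smul_ne_of_eq hx0 hk.1
  refine ⟨k.injective (by rw [mul_app, app_inv_app, hl.1, map_smul, hk.1, smul_smul]; field_simp),
    fun v hv => ?_⟩
  obtain ⟨a, ha⟩ := hk.2 v hv
  obtain ⟨b, hb⟩ := hl.2 v hv
  refine ⟨(b - a) * s⁻¹, k.injective ?_⟩
  rw [mul_app, app_inv_app, hb, map_add, map_smul, ha, hk.1, smul_smul, inv_mul_cancel_right₀ hs]
  module

section Sub

variable {S : Submodule F V}

theorem IsTor.mem_stab (hx : Φ.Q x = 0) (hS : ∀ w, Φ.InA H x w ↔ w ∈ S) {t : F} {k : V ≃ₗ[F] V}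
    (hk : IsTor Φ x t k) : k ∈ stab S := mem_stab_of_mapsTo fun v hv => by
  obtain ⟨r, hr⟩ := hk.2 v ((hS v).2 hv).perp
  exact hr ▸ S.add_mem hv ((hS _).1 (inA_smul_self hx r))

theorem Qx_le_stab (hx : Φ.Q x = 0) (hS : ∀ w, Φ.InA H x w ↔ w ∈ S) : Qx Φ x ≤ stab S :=
  fun _ hu => IsTor.mem_stab (t := 1) hx hS ⟨by rw [hu.2.1, one_smul], hu.2.2⟩

theorem inf_Px_le_stab (hx0 : x ≠ 0) (hS : ∀ w, Φ.InA H x w ↔ w ∈ S) : H ⊓ Px Φ x ≤ stab S :=
  fun k hk => mem_stab_of_mapsTo fun v hv => by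
    obtain ⟨⟨t, ht⟩, hE⟩ := mem_Px.1 hk.2
    have h1 := ((hS v).2 hv).conj hk.1 (Φ.EG_le_Iso hE)
    rw [ht] at h1
    have ht0 := smul_ne_of_eq hx0 ht
    exact (S.smul_mem_iff (Φ.σ_ne ht0)).1 ((hS _).1 (h1.of_smul_left ht0))

theorem index_chain (hx : Φ.Q x = 0) (hx0 : x ≠ 0) (hS : ∀ w, Φ.InA H x w ↔ w ∈ S)
    {T : Subgroup (V ≃ₗ[F] V)} (h1 : Qx Φ x ≤ T) (h2 : T ≤ Px Φ x) :
    H.relIndex T = H.relIndex (Qx Φ x) * ((H ⊓ (stab S ⊓ T)) ⊔ Qx Φ x).relIndex (stab S ⊓ T) *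
      (stab S).relIndex T := by
  have := finite_equiv (F := F) (V := V)
  rw [← relIndex_split H (stab S ⊓ T) (Qx Φ x) (le_inf (Qx_le_stab hx hS) h1)
    fun g hg u hu => conj_mem_Qx hx0 (h2 hg.2) hu, ← Subgroup.inf_relIndex_right (stab S) T,
    ← Subgroup.inf_relIndex_right H (stab S ⊓ T), Subgroup.relIndex_mul_relIndex _ _ _ inf_le_right
      inf_le_right, ← Subgroup.inf_relIndex_right H T]
  congr 1
  exact le_antisymm (fun k hk => ⟨hk.1, inf_Px_le_stab hx0 hS ⟨hk.1, h2 hk.2⟩, hk.2⟩)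
    fun k hk => ⟨hk.1, hk.2.2⟩

theorem IsSp.lift_tv (hΦ : IsSp Φ) (h3 : 3 ≤ finrank F V) (hq : 3 ≤ Nat.card F) (hH : H ≤ Φ.EG)
    (hN : (Nat.card F - 1) * H.relIndex Φ.EG < Nat.card F ^ finrank F V) (hx0 : x ≠ 0)
    (hT : ¬ Tv Φ H x) (hS : ∀ w, Φ.InA H x w ↔ w ∈ S)
    (ho : Nat.card F ^ (finrank F V - 2) ≤ abar Φ H x * (stab S).relIndex (Sx Φ x))
    {e w : V} (hew : Φ.B e w = 0) (he : Φ.B x e = 0) (hw : Φ.B x w = 0)
    (h : ∀ (t c : F), (hΦ.valid (show Φ.B e (t • w) = 0 by simp [hew]) c).eich ∈ stab S) (c : F) :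
    ∃ k ∈ H, ∃ u ∈ Qx Φ x, (hΦ.valid hew c).eich = k * u := by
  have hx := hΦ.hQ x
  have hQS := Qx_le_Sx hx hx0
  have h1 := index_chain hx hx0 hS hQS Sx_le_Px
  have h2 := (relIndex_Sx_mul (H := H) (by rw [hΦ.hd]; omega) hx hx0).trans (Nat.mul_le_mul
    (relIndex_le_EG (H := H) (S := Px Φ x) inf_le_right) (hΦ.ncard_Tt_le hH hT))
  have h4 := hΦ.two_le_jj hT
  have h5 := hΦ.jj_le (H := H) (x := x)
  have h6 := relIndex_ne_zero ((H ⊓ (stab S ⊓ Sx Φ x)) ⊔ Qx Φ x) (stab S ⊓ Sx Φ x)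
  have key : ((H ⊓ (stab S ⊓ Sx Φ x)) ⊔ Qx Φ x).relIndex (stab S ⊓ Sx Φ x) * (Nat.card F - 1) <
      Nat.card F * e2 F := by
    rw [h1, hΦ.a_eq hx0] at h2
    rw [show finrank F V = finrank F V - 2 + 2 by omega, pow_add] at hN
    generalize ((H ⊓ (stab S ⊓ Sx Φ x)) ⊔ Qx Φ x).relIndex (stab S ⊓ Sx Φ x) = ρ at *
    generalize Nat.card F ^ (finrank F V - 2) = X at *
    obtain ⟨j, hj⟩ : ∃ j, jj Φ H hΦ x = j + 1 := ⟨_, (Nat.sub_add_cancel (by omega)).symm⟩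
    obtain ⟨q, hq⟩ : ∃ q, Nat.card F = q + 1 := ⟨_, (Nat.sub_add_cancel (by omega)).symm⟩
    simp only [hj, hq, Nat.add_sub_cancel] at *
    by_contra c
    have a1 : X * ((j + 1) * ρ * q) ≤ H.relIndex Φ.EG * (j * e2 F) :=
      le_trans (by nlinarith [Nat.mul_le_mul_right ((j + 1) * ρ * q) ho]) h2
    have a2 : X * ((j + 1) * ((q + 1) * e2 F)) ≤ X * ((j + 1) * ρ * q) :=
      Nat.mul_le_mul_left _ (by nlinarith [Nat.mul_le_mul_left (j + 1) (not_lt.1 c)])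
    have he2 : 0 < e2 F := (Set.ncard_pos (Set.toFinite _)).2 ⟨1, one_mul 1⟩
    have a3 : X * ((j + 1) * (q + 1)) ≤ H.relIndex Φ.EG * j :=
      Nat.le_of_mul_le_mul_right (by nlinarith) he2
    have a4 : q * H.relIndex Φ.EG * j ≤ X * (q + 1) ^ 2 * j := Nat.mul_le_mul_right _ hN.le
    have a5 : q * H.relIndex Φ.EG * j < X * (q + 1) ^ 2 * j :=
      Nat.mul_lt_mul_of_pos_right hN (by omega)
    have a6 : X * (q + 1) * ((q + 1) * j) ≤ X * (q + 1) * (q * (j + 1)) :=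
      Nat.mul_le_mul_left _ (by nlinarith)
    nlinarith [Nat.mul_le_mul_left q a3]
  have mem : ∀ (t c : F), (hΦ.valid (show Φ.B e (t • w) = 0 by simp [hew]) c).eich ∈
      stab S ⊓ Sx Φ x := fun t c => ⟨h t c, mem_Sx.2 ⟨ef_apply_of_perp (Φ.perp_symm he)
        (by simp [Φ.perp_symm hw]), Valid.eich_mem _⟩⟩
  have fin : (hΦ.valid hew c).eich ∈ (H ⊓ (stab S ⊓ Sx Φ x)) ⊔ Qx Φ x := by
    by_cases h2 : (2 : F) = 0
    · have := e2_le_one h2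
      have h7 : ((H ⊓ (stab S ⊓ Sx Φ x)) ⊔ Qx Φ x).relIndex (stab S ⊓ Sx Φ x) = 1 := by
        by_contra c
        have := Nat.mul_le_mul_right (Nat.card F - 1) (show 2 ≤ ((H ⊓ (stab S ⊓ Sx Φ x)) ⊔
          Qx Φ x).relIndex (stab S ⊓ Sx Φ x) by omega)
        have := Nat.mul_le_mul_left (Nat.card F) ‹e2 F ≤ 1›
        omega
      convert Subgroup.relIndex_eq_one.1 h7 (mem 1 c) using 2
      simp
    · have := mul_self_mem_of_relIndex_le h6 (by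
        by_contra c
        have := Nat.mul_le_mul_right (Nat.card F - 1) (show 3 ≤ ((H ⊓ (stab S ⊓ Sx Φ x)) ⊔
          Qx Φ x).relIndex (stab S ⊓ Sx Φ x) by omega)
        have := Nat.mul_le_mul_left (Nat.card F) (e2_le_two (F := F))
        omega) (mem 2⁻¹ (2⁻¹ * c))
      convert this using 1
      refine LinearEquiv.ext fun v => ?_
      rw [mul_app, Valid.eich_apply, Valid.eich_apply, Valid.eich_apply,
        (hΦ.valid (by simp [hew]) _).ef_ef (hΦ.valid (by simp [hew]) _), hΦ.self, ← add_smul]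
      congr 1
      · rw [← two_mul, mul_inv_cancel₀ h2, one_smul]
      · field_simp; ring
  obtain ⟨k, hk, -, u, hu, e⟩ := mem_sup_of_normal (le_inf (Qx_le_stab hx hS) hQS)
    (fun g hg u hu => conj_mem_Qx hx0 (Sx_le_Px hg.2) hu) fin
  exact ⟨k, hk, u, hu, e⟩

theorem IsSp.exists_tor (hΦ : IsSp Φ) (h3 : 3 ≤ finrank F V) (hq : 4 ≤ Nat.card F)
    (hN : (Nat.card F - 1) * H.relIndex Φ.EG < Nat.card F ^ finrank F V) (hx0 : x ≠ 0)
    (hT : ¬ Tv Φ H x) (hS : ∀ w, Φ.InA H x w ↔ w ∈ S)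
    (ho : Nat.card F ^ (finrank F V - 2) ≤ abar Φ H x * (stab S).relIndex (Sx Φ x)) :
    ∃ k ∈ H, ∃ t : F, t * t ≠ 1 ∧ IsTor Φ x t k := by
  have := finite_equiv (F := F) (V := V)
  by_contra hc
  push Not at hc
  have hx := hΦ.hQ x
  have hQP := (Qx_le_Sx hx hx0).trans (Sx_le_Px (Φ := Φ))
  have h1 := index_chain hx hx0 hS hQP le_rfl
  have h2 := cover ((H ⊓ (stab S ⊓ Px Φ x)) ⊔ Qx Φ x) (stab S ⊓ Px Φ x)
    (fun g t => ∃ k ∈ (H ⊓ (stab S ⊓ Px Φ x)) ⊔ Qx Φ x, IsTor Φ x t (g * k)) (by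
      rintro g - k - hk t ⟨l, hl, e⟩
      exact ⟨k⁻¹ * l, Subgroup.mul_mem _ (Subgroup.inv_mem _ hk) hl, by
        rwa [mul_assoc, mul_inv_cancel_left]⟩) (e2 F) (fun g _ => by
      rcases Set.eq_empty_or_nonempty {t | ∃ k ∈ (H ⊓ (stab S ⊓ Px Φ x)) ⊔ Qx Φ x,
        IsTor Φ x t (g * k)} with h0 | ⟨s, k, hk, hs⟩
      · simp [h0]
      have hs0 := smul_ne_of_eq hx0 hs.1
      refine le_trans (Set.ncard_le_ncard ?_) (ncard_sq_le hs0)
      rintro t ⟨l, hl, ht⟩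
      have a1 := hs.inv_mul hx hx0 ht
      obtain ⟨m, hm, -, u, hu, e⟩ := mem_sup_of_normal (le_inf (Qx_le_stab hx hS) hQP)
        (fun g hg u hu => conj_mem_Qx hx0 hg.2 hu) (Subgroup.mul_mem _ (Subgroup.inv_mem _ hk) hl)
      have a2 := a1.mul ((Qx Φ x).inv_mem hu)
      rw [show (g * k)⁻¹ * (g * l) = k⁻¹ * l by group, e, mul_inv_cancel_right] at a2
      by_contra c
      refine hc m hm _ (fun c2 => c ?_) a2
      change t * t = s * s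
      field_simp at c2
      linear_combination c2) {t : F | t ≠ 0} fun t ht => by
      obtain ⟨x', -, h⟩ := exists_partner_top hx hx0
      obtain ⟨k, hk, h⟩ := exists_tor_alt hΦ.hQ h ht
      exact ⟨k, ⟨h.mem_stab hx hS, mem_Px.2 ⟨⟨t, h.1⟩, hk⟩⟩, 1, Subgroup.one_mem _, by
        rwa [mul_one]⟩
  have h4 := relIndex_le_EG (H := H) (S := Px Φ x) inf_le_right
  have h5 := ho.trans (Nat.mul_le_mul_left _
    (Subgroup.relIndex_le_of_le_right Sx_le_Px (relIndex_ne_zero _ _)))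
  rw [h1, hΦ.a_eq hx0] at h4
  rw [ncard_ne_zero_field] at h2
  rw [show finrank F V = finrank F V - 2 + 2 by omega, pow_add] at hN
  have key : jj Φ H hΦ x * (Nat.card F - 1) ^ 2 ≤ Nat.card F ^ 2 * e2 F := by
    generalize ((H ⊓ (stab S ⊓ Px Φ x)) ⊔ Qx Φ x).relIndex (stab S ⊓ Px Φ x) = ρ at *
    have hX : 0 < Nat.card F ^ (finrank F V - 2) := Nat.pow_pos (by omega)
    generalize Nat.card F ^ (finrank F V - 2) = X at *
    generalize Nat.card F - 1 = r at *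
    have a1 : X * jj Φ H hΦ x * ρ ≤ H.relIndex Φ.EG :=
      le_trans (by nlinarith [Nat.mul_le_mul_right (jj Φ H hΦ x * ρ) h5]) h4
    refine Nat.le_of_mul_le_mul_left ?_ hX
    calc X * (jj Φ H hΦ x * r ^ 2) = X * jj Φ H hΦ x * r * r := by ring
      _ ≤ X * jj Φ H hΦ x * (ρ * e2 F) * r := by gcongr
      _ = X * jj Φ H hΦ x * ρ * r * e2 F := by ring
      _ ≤ H.relIndex Φ.EG * r * e2 F := by gcongr
      _ ≤ X * Nat.card F ^ 2 * e2 F := Nat.mul_le_mul_right _ (by rw [mul_comm]; exact hN.le)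
      _ = _ := by ring
  obtain ⟨q, hq'⟩ : ∃ q, Nat.card F = q + 1 := ⟨_, (Nat.sub_add_cancel (by omega)).symm⟩
  by_cases h2 : (2 : F) = 0
  · have a1 := Nat.mul_le_mul_right ((Nat.card F - 1) ^ 2) (hΦ.two_le_jj hT)
    have a2 := Nat.mul_le_mul_left (Nat.card F ^ 2) (e2_le_one h2)
    simp only [hq', Nat.add_sub_cancel] at *
    nlinarith
  · have a1 := hΦ.three_le_jj hT h2
    have a2 := key.trans (Nat.mul_le_mul_left (Nat.card F ^ 2) (e2_le_two (F := F)))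
    have a3 := hΦ.jj_dvd (H := H) (x := x)
    have a4 := (Nat.mul_le_mul_right ((Nat.card F - 1) ^ 2) a1).trans a2
    simp only [hq', Nat.add_sub_cancel] at *
    have a5 : q ≤ 4 := by nlinarith
    have a6 := Nat.le_of_dvd (by omega) a3
    obtain rfl | rfl : q = 3 ∨ q = 4 := by omega
    · obtain h | h : jj Φ H hΦ x = 3 ∨ jj Φ H hΦ x = 4 := by omega
      · simp [h] at a3
      · simp [h] at a2
    · obtain h | h | h : jj Φ H hΦ x = 3 ∨ jj Φ H hΦ x = 4 ∨ jj Φ H hΦ x = 5 := by omega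
      · simp [h] at a3
      · simp [h] at a3
      · simp [h] at a2

theorem IsSp.sub_torus (hΦ : IsSp Φ) (h3 : 3 ≤ finrank F V) (hq : 4 ≤ Nat.card F) (hH : H ≤ Φ.EG)
    (hN : (Nat.card F - 1) * H.relIndex Φ.EG < Nat.card F ^ finrank F V) (hx0 : x ≠ 0)
    (hT : ¬ Tv Φ H x) (hS : ∀ w, Φ.InA H x w ↔ w ∈ S)
    (ho : Nat.card F ^ (finrank F V - 2) ≤ abar Φ H x * (stab S).relIndex (Sx Φ x)) :
    ∃ x', Φ.B x x' = 1 ∧ ∀ e ∈ pp Φ ⊤ x x', (∀ c, ∀ v ∈ S, Φ.ef e 0 c v ∈ S) → Tv Φ H e := by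
  obtain ⟨k, hk, t, ht, h⟩ := hΦ.exists_tor h3 hq hN hx0 hT hS ho
  have ht1 : t ≠ 1 := fun c => ht (by simp [c])
  obtain ⟨x', hx', h1, h2⟩ := h.exists_fix (hΦ.hQ x) hx0 ht1
  refine ⟨x', h1, fun e he h4 c => ?_⟩
  obtain ⟨g, hg, u, hu, e1⟩ := hΦ.lift_tv h3 (by omega) hH hN hx0 hT hS ho (e := e) (w := 0)
    (map_zero _) (mem_pp.1 he).2.1 (map_zero _)
    (fun t c => mem_stab_of_mapsTo fun v hv => by simpa [Valid.eich_apply] using h4 c v hv) c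
  exact ⟨_, torus (hΦ.hQ x) hx' h1 hk (hH hk) h.1 h2 ht1 (.inl (by rwa [hΦ.hσ]))
    ((hasOn_GU _ e he 0 (Submodule.zero_mem _) c (hΦ.valid (map_zero _) c)).mem fun _ => rfl)
    hg hu e1, fun _ => rfl⟩

end Sub

theorem IsSp.end_game (hΦ : IsSp Φ) (h4 : 4 ≤ finrank F V) (hq : 3 ≤ Nat.card F) (hH : H ≤ Φ.EG)
    (h : Φ.B x x' = 1) (hT : ¬ Tv Φ H x) (hreg : ∀ w, Φ.InA H x w → ∃ t : F, w = t • x)
    (hD : ∀ e ∈ pp Φ ⊤ x x', Tv Φ H e) : ns Φ ≤ (Nat.card F - 1) * H.relIndex Φ.EG := by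
  have hx := hΦ.hQ x
  have hx' := hΦ.hQ x'
  have hx0 : x ≠ 0 := fun c => by simp [c] at h
  have h' : Φ.B x' x = -1 := by rw [hΦ.skew, h]
  have hND := nd_pp Φ.nd_top trivial trivial hx hx' h
  have hon : Φ.HasOn (H ⊓ GU Φ (pp Φ ⊤ x x')) (pp Φ ⊤ x x') := (hΦ.hasOn_of_tv hD).inf (hasOn_GU _)
  have mv : ∀ a b : F, ∀ d ∈ pp Φ ⊤ x x', ∀ d' ∈ pp Φ ⊤ x x', d ≠ 0 → d' ≠ 0 →
      Tv Φ H (d + a • x' + b • x) → Tv Φ H (d' + a • x' + b • x) := fun a b d hd d' hd' h0 h0' h1 => by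
    obtain ⟨g, hg, e⟩ := hΦ.move hon hd hd' (hND.exists_ne hd h0) (hND.exists_ne hd' h0')
    simpa [e, GU_pp_left hg.2, GU_pp_right hg.2] using h1.conj hg.1 (GU_iso hg.2)
  have c1 : ∀ d ∈ pp Φ ⊤ x x', ∀ t : F, Tv Φ H (d + t • x) → t = 0 := fun d hd t h1 => by
    by_contra ht
    have hd0 : d ≠ 0 := fun c => hT (Tv.of_smul (by simpa [c] using h1) ht)
    obtain ⟨a, a0, a1⟩ := exists_ne_zero_ne hq (1 : F)
    have a2 : 1 - a ≠ 0 := sub_ne_zero.2 a1.symm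
    have b1 := mv 0 t d hd _ (Submodule.smul_mem _ a hd) hd0 (smul_ne_zero a0 hd0) (by simpa using h1)
    have b2 := hΦ.hasE_of_tv (x := (1 - a) • d) (y := a • d + t • x)
      (by simp [hΦ.self, Φ.perp_symm (mem_pp.1 hd).2.1]) (hD _ (Submodule.smul_mem _ _ hd))
      (by simpa using b1) (by convert h1 using 1; module) 1
    have b3 : RR Φ H ((1 - a) • d) (t • x) 0 := ⟨hΦ.valid (by
      simp [Φ.perp_symm (mem_pp.1 hd).2.1]) 0, InA.hasE (by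
        have := InA.sub ⟨0, hΦ.valid (by simp [hΦ.self, Φ.perp_symm (mem_pp.1 hd).2.1]) 0, b2⟩
          (inA_smul_self (hΦ.hQ _) (a * (1 - a)⁻¹))
        convert this using 1
        match_scalars
        · ring
        · field_simp; ring) (fun c _ => hD _ (Submodule.smul_mem _ _ hd) c) (hΦ.valid (by
      simp [Φ.perp_symm (mem_pp.1 hd).2.1]) 0)⟩
    have := eq_zero_of_reg h hreg (Submodule.smul_mem _ _ (Submodule.smul_mem _ _ hd))
      (b3.swap hx (by simp [(mem_pp.1 hd).2.1])).inA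
    simp [hΦ.hε, hΦ.hσ, ht, a2, hd0] at this
  have dec : ∀ y, ∃ d ∈ pp Φ ⊤ x x', ∃ t : F, y = d + Φ.B x y • x' + t • x := fun y => by
    obtain ⟨d, hd, e⟩ := hyp_decomp_mem (U := ⊤) trivial trivial hx hx' h (y := y) trivial
    exact ⟨d, hd, _, e⟩
  obtain ⟨w, hw0, hw⟩ : ∃ w, w ≠ 0 ∧ ∀ y, Tv Φ H y → Φ.B y w = 0 := by
    by_cases c : ∀ y, Tv Φ H y → Φ.B y x = 0
    · exact ⟨x, hx0, c⟩
    push Not at c
    obtain ⟨y₀, hy₀, c⟩ := c
    have c := Φ.ne_symm c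
    obtain ⟨d₀, hd₀, t₀, e₀⟩ := dec ((Φ.B x y₀)⁻¹ • y₀)
    have a0 := hy₀.smul (Φ.B x y₀)⁻¹
    rw [e₀, map_smul, smul_eq_mul, inv_mul_cancel₀ c] at a0
    refine ⟨x' + t₀ • x, fun c => by simpa [h, hΦ.self] using congrArg (Φ.B x) c, fun y hy => ?_⟩
    by_cases hxy : Φ.B x y = 0
    · obtain ⟨d, hd, t, e⟩ := dec y
      rw [hxy, zero_smul, add_zero] at e
      rw [e, c1 d hd t (e ▸ hy)]
      simp [Φ.perp_symm (mem_pp.1 hd).2.1, Φ.perp_symm (mem_pp.1 hd).2.2]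
    obtain ⟨d, hd, t, e⟩ := dec ((Φ.B x y)⁻¹ • y)
    have a1 := hy.smul (Φ.B x y)⁻¹
    rw [map_smul, smul_eq_mul, inv_mul_cancel₀ hxy] at e
    rw [e] at a1
    have key : ∀ d ∈ pp Φ ⊤ x x', Tv Φ H (d + (1 : F) • x' + t • x) →
        Φ.B d d₀ + (t - t₀) ≠ 0 → t = t₀ := fun d hd h1 h2 =>
      sub_eq_zero.1 (c1 _ (Submodule.sub_mem _ hd hd₀) _ (by
        convert hΦ.tv_line h1 a0 (by
          convert h2 using 1
          simp [hΦ.self, hΦ.hσ, h, h', (mem_pp.1 hd₀).2.1, (mem_pp.1 hd₀).2.2,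
            Φ.perp_symm (mem_pp.1 hd).2.1, Φ.perp_symm (mem_pp.1 hd).2.2]
          ring) 1 (-1) using 1
        module))
    have ht : t = t₀ := by
      by_contra c
      by_cases c2 : Φ.B d d₀ + (t - t₀) = 0
      · have c3 : Φ.B d d₀ ≠ 0 := fun c3 => c (by rwa [c3, zero_add, sub_eq_zero] at c2)
        exact c (key d₀ hd₀ (mv 1 t d hd d₀ hd₀ (fun c => by simp [c] at c3)
          (fun c => by simp [c] at c3) a1) (by simpa [hΦ.self, sub_eq_zero] using c))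
      · exact c (key d hd a1 c2)
    have : Φ.B ((Φ.B x y)⁻¹ • y) (x' + t₀ • x) = 0 := by
      rw [e, ht]
      simp [hΦ.self, hΦ.hσ, h, h', Φ.perp_symm (mem_pp.1 hd).2.1, Φ.perp_symm (mem_pp.1 hd).2.2]
    simpa [hxy] using this
  have inv : ∀ v, (∀ y, Tv Φ H y → Φ.B y v = 0) → ∀ g ∈ H, ∀ y, Tv Φ H y → Φ.B y (g v) = 0 :=
    fun v hv g hg y hy => by
      rw [← Iso.B_inv_left (Φ.EG_le_Iso (hH hg))]
      exact hv _ (hy.conj (H.inv_mem hg) (Φ.EG_le_Iso (hH (H.inv_mem hg))))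
  have span : ∀ v, (∀ y, Tv Φ H y → Φ.B y v = 0) → ∃ a b : F, v = a • x + b • x' := fun v hv =>
    mem_span_pair_of_perp fun y h1 h2 => Φ.perp_symm (hv y (hD y (mem_pp.2 ⟨trivial, h1, h2⟩)))
  have hd : Φ.d + 2 ≤ finrank F V := by rw [hΦ.hd]; omega
  by_cases c : ∀ y, Tv Φ H y → Φ.B y x = 0
  · refine ns_le_of_orbit hd hH hx hx0 ((relIndex_Px_le_of_line hH hx0
      fun g hg => span _ (inv x c g hg)).trans (le_trans ?_
        ((pow_le_relIndex_Qx hx hx0 hreg).trans (relIndex_Qx_le_Px hx hx0))))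
    refine le_trans (by nlinarith) (Nat.pow_le_pow_right (n := Nat.card F) (by omega)
      (show 2 ≤ finrank F V - 2 by omega))
  · refine ns_le_of_le_Px hd (hΦ.hQ w) hw0 fun g hg => mem_Px.2 ⟨?_, hH hg⟩
    obtain ⟨a, b, e⟩ := span w hw
    obtain ⟨a', b', e'⟩ := span _ (inv w hw g hg)
    push Not at c
    obtain ⟨y, hy, c⟩ := c
    have h1 := hw y hy
    have h2 := inv w hw g hg y hy
    rw [e] at h1
    rw [e'] at h2
    simp only [Φ.bsimp] at h1 h2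
    have hb : b ≠ 0 := fun c2 => hw0 (by
      rw [c2, zero_mul, add_zero] at h1
      simp [e, c2, (mul_eq_zero.1 h1).resolve_right c])
    refine ⟨b' * b⁻¹, ?_⟩
    rw [e', e]
    match_scalars
    · have : (a' * b - b' * a) * Φ.B y x = 0 := by linear_combination b * h2 - b' * h1
      field_simp
      linear_combination (mul_eq_zero.1 this).resolve_right c
    · field_simp

/-- Points outside the transvection set with trivial vector part. -/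
theorem IsSp.alpha (hΦ : IsSp Φ) (h4 : 4 ≤ finrank F V) (hq : 4 ≤ Nat.card F) (hH : H ≤ Φ.EG)
    (hN : (Nat.card F - 1) * H.relIndex Φ.EG < Nat.card F ^ finrank F V)
    (hT : ¬ Tv Φ H x) (h1 : mb Φ H x = 1) : ns Φ ≤ (Nat.card F - 1) * H.relIndex Φ.EG := by
  have hx0 : x ≠ 0 := fun c => hT (c ▸ tv_zero)
  have hreg := (mb_eq_one (hΦ.hQ x) hx0).1 h1
  have h2 := mb_mul_abar (H := H) (hΦ.hQ x) hx0
  obtain ⟨x', h, hD⟩ := hΦ.sub_torus (S := Submodule.span F {x}) (by omega) hq hH hN hx0 hT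
    (fun w => by
      rw [Submodule.mem_span_singleton]
      exact ⟨fun h => (hreg w h).imp fun _ => Eq.symm, fun ⟨t, e⟩ => e ▸ inA_smul_self (hΦ.hQ x) t⟩)
    (by rw [← h2, h1, one_mul]; exact Nat.le_mul_of_pos_right _ (relIndex_pos _ _))
  refine hΦ.end_game h4 (by omega) hH h hT hreg fun e he => hD e he fun c v hv => ?_
  obtain ⟨t, rfl⟩ := Submodule.mem_span_singleton.1 hv
  rwa [ef_apply_of_perp (by simp [Φ.perp_symm (mem_pp.1 he).2.1]) (by simp)]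

theorem IsSp.alpha_three (hΦ : IsSp Φ) (h6 : 6 ≤ finrank F V) (hq : Nat.card F = 3) (hH : H ≤ Φ.EG)
    (hN : (Nat.card F - 1) * H.relIndex Φ.EG < Nat.card F ^ finrank F V)
    (hT : ¬ Tv Φ H x) (h1 : mb Φ H x = 1) : ns Φ ≤ (Nat.card F - 1) * H.relIndex Φ.EG := by
  have hx := hΦ.hQ x
  have hx0 : x ≠ 0 := fun c => hT (c ▸ tv_zero)
  have hreg := (mb_eq_one hx hx0).1 h1
  have h2 : (2 : F) ≠ 0 := fun c => by
    have := Fintype.ofFinite F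
    have h3 := FiniteField.cast_card_eq_zero F
    rw [← Nat.card_eq_fintype_card, hq] at h3
    exact one_ne_zero (show (1 : F) = 0 by push_cast at h3; linear_combination h3 - c)
  have hcov := fun g => covers (H := H) (g := g) hx hx0 (by
    have a1 := hΦ.mb_mul_a (H := H) hx0
    have a2 := hΦ.three_le_jj hT h2
    rw [show finrank F V = finrank F V - 2 + 2 by omega, pow_add, hq] at hN
    rw [h1, one_mul, hq] at a1
    nlinarith [Nat.mul_le_mul_left (3 ^ (finrank F V - 2)) a2])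
  have hm : (-1 : F) ≠ 1 := fun c => h2 (by linear_combination -c)
  obtain ⟨x₀, -, h₀⟩ := exists_partner_top hx hx0
  obtain ⟨κ, hκ, hκ'⟩ := exists_tor_alt hΦ.hQ h₀ (neg_ne_zero.2 one_ne_zero)
  obtain ⟨k, hk, -, u, hu, rfl⟩ := hcov κ (mem_Px.2 ⟨⟨_, hκ'.1⟩, hκ⟩)
  have b1 := hκ'.mul ((Qx Φ x).inv_mem hu)
  rw [mul_inv_cancel_right] at b1
  obtain ⟨x', hx', h, b2⟩ := b1.exists_fix hx hx0 hm
  have hI := Φ.EG_le_Iso (hH hk)
  have lift : ∀ l ∈ GU Φ (pp Φ ⊤ x x'), ∃ c, ∃ g ∈ H, ∀ v, g v = Φ.ef x 0 c (l v) := fun l hl => by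
    have hP := Sx_le_Px (GU_pp_le_Sx hl)
    obtain ⟨g, hg, -, u, hu, e⟩ := hcov l hP
    obtain ⟨w, hw, c, hv, g', hg', e'⟩ := exists_LF hx hx' h hP hg hu e
    have a1 : LF Φ H x l (-w) := ⟨c, hΦ.valid (by simp [hv.perp]) c, k * g' * k⁻¹,
      H.mul_mem (H.mul_mem hk hg') (H.inv_mem hk), fun z => by
        rw [mul_app, mul_app, e', Iso.ef hI, b1.1, b2 w hw, ef_smul_left, ← mul_app,
          comm_of_fix hx hx' h hI b2 hl]
        simp [hΦ.hσ]⟩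
    have a2 := eq_zero_of_reg h hreg (Submodule.sub_mem _ hw (Submodule.neg_mem _ hw))
      (LF.sub ⟨c, hv, g', hg', e'⟩ a1)
    rw [sub_neg_eq_add, ← two_smul F, smul_eq_zero, or_iff_right h2] at a2
    exact ⟨c, g', hg', a2 ▸ e'⟩
  refine hΦ.end_game (by omega) hq.ge hH h hT hreg fun e he c => ?_
  by_cases he0 : e = 0
  · rw [he0]; exact tv_zero c
  have hND := nd_pp Φ.nd_top trivial trivial hx hx' h
  have hr := two_le_finrank h hx hx'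
  obtain ⟨f, hf, qf, hef⟩ := exists_partner he (hΦ.hQ e) (hND.exists_ne he he0)
  obtain ⟨w, hw, hw0⟩ := exists_ne_zero_pp (Φ := Φ) (W := pp Φ ⊤ x x') (by omega) e f
  obtain ⟨w', hw', hww⟩ := exists_B_eq (nd_pp hND he hf (hΦ.hQ e) qf hef) hw hw0 (2⁻¹ * c)
  have v1 := hΦ.valid (mem_pp.1 hw).2.1 0
  have v2 := hΦ.valid (mem_pp.1 hw').2.1 0
  obtain ⟨c₁, g₁, hg₁, e₁⟩ := lift _ ((hasOn_GU _ e he w (pp_le hw) 0 v1).mem (g := v1.eich) fun _ => rfl)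
  obtain ⟨c₂, g₂, hg₂, e₂⟩ := lift _ ((hasOn_GU _ e he w' (pp_le hw') 0 v2).mem (g := v2.eich) fun _ => rfl)
  refine ⟨g₁ * g₂ * (g₂ * g₁)⁻¹, H.mul_mem (H.mul_mem hg₁ hg₂) (H.inv_mem (H.mul_mem hg₂ hg₁)),
    fun v => ?_⟩
  obtain ⟨v, rfl⟩ := (g₂ * g₁).surjective v
  obtain ⟨-, p1, -⟩ := mem_pp.1 he
  obtain ⟨-, p2, -⟩ := mem_pp.1 (pp_le hw)
  obtain ⟨-, p3, -⟩ := mem_pp.1 (pp_le hw')
  have hc : c = 2 * Φ.B w w' := by rw [hww]; field_simp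
  rw [mul_app, inv_app_app, mul_app, mul_app, e₁, e₂, e₁, e₂, hc]
  simp only [Valid.eich_apply, ef, Φ.bsimp, hΦ.hε, hΦ.self, p1, p2, p3, Φ.perp_symm p1,
    Φ.perp_symm p2, Φ.perp_symm p3, v1.perp, v2.perp, Φ.perp_symm v1.perp, Φ.perp_symm v2.perp,
    hΦ.skew w' w]
  module

end Cfsg.Agent.Class.MinDegO
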