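import Mathlib
import Cfsg.Agent.Class.MinDegO.SpEnd

/-!
Minimal degree of symplectic groups: counting vectors and pairs of vectors; dimension at least six.
-/

set_option autoImplicit false
set_option linter.unusedSectionVars false

namespace Cfsg.Agent.Class.MinDegO

open Module Cfsg.Agent.Class.Max Cfsg.Agent.Class.Max.Fm

theorem mul_le_ncard_of_fiber {α β : Type*} [Finite α] [Finite β] (S : Set α) (T : Set β)
    (φ : α → β) (hφ : ∀ a ∈ S, φ a ∈ T) (r : ℕ)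
    (hr : ∀ t ∈ T, r ≤ {a | a ∈ S ∧ φ a = t}.ncard) : r * T.ncard ≤ S.ncard := by
  classical
  rw [Set.ncard_eq_toFinset_card S, Set.ncard_eq_toFinset_card T]
  refine Finset.mul_card_image_le_card_of_maps_to (f := φ) (by simpa using hφ) r fun t ht => ?_
  refine (hr t (by simpa using ht)).trans_eq ?_
  rw [← Set.ncard_coe_finset]
  congr 1
  ext; simp

variable {F V : Type*} [Field F] [AddCommGroup V] [Module F V] {Φ : Fm F V}
  [Finite F] [Finite V] [FiniteDimensional F V] {H : Subgroup (V ≃ₗ[F] V)} {x x' y : V}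

theorem ncard_fiber_eq (X : Submodule F V) (φ : Dual F V) (h : ∃ v ∈ X, φ v ≠ 0) (a : F) :
    {v | v ∈ X ∧ φ v = a}.ncard = Nat.card F ^ (finrank F X - 1) := by
  rw [← finrank_inf_ker_add X φ h, Nat.add_sub_cancel, ← card_submodule]
  obtain ⟨v, hv, h⟩ := h
  refine Eq.trans (Set.ncard_congr (t := {u | u ∈ X ∧ φ u = 0})
    (fun u _ => u - (a * (φ v)⁻¹) • v)
    (fun u hu => ⟨X.sub_mem hu.1 (X.smul_mem _ hv), by simp [hu.2, h]⟩)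
    (fun _ _ _ _ e => sub_left_injective e) fun u hu => ⟨u + (a * (φ v)⁻¹) • v,
      ⟨X.add_mem hu.1 (X.smul_mem _ hv), by simp [hu.2, h]⟩, by simp⟩) rfl

theorem IsSp.mb_le_abar (hΦ : IsSp Φ) (h2 : (2 : F) ≠ 0) (hT : ¬ Tv Φ H x) :
    mb Φ H x ≤ abar Φ H x := by
  have hx := hΦ.hQ x
  have hx0 : x ≠ 0 := fun c => hT (c ▸ tv_zero)
  obtain ⟨c₀, hc₀⟩ := not_forall.1 hT
  obtain ⟨ψ, hψ⟩ := (AddChar.exists_apply_ne_zero (α := F ⧸ R0 Φ H hΦ x) (a := c₀)).2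
    fun c => hc₀ ((QuotientAddGroup.eq_zero_iff c₀).1 c)
  let T := (LinearMap.ker (Φ.B x)).toAddSubgroup
  have ex : ∀ v ∈ MA Φ H x, ∃ χ : AddChar (T ⧸ (MA Φ H x).addSubgroupOf T) ℂ,
      ∀ u : T, χ u = ψ ((2 * Φ.B v u : F) : F ⧸ R0 Φ H hΦ x) := fun v hv =>
    ⟨ψ.compAddMonoidHom (QuotientAddGroup.lift _ ((QuotientAddGroup.mk' _).comp
      (((2 : F) • Φ.B v).toAddMonoidHom.comp T.subtype)) fun u hu =>
        (QuotientAddGroup.eq_zero_iff _).2 (by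
          have := InA.comm ((mem_MA hx).1 hv) ((mem_MA hx).1 hu)
          rw [hΦ.skew (T.subtype u) v, sub_neg_eq_add, ← two_mul] at this
          exact this)), fun _ => rfl⟩
  choose! χ hχ using ex
  refine Nat.le_of_mul_le_mul_right ?_ (Nat.card_pos (α := F))
  have := Fintype.ofFinite (T ⧸ (MA Φ H x).addSubgroupOf T)
  have h1 := ncard_le_mul_of_fiber (MA Φ H x : Set V) Set.univ χ (fun _ _ => trivial) (Nat.card F)
    fun t _ => by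
      rcases Set.eq_empty_or_nonempty {a | a ∈ (MA Φ H x : Set V) ∧ χ a = t} with h0 | ⟨v, hv, rfl⟩
      · rw [h0]; simp
      rw [← Set.ncard_univ F]
      refine ncard_le_of_rel (fun a (s : F) => a - v = s • x) (fun a ha => ?_)
        fun a _ a' _ s e e' => sub_left_injective (e.trans e'.symm)
      by_contra c
      obtain ⟨y, hy, hy'⟩ : ∃ y, Φ.B x y = 0 ∧ Φ.B (a - v) y ≠ 0 := by
        by_contra c2
        push Not at c2
        obtain ⟨s, hs⟩ := Φ.exists_smul_of_perp c2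
        exact c ⟨s, trivial, hs⟩
      have a1 := hχ a ha.1 ⟨(c₀ * (2 * Φ.B (a - v) y)⁻¹) • y, by simp [T, hy]⟩
      rw [ha.2, hχ v hv] at a1
      have a2 : 2 * Φ.B a ((c₀ * (2 * Φ.B (a - v) y)⁻¹) • y) =
          c₀ + 2 * Φ.B v ((c₀ * (2 * Φ.B (a - v) y)⁻¹) • y) := by
        have : Φ.B a y = Φ.B (a - v) y + Φ.B v y := by simp
        rw [map_smul, map_smul, smul_eq_mul, smul_eq_mul, this]
        field_simp
      rw [a2, QuotientAddGroup.mk_add, AddChar.map_add_eq_mul] at a1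
      exact hψ (mul_right_cancel₀ (AddChar.val_isUnit _ _).ne_zero (a1.symm.trans (one_mul _).symm))
  rw [Set.ncard_univ, Nat.card_eq_fintype_card, AddChar.card_eq, ← Nat.card_eq_fintype_card] at h1
  rw [← card_MA_eq hx hx0]
  exact h1

variable (Φ H) in
/-- The slice of the image of the vector parts. -/
def Sl (x x' : V) (g : V ≃ₗ[F] V) : Set V :=
  {t | Φ.B x' t = 0 ∧ ∃ w, Φ.InA H x w ∧ ∃ s : F, t = g w + s • x}

theorem Sl_sub {g : V ≃ₗ[F] V} {a b : V} (ha : a ∈ Sl Φ H x x' g) (hb : b ∈ Sl Φ H x x' g) :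
    a - b ∈ Sl Φ H x x' g := by
  obtain ⟨a1, w, hw, s, rfl⟩ := ha
  obtain ⟨a2, w', hw', s', rfl⟩ := hb
  exact ⟨by rw [map_sub, a1, a2, sub_zero], _, hw.sub hw', s - s', by rw [map_sub]; module⟩

theorem ncard_Sl_ne (hx : Φ.Q x = 0) (h : Φ.B x x' = 1) {g : V ≃ₗ[F] V} (hg : g x = x) :
    {t | t ∈ Sl Φ H x x' g ∧ t ≠ 0}.ncard ≤ mb Φ H x - 1 :=
  Nat.le_sub_one_of_lt (ncard_succ_le_mb hx h hg _ fun _ ht => ⟨ht.2, ht.1⟩)

theorem ncard_Sl (hx : Φ.Q x = 0) (h : Φ.B x x' = 1) {g : V ≃ₗ[F] V} (hg : g x = x) :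
    (Sl Φ H x x' g).ncard ≤ mb Φ H x :=
  le_trans ((Set.ncard_le_ncard fun t ht => by
    by_cases c : t = 0
    · exact .inl c
    · exact .inr ⟨ht, c⟩).trans (Set.ncard_insert_le 0 _))
    (ncard_succ_le_mb hx h hg {t | t ∈ Sl Φ H x x' g ∧ t ≠ 0} fun _ ht => ⟨ht.2, ht.1⟩)

theorem IsSp.pair (hΦ : IsSp Φ) (h : Φ.B x x' = 1) {v v' : V} (hv : v ∈ pp Φ ⊤ x x')
    (hv' : v' ∈ pp Φ ⊤ x x') (hA : Φ.InA H x v) (hA' : Φ.InA H x v') (h0 : v ≠ 0)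
    (h1 : ∀ t : F, v' ≠ t • v) {ν ρ : ℕ}
    (hν : ∀ u ∈ pp Φ ⊤ x x', u ≠ 0 →
      ν ≤ {u' | u' ∈ pp Φ ⊤ x x' ∧ Φ.B u u' = Φ.B v v' ∧ ∀ t : F, u' ≠ t • u}.ncard)
    (hρ : ∀ g ∈ Sx Φ x, ∀ t, {t' | t' ∈ Sl Φ H x x' g ∧ Φ.B t t' = Φ.B v v'}.ncard ≤ ρ) :
    H.relIndex (Qx Φ x) * (ν * (Nat.card F ^ (finrank F V - 2) - 1)) ≤
      H.relIndex (Sx Φ x) * ((mb Φ H x - 1) * ρ) := by
  have hx := hΦ.hQ x
  have hx' := hΦ.hQ x'
  have hx0 : x ≠ 0 := fun c => by simp [c] at h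
  have hD := nd_pp Φ.nd_top trivial trivial hx hx' h
  have h2 := mul_le_ncard_of_fiber {p : V × V | (p.1 ∈ pp Φ ⊤ x x' ∧ p.1 ≠ 0) ∧
    p.2 ∈ pp Φ ⊤ x x' ∧ Φ.B p.1 p.2 = Φ.B v v' ∧ ∀ t : F, p.2 ≠ t • p.1}
    {u | u ∈ pp Φ ⊤ x x' ∧ u ≠ 0} Prod.fst (fun _ h => h.1) ν fun u hu => (hν u hu.1 hu.2).trans
      (Set.ncard_le_ncard_of_injOn (fun u' => (u, u')) (fun _ h => ⟨⟨hu, h⟩, rfl⟩)
        fun _ _ _ _ e => congrArg Prod.snd e)
  rw [ncard_ne_zero_mem, show finrank F (pp Φ ⊤ x x') = finrank F V - 2 by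
    rw [← two_le_finrank h hx hx']; simp] at h2
  refine (Nat.mul_le_mul_left _ h2).trans (count_in hx0 (Qx_le_Sx hx hx0) Sx_le_Px
    (fun g (p : V × V) => (p.1 ∈ Sl Φ H x x' g ∧ p.1 ≠ 0) ∧ p.2 ∈ Sl Φ H x x' g ∧
      Φ.B p.1 p.2 = Φ.B v v') ?_ ?_ _ (fun g hg => ?_) _ ?_)
  · have key : ∀ g, ∀ k ∈ Sx Φ x, k ∈ H → ∀ t ∈ Sl Φ H x x' g, t ∈ Sl Φ H x x' (g * k) := by
      rintro g k hk hkH t ⟨a2, w, hw, s, rfl⟩
      have hk' := mem_Sx.1 ((Sx Φ x).inv_mem hk)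
      have := hw.conj (H.inv_mem hkH) (Φ.EG_le_Iso hk'.2)
      rw [hk'.1] at this
      exact ⟨a2, _, this, s, by rw [mul_app, app_inv_app]⟩
    exact fun g _ k hk hkH p hp => ⟨⟨key g k hk hkH _ hp.1.1, hp.1.2⟩, key g k hk hkH _ hp.2.1,
      hp.2.2⟩
  · have key : ∀ g ∈ Sx Φ x, ∀ u ∈ Qx Φ x, ∀ t ∈ Sl Φ H x x' g, t ∈ Sl Φ H x x' (g * u) := by
      rintro g hg u hu t ⟨a2, w, hw, s, rfl⟩
      obtain ⟨r, hr⟩ := hu.2.2 w hw.perp
      exact ⟨a2, w, hw, s - r, by rw [mul_app, hr, map_add, map_smul, (mem_Sx.1 hg).1]; module⟩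
    exact fun g hg u hu p hp => ⟨⟨key g hg u hu _ hp.1.1, hp.1.2⟩, key g hg u hu _ hp.2.1, hp.2.2⟩
  · refine (ncard_le_mul_of_fiber _ {t | t ∈ Sl Φ H x x' g ∧ t ≠ 0} Prod.fst (fun _ h => h.1) ρ
      fun t _ => le_trans ?_ (hρ g hg t)).trans
      (Nat.mul_le_mul_right _ (ncard_Sl_ne hx h (mem_Sx.1 hg).1))
    refine Set.ncard_le_ncard_of_injOn Prod.snd ?_ ?_
    · rintro p ⟨hp, rfl⟩
      exact hp.2
    · rintro p ⟨-, rfl⟩ p' ⟨-, e⟩ e'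
      exact Prod.ext e.symm e'
  · rintro ⟨u, u'⟩ ⟨⟨a1, a2⟩, a3, a4, a5⟩
    dsimp only at a1 a2 a3 a4 a5
    obtain ⟨g, hg, e⟩ := hΦ.move (hasOn_GU _) hv a1 (hD.exists_ne hv h0) (hD.exists_ne a1 a2)
    have b1 : Φ.B u (g v') = Φ.B v v' := by rw [← e, Iso.B (GU_iso hg)]
    obtain ⟨g', hg', e1, e2⟩ : ∃ g' ∈ GU Φ (pp Φ ⊤ x x'), g' u = u ∧ g' (g v') = u' := by
      have hon : Φ.HasOn (GU Φ (pp Φ ⊤ x x') ⊓ fixing {u}) (pp Φ ⊤ x x' ⊓ LinearMap.ker (Φ.B u)) :=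
        ((hasOn_GU _).mono le_rfl inf_le_left).inf (hasOn_fixing fun y hy z hz => by
          rw [hz]; exact Φ.perp_symm hy.2)
      have key : ∀ a ∈ pp Φ ⊤ x x', (∀ t : F, a ≠ t • u) →
          ∃ y ∈ pp Φ ⊤ x x' ⊓ LinearMap.ker (Φ.B u), Φ.B a y ≠ 0 := fun a ha hn => by
        by_contra c
        push Not at c
        obtain ⟨t, ht⟩ := Φ.exists_smul_of_perp (e := u) (v := a) fun y hy => by
          obtain ⟨d, hd, e1⟩ := hyp_decomp_mem (U := ⊤) trivial trivial hx hx' h (y := y) trivial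
          have key : ∀ u ∈ pp Φ ⊤ x x', Φ.B u y = Φ.B u d := fun u hu => by
            rw [e1]
            simp [Φ.perp_symm (mem_pp.1 hu).2.1, Φ.perp_symm (mem_pp.1 hu).2.2]
          rw [key a ha]
          exact c d ⟨hd, (key u a1).symm.trans hy⟩
        exact hn t ht
      by_cases c : Φ.B v v' = 0
      · obtain ⟨g', hg', e2⟩ := hΦ.move hon ⟨GU_mem hg hv', b1.trans c⟩ ⟨a3, a4.trans c⟩
          (key _ (GU_mem hg hv') fun t ht => h1 t (g.injective (by rw [ht, map_smul, e])))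
          (key _ a3 a5)
        exact ⟨g', hg'.1, hg'.2 u rfl, e2⟩
      · obtain ⟨g', hg', e2⟩ := hon.exists_move (f := u) (x := g v') (y := u') ⟨a1, hΦ.self u⟩
          ⟨Submodule.sub_mem _ a3 (GU_mem hg hv'), by
            change Φ.B u _ = 0
            rw [map_sub, b1, a4, sub_self]⟩ (hΦ.hQ u) (by rwa [b1]) (a4.trans b1.symm)
          (by rw [hΦ.hQ, hΦ.hQ])
        exact ⟨g', hg'.1, hg'.2 u rfl, e2⟩
    exact ⟨g' * g, GU_pp_le_Sx (Subgroup.mul_mem _ hg' hg), ⟨⟨(mem_pp.1 a1).2.2, v, hA, 0, by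
      simp [e, e1]⟩, a2⟩, ⟨(mem_pp.1 a3).2.2, v', hA', 0, by simp [e2]⟩, a4⟩

theorem IsSp.pair_ne (hΦ : IsSp Φ) (h : Φ.B x x' = 1) {v v' : V} (hv : v ∈ pp Φ ⊤ x x')
    (hv' : v' ∈ pp Φ ⊤ x x') (hA : Φ.InA H x v) (hA' : Φ.InA H x v') (h0 : Φ.B v v' ≠ 0) :
    H.relIndex (Qx Φ x) * (Nat.card F ^ (finrank F V - 3) * (Nat.card F ^ (finrank F V - 2) - 1)) ≤
      H.relIndex (Sx Φ x) * ((mb Φ H x - 1) * (mb Φ H x / 2)) := by
  have hx := hΦ.hQ x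
  have hx' := hΦ.hQ x'
  refine hΦ.pair h hv hv' hA hA' (fun c => by simp [c] at h0) (fun t c => by simp [c, hΦ.self] at h0)
    (fun u hu hu0 => ?_) fun g hg t => ?_
  · have := ncard_fiber_eq _ _ ((nd_pp Φ.nd_top trivial trivial hx hx' h).exists_ne hu hu0)
      (Φ.B v v')
    rw [show finrank F V - 3 = finrank F (pp Φ ⊤ x x') - 1 by
      rw [← two_le_finrank h hx hx']; omega, ← this]
    exact Set.ncard_le_ncard fun u' hu' => ⟨hu'.1, hu'.2, fun t c => h0 (by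
      rw [← hu'.2, c]; simp [hΦ.self])⟩
  · rcases Set.eq_empty_or_nonempty {t' | t' ∈ Sl Φ H x x' g ∧ Φ.B t t' = Φ.B v v'} with
      h1 | ⟨a, ha, ha'⟩
    · rw [h1]; simp
    have h2 := Set.ncard_le_ncard_of_injOn (s := {t' | t' ∈ Sl Φ H x x' g ∧ Φ.B t t' = Φ.B v v'})
      (t := {t' | t' ∈ Sl Φ H x x' g ∧ Φ.B t t' = 0}) (fun b => b - a)
      (fun b hb => ⟨Sl_sub hb.1 ha, by rw [map_sub, hb.2, ha', sub_self]⟩)
      fun _ _ _ _ e => sub_left_injective e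
    have h3 := Set.ncard_union_eq (s := {t' | t' ∈ Sl Φ H x x' g ∧ Φ.B t t' = Φ.B v v'})
      (t := {t' | t' ∈ Sl Φ H x x' g ∧ Φ.B t t' = 0})
      (Set.disjoint_left.2 fun b hb hb' => h0 (hb.2.symm.trans hb'.2))
    have h4 := (Set.ncard_le_ncard (s := {t' | t' ∈ Sl Φ H x x' g ∧ Φ.B t t' = Φ.B v v'} ∪
      {t' | t' ∈ Sl Φ H x x' g ∧ Φ.B t t' = 0}) fun b hb => hb.elim (·.1) (·.1)).trans
      (ncard_Sl hx h (mem_Sx.1 hg).1)
    omega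

theorem IsSp.pair_any (hΦ : IsSp Φ) (h : Φ.B x x' = 1) {v v' : V} (hv : v ∈ pp Φ ⊤ x x')
    (hv' : v' ∈ pp Φ ⊤ x x') (hA : Φ.InA H x v) (hA' : Φ.InA H x v') (h0 : v ≠ 0)
    (h1 : ∀ t : F, v' ≠ t • v) : H.relIndex (Qx Φ x) * ((Nat.card F ^ (finrank F V - 3) -
      Nat.card F) * (Nat.card F ^ (finrank F V - 2) - 1)) ≤
      H.relIndex (Sx Φ x) * ((mb Φ H x - 1) * mb Φ H x) := by
  have hx := hΦ.hQ x
  have hx' := hΦ.hQ x'
  refine hΦ.pair h hv hv' hA hA' h0 h1 (fun u hu hu0 => ?_) fun g hg t =>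
    (Set.ncard_le_ncard fun _ h => h.1).trans (ncard_Sl hx h (mem_Sx.1 hg).1)
  have := ncard_fiber_eq _ _ ((nd_pp Φ.nd_top trivial trivial hx hx' h).exists_ne hu hu0) (Φ.B v v')
  rw [show finrank F V - 3 = finrank F (pp Φ ⊤ x x') - 1 by
    rw [← two_le_finrank h hx hx']; omega, ← this, Nat.sub_le_iff_le_add]
  refine le_trans (Set.ncard_le_ncard (t := _ ∪ (fun t : F => t • u) '' Set.univ) fun u' hu' => ?_)
    ((Set.ncard_union_le _ _).trans (Nat.add_le_add_left ?_ _))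
  · by_cases c : ∀ t : F, u' ≠ t • u
    · exact .inl ⟨hu'.1, hu'.2, c⟩
    · push Not at c
      obtain ⟨t, rfl⟩ := c
      exact .inr ⟨t, trivial, rfl⟩
  · rw [← Set.ncard_univ F]
    exact Set.ncard_image_le

theorem IsSp.cover_sp (hΦ : IsSp Φ) (h : Φ.B x x' = 1) {v : V} (hv : v ∈ pp Φ ⊤ x x')
    (hA : Φ.InA H x v) (h0 : v ≠ 0) : H.relIndex (Qx Φ x) * (Nat.card F ^ (finrank F V - 2) - 1) ≤
      H.relIndex (Sx Φ x) * (mb Φ H x - 1) := by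
  have hx := hΦ.hQ x
  have hx' := hΦ.hQ x'
  have hx0 : x ≠ 0 := fun c => by simp [c] at h
  have hD := nd_pp Φ.nd_top trivial trivial hx hx' h
  rw [show finrank F V - 2 = finrank F (pp Φ ⊤ x x') by rw [← two_le_finrank h hx hx']; simp,
    ← ncard_ne_zero_mem]
  refine count_in hx0 (Qx_le_Sx hx hx0) Sx_le_Px (fun g t => t ∈ Sl Φ H x x' g ∧ t ≠ 0) ?_ ?_ _
    (fun g hg => ncard_Sl_ne hx h (mem_Sx.1 hg).1) _ ?_
  · rintro g hg k hk hkH t ⟨⟨a2, w, hw, s, rfl⟩, a1⟩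
    have hk' := mem_Sx.1 ((Sx Φ x).inv_mem hk)
    have := hw.conj (H.inv_mem hkH) (Φ.EG_le_Iso hk'.2)
    rw [hk'.1] at this
    exact ⟨⟨a2, _, this, s, by rw [mul_app, app_inv_app]⟩, a1⟩
  · rintro g hg u hu t ⟨⟨a2, w, hw, s, rfl⟩, a1⟩
    obtain ⟨r, hr⟩ := hu.2.2 w hw.perp
    exact ⟨⟨a2, w, hw, s - r, by
      rw [mul_app, hr, map_add, map_smul, (mem_Sx.1 hg).1]; module⟩, a1⟩
  · rintro u ⟨a1, a2⟩
    obtain ⟨g, hg, e⟩ := hΦ.move (hasOn_GU _) hv a1 (hD.exists_ne hv h0) (hD.exists_ne a1 a2)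
    exact ⟨g, GU_pp_le_Sx hg, ⟨(mem_pp.1 a1).2.2, v, hA, 0, by simp [e]⟩, a2⟩

theorem exists_of_mb_ne_one (hx : Φ.Q x = 0) (hx' : Φ.Q x' = 0) (h : Φ.B x x' = 1)
    (h1 : mb Φ H x ≠ 1) : ∃ v ∈ pp Φ ⊤ x x', Φ.InA H x v ∧ v ≠ 0 := by
  obtain ⟨w, hw⟩ := not_forall.1 (mt (mb_eq_one hx fun c => by simp [c] at h).2 h1)
  obtain ⟨hw, hw'⟩ := Classical.not_imp.1 hw
  obtain ⟨v, hv, hA, s, rfl⟩ := exists_inA_pp hx hx' h hw
  exact ⟨v, hv, hA, fun c => hw' ⟨s, by simp [c]⟩⟩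

theorem mb_le_of_line (hx : Φ.Q x = 0) (hx' : Φ.Q x' = 0) (h : Φ.B x x' = 1) {v : V}
    (h1 : ∀ v' ∈ pp Φ ⊤ x x', Φ.InA H x v' → ∃ t : F, v' = t • v) : mb Φ H x ≤ Nat.card F := by
  refine Nat.le_of_mul_le_mul_right ?_ (Nat.card_pos (α := F))
  rw [← card_MA_eq hx fun c => by simp [c] at h, ← Set.ncard_univ F, ← Set.ncard_prod]
  refine ncard_le_of_rel (S := (MA Φ H x : Set V)) (fun m p => m = p.1 • v + p.2 • x)
    (fun m hm => ?_) fun _ _ _ _ _ e e' => e.trans e'.symm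
  obtain ⟨v', hv', hA, s, rfl⟩ := exists_inA_pp hx hx' h ((mem_MA hx).1 hm)
  obtain ⟨t, rfl⟩ := h1 v' hv' hA
  exact ⟨(t, s), ⟨trivial, trivial⟩, rfl⟩

theorem IsSp.mb_eq_one_odd (hΦ : IsSp Φ) (h6 : 6 ≤ finrank F V) (h2 : (2 : F) ≠ 0)
    (hN : (Nat.card F - 1) * H.relIndex Φ.EG < Nat.card F ^ finrank F V) (hT : ¬ Tv Φ H x) :
    mb Φ H x = 1 := by
  by_contra c
  have hx := hΦ.hQ x
  have hx0 : x ≠ 0 := fun c => hT (c ▸ tv_zero)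
  obtain ⟨x', hx', h⟩ := exists_partner_top hx hx0
  obtain ⟨v, hv, hA, hv0⟩ := exists_of_mb_ne_one hx hx' h c
  have a1 := hΦ.mb_mul_a (H := H) hx0
  have a2 := hΦ.three_le_jj hT h2
  have a3 := hΦ.jj_le (H := H) (x := x)
  have a4 := relIndex_le_EG (H := H) (S := Sx Φ x) inf_le_right
  have a5 := Nat.mul_le_mul_left (mb Φ H x) (hΦ.mb_le_abar h2 hT)
  rw [mb_mul_abar hx hx0] at a5
  obtain ⟨k, hk⟩ : ∃ k, finrank F V = k + 6 := ⟨_, (Nat.sub_add_cancel h6).symm⟩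
  obtain ⟨q, hq⟩ : ∃ q, Nat.card F = q + 3 := ⟨_, (Nat.sub_add_cancel (a2.trans a3)).symm⟩
  obtain ⟨Y, hY⟩ : ∃ Y, (q + 3) ^ k = Y + 1 := ⟨_, (Nat.sub_add_cancel (Nat.pow_pos (by omega))).symm⟩
  have hN' : 2 * H.relIndex Φ.EG ≤ 3 * (q + 3) * (q + 3) ^ (k + 4) := by
    rw [hq, hk, show k + 6 = k + 4 + 2 by omega, pow_add, show q + 3 - 1 = q + 2 from rfl] at hN
    refine Nat.le_of_mul_le_mul_left ?_ (show 0 < q + 2 by omega)
    generalize (q + 3) ^ (k + 4) = X at hN ⊢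
    nlinarith [Nat.zero_le (X * q * (q + 3))]
  have hX : 0 < (q + 3) ^ (k + 4) := Nat.pow_pos (by omega)
  have key : ∀ A B : ℕ, H.relIndex (Qx Φ x) * A ≤ H.relIndex (Sx Φ x) * B →
      2 * A ≤ (q + 3) * (mb Φ H x * B) := fun A B h1 => by
    rw [hq, hk, show k + 6 - 2 = k + 4 by omega] at a1
    refine Nat.le_of_mul_le_mul_left ?_ (Nat.mul_pos (show 0 < 3 by omega) hX)
    calc 3 * (q + 3) ^ (k + 4) * (2 * A) ≤ jj Φ H hΦ x * (q + 3) ^ (k + 4) * (2 * A) := by gcongr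
      _ = 2 * mb Φ H x * (H.relIndex (Qx Φ x) * A) := by rw [mul_comm (jj _ _ _ _), ← a1]; ring
      _ ≤ 2 * mb Φ H x * (H.relIndex Φ.EG * B) :=
        Nat.mul_le_mul_left _ (h1.trans (Nat.mul_le_mul_right _ a4))
      _ = 2 * H.relIndex Φ.EG * (mb Φ H x * B) := by ring
      _ ≤ 3 * (q + 3) * (q + 3) ^ (k + 4) * (mb Φ H x * B) := by gcongr
      _ = _ := by ring
  by_cases c2 : ∀ v' ∈ pp Φ ⊤ x x', Φ.InA H x v' → ∃ t : F, v' = t • v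
  · have b1 := mb_le_of_line hx hx' h c2
    have b2 := key _ _ (hΦ.cover_sp h hv hA hv0)
    rw [hq, hk, show k + 6 - 2 = k + 4 by omega, pow_add, hY] at b2
    rw [hq] at b1
    have b3 : mb Φ H x * (mb Φ H x - 1) ≤ (q + 3) * (q + 3) := Nat.mul_le_mul b1 (by omega)
    have b4 := b2.trans (Nat.mul_le_mul_left _ b3)
    have : (q + 3) ^ 4 ≤ (Y + 1) * (q + 3) ^ 4 := Nat.le_mul_of_pos_left _ (by omega)
    have : (q + 3) * ((q + 3) * (q + 3)) + 2 < 2 * (q + 3) ^ 4 := by nlinarith [sq_nonneg q]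
    omega
  · push Not at c2
    obtain ⟨v', hv', hA', c2⟩ := c2
    have b2 := key _ _ (hΦ.pair_any h hv hv' hA hA' hv0 c2)
    rw [hq, hk, show k + 6 - 2 = k + 4 by omega, show k + 6 - 3 = k + 3 by omega] at b2
    rw [hq, hk, show k + 6 - 2 = k + 4 by omega] at a5
    have b3 : mb Φ H x ≤ (q + 3) ^ (k + 2) := by
      refine Nat.le_of_not_lt fun c => ?_
      have := Nat.mul_lt_mul'' c c
      rw [← pow_add] at this
      exact absurd (this.trans_le a5) (not_lt.2 (Nat.pow_le_pow_right (by omega) (by omega)))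
    have b4 : mb Φ H x * ((mb Φ H x - 1) * mb Φ H x) ≤ ((q + 3) ^ (k + 4) - 1) * (q + 3) ^ (k + 2) := by
      rw [← mul_assoc]
      refine Nat.mul_le_mul ?_ b3
      have : 0 < mb Φ H x := Nat.pos_of_ne_zero fun c => by simp [c] at a1; omega
      rw [Nat.mul_sub_one]
      omega
    have b5 := b2.trans (Nat.mul_le_mul_left _ b4)
    have b6 : 0 < (q + 3) ^ (k + 4) - 1 := by
      have := Nat.one_lt_pow (a := q + 3) (n := k + 4) (by omega) (by omega)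
      omega
    have b7 : 2 * ((q + 3) ^ (k + 3) - (q + 3)) ≤ (q + 3) * (q + 3) ^ (k + 2) :=
      Nat.le_of_mul_le_mul_right (by nlinarith) b6
    rw [← pow_succ', pow_add, hY] at b7
    have : (q + 3) ^ 3 ≤ (Y + 1) * (q + 3) ^ 3 := Nat.le_mul_of_pos_left _ (by omega)
    have : 2 * (q + 3) < (q + 3) ^ 3 := by nlinarith [sq_nonneg q]
    omega

end Cfsg.Agent.Class.MinDegO
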