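import Mathlib
import Cfsg.Agent.Class.MinDegO.SpPair
import Cfsg.Agent.Class.MinDegO.OFin

/-!
Minimal degree of symplectic groups in dimension at least six over fields with at least three
elements.
-/

set_option autoImplicit false
set_option linter.unusedSectionVars false

namespace Cfsg.Agent.Class.MinDegO

open Module Cfsg.Agent.Class.Max Cfsg.Agent.Class.Max.Fm

theorem two_mul_pow_le_ob_self {q k j : ℕ} (hq : 2 ≤ q) (hj : 1 ≤ j) (hk : 2 * j ≤ k)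
    (h4 : 4 ≤ k) : 2 * q ^ j ≤ ob q q k j := by
  obtain ⟨j, rfl⟩ : ∃ i, j = i + 1 := ⟨_, (Nat.sub_add_cancel hj).symm⟩
  refine le_trans ?_ (le_ob_succ k j)
  rw [← pow_succ']
  rcases j with _ | j
  · calc 2 * q ^ (0 + 1) ≤ q ^ 2 := by rw [zero_add, pow_one]; nlinarith
      _ ≤ q ^ (k - 2 - 0 + 1) := Nat.pow_le_pow_right (by omega) (by omega)
      _ = _ := (mul_one _).symm
  · rw [mul_comm]
    refine Nat.mul_le_mul (Nat.pow_le_pow_right (by omega) (by omega))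
      (le_trans ?_ (le_ob_succ _ j))
    exact hq.trans ((Nat.le_mul_of_pos_right _ (Nat.pow_pos (by omega))).trans
      (Nat.le_mul_of_pos_right _ (ob_pos (by omega) (by omega) _ _)))

variable {F V : Type*} [Field F] [AddCommGroup V] [Module F V] {Φ : Fm F V}
  [Finite F] [Finite V] [FiniteDimensional F V] {H : Subgroup (V ≃ₗ[F] V)} {x x' y z : V}

theorem IsSp.not_tv_of_good (hΦ : IsSp Φ) (h2 : (2 : F) = 0) (hq : 3 ≤ Nat.card F)
    (g : Good Φ H x z) : ¬ Tv Φ H z := fun hT => by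
  have hε := hΦ.eps_two h2
  obtain ⟨β, b0, b1⟩ := exists_ne_zero_ne hq (1 : F)
  have key : ∀ β d : F, RR Φ H x ((-(d * β)) • z) (β * β * d) := fun β d => by
    obtain ⟨m, c, hm, rfl⟩ := g.surj β
    exact (hm.closure hΦ.hσ hε ⟨hΦ.valid (map_zero _) d, hT d⟩ g.perp (map_zero _)).congr
      (by simp) rfl
  refine sub_ne_zero.2 b1 (mul_left_cancel₀ b0 ?_)
  rw [mul_zero]
  exact g.eq_zero fun t => ((key β t).sub (key 1 (β * β * t))).congr (by module)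
    (by simp [Φ.bsimp, hΦ.self])

theorem IsSp.jj_eq (hΦ : IsSp Φ) (h : ∀ c, Φ.HasE H x 0 c → c = 0) : jj Φ H hΦ x = Nat.card F := by
  rw [jj, show R0 Φ H hΦ x = ⊥ from eq_bot_iff.2 h, AddSubgroup.index_bot]

theorem IsSp.even_main (hΦ : IsSp Φ) (h6 : 6 ≤ finrank F V) (h2 : (2 : F) = 0)
    (hN : H.relIndex Φ.EG < 2 * Nat.card F ^ (finrank F V - 1)) (hx0 : x ≠ 0)
    (hF : ¬ Φ.Full H x) (hmin : ∀ z, Good Φ H x z → Nat.card (RS Φ H x) ≤ Nat.card (RS Φ H z))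
    (h1 : 2 * Nat.card F ≤ mb Φ H x)
    (h3 : 3 ≤ Nat.card F ∨ Nat.card F ^ 4 < 2 * Nat.card (RS Φ H x)) : False := by
  have hx := hΦ.hQ x
  have hq := one_lt_card_field (F := F)
  have m3 := mb_mul_abar (H := H) hx hx0
  have m4 := card_RS_eq_mb (H := H) hx hx0
  have a1 : 2 * abar Φ H x ≤ Nat.card F ^ (finrank F V - 4) * lam Φ := by
    rw [show finrank F V - 2 = finrank F V - 4 + 2 by omega, pow_add] at m3
    rw [hΦ.lam_eq]
    exact Nat.le_of_mul_le_mul_right (by nlinarith) (show 0 < Nat.card F by omega)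
  obtain ⟨S, hT, hS⟩ := sym_main hΦ.hσ (hΦ.eps_two h2) (by rw [hΦ.hd]; omega) hx hx0 hF hmin
    (.inl a1) (by
      by_cases c : Nat.card F ^ 4 < 2 * Nat.card (RS Φ H x)
      · exact .inr (.inl c)
      refine .inr (.inr ⟨h3.resolve_right c, ?_, a1, (not_lt.1 c).trans ?_⟩)
      · have := Nat.le_mul_of_pos_right (mb Φ H x * Nat.card F) (r0_pos (Φ := Φ) (H := H) (x := x))
        nlinarith
      · rw [hΦ.lam_eq, ← pow_succ, ← pow_succ]
        exact Nat.pow_le_pow_right (by omega) (by omega))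
  have hS' : ∀ w, Φ.InA H x w ↔ w ∈ S := fun w =>
    ⟨fun ⟨c, h⟩ => ((hS w c).1 h).1, fun h => ((hS w 0).2 ⟨h, rfl⟩).inA⟩
  obtain ⟨c1, c2⟩ := sigma_card hx hx0 hS'
  have c3 := hT.two_mul_le
  have c4 : 1 ≤ finrank F S - 1 := (Nat.pow_le_pow_iff_right hq).1 (by rw [← c1, pow_one]; omega)
  have c5 := (sigma_bound hx hx0 hT hS').trans
    (relIndex_le_EG (H := H) (S := Px Φ x) inf_le_right)
  have m5 := hΦ.mb_mul_a (H := H) hx0
  rw [hΦ.jj_eq fun c h => ((hS 0 c).1 ⟨hΦ.valid (map_zero _) c, h⟩).2, c1, ← pow_succ,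
    show finrank F V - 2 + 1 = finrank F V - 1 by omega] at m5
  have := two_mul_pow_le_ob_self hq c4 (k := finrank F V - 2) (by omega) (by omega)
  rw [hΦ.lam_eq] at c5
  nlinarith

/-- The basic inequality for a point with nontrivial vector parts. -/
theorem IsSp.cover_N (hΦ : IsSp Φ) (hx0 : x ≠ 0) (h1 : mb Φ H x ≠ 1) :
    Nat.card F ^ (finrank F V - 2) * jj Φ H hΦ x * (Nat.card F ^ (finrank F V - 2) - 1) ≤
      H.relIndex (Sx Φ x) * (mb Φ H x * (mb Φ H x - 1)) := by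
  obtain ⟨x', hx', h⟩ := exists_partner_top (hΦ.hQ x) hx0
  obtain ⟨v, hv, hA, hv0⟩ := exists_of_mb_ne_one (hΦ.hQ x) hx' h h1
  rw [← hΦ.mb_mul_a hx0, mul_assoc, mul_left_comm (H.relIndex (Sx Φ x))]
  exact Nat.mul_le_mul_left _ (hΦ.cover_sp h hv hA hv0)

theorem four_le_card (h2 : (2 : F) = 0) (hq : 3 ≤ Nat.card F) : 4 ≤ Nat.card F := by
  by_contra c
  exact two_ne_zero_of_odd (F := F) (by rw [show Nat.card F = 3 by omega]; decide) h2

theorem lt_two_mul_pow {q N n : ℕ} (hq : 2 ≤ q) (hn : 1 ≤ n) (h : (q - 1) * N < q ^ n) :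
    N < 2 * q ^ (n - 1) := by
  refine lt_two_mul_of_lt h ?_
  obtain ⟨n, rfl⟩ : ∃ k, n = k + 1 := ⟨_, (Nat.sub_add_cancel hn).symm⟩
  obtain ⟨q, rfl⟩ : ∃ k, q = k + 1 := ⟨_, (Nat.sub_add_cancel (by omega)).symm⟩
  simp only [Nat.add_sub_cancel, pow_succ]
  nlinarith [Nat.mul_le_mul_left ((q + 1) ^ n) (show 1 ≤ q by omega)]

theorem exists_min_not_tv (h : ¬ ∀ e, Tv Φ H e) : ∃ x, ¬ Tv Φ H x ∧
    ∀ y, ¬ Tv Φ H y → Nat.card (RS Φ H x) ≤ Nat.card (RS Φ H y) :=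
  Set.exists_min_image {x | ¬ Tv Φ H x} (fun x => Nat.card (RS Φ H x)) (Set.toFinite _)
    (not_forall.1 h)

theorem IsSp.six (hΦ : IsSp Φ) (h6 : 6 ≤ finrank F V) (hq : 3 ≤ Nat.card F) (hH : H ≤ Φ.EG)
    (hE : ¬ Φ.EG ≤ H) (hN : (Nat.card F - 1) * H.relIndex Φ.EG < Nat.card F ^ finrank F V) :
    ns Φ ≤ (Nat.card F - 1) * H.relIndex Φ.EG := by
  obtain ⟨x, hT, hmin⟩ := exists_min_not_tv (mt hΦ.EG_le hE)
  have hx0 : x ≠ 0 := fun c => hT (c ▸ tv_zero)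
  suffices h : mb Φ H x = 1 by
    by_cases c : Nat.card F = 3
    · exact hΦ.alpha_three h6 c hH hN hT h
    · exact hΦ.alpha (by omega) (by omega) hH hN hT h
  by_cases h2 : (2 : F) = 0
  swap
  · exact hΦ.mb_eq_one_odd h6 h2 hN hT
  by_contra h1
  have hN' := lt_two_mul_pow (by omega) (by omega) hN
  refine hΦ.even_main h6 h2 hN' hx0 (fun h => hT fun c => h 0 c (hΦ.valid (map_zero _) c))
    (fun z g => hmin z (hΦ.not_tv_of_good h2 hq g)) ?_ (.inl hq)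
  by_contra c
  have a1 := (hΦ.cover_N hx0 h1).trans (Nat.mul_le_mul (relIndex_le_EG inf_le_right)
    (Nat.mul_le_mul (not_le.1 c).le (Nat.sub_le_sub_right (not_le.1 c).le 1)))
  have a2 := Nat.mul_le_mul_right (Nat.card F ^ (finrank F V - 2) - 1)
    (Nat.mul_le_mul_left (Nat.card F ^ (finrank F V - 2)) (hΦ.two_le_jj hT))
  have a3 : Nat.card F ^ 4 ≤ Nat.card F ^ (finrank F V - 2) :=
    Nat.pow_le_pow_right (by omega) (by omega)
  have h4 := four_le_card h2 hq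
  rw [show finrank F V - 1 = finrank F V - 2 + 1 by omega, pow_succ] at hN'
  generalize Nat.card F ^ (finrank F V - 2) = X at *
  generalize Nat.card F = q at *
  have a4 := (a2.trans a1).trans (Nat.mul_le_mul_right _ hN'.le)
  have a0 : 0 < q ^ 4 := by positivity
  have a5 : X - 1 ≤ q * (2 * q * (2 * q - 1)) :=
    Nat.le_of_mul_le_mul_left (by nlinarith) (show 0 < X * 2 by omega)
  obtain ⟨r, hr⟩ : ∃ r, 2 * q = r + 1 := ⟨_, (Nat.sub_add_cancel (by omega)).symm⟩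
  have a6 : q * (2 * q * r) + 2 * q * q = 4 * q ^ 3 := by
    rw [show q * (2 * q * r) + 2 * q * q = 2 * q * q * (r + 1) by ring, ← hr]; ring
  rw [show 2 * q - 1 = r by omega] at a5
  have a7 : 4 * q ^ 3 ≤ q ^ 4 := by rw [pow_succ' q 3]; gcongr
  have : 2 ≤ 2 * q * q := by nlinarith
  omega

end Cfsg.Agent.Class.MinDegO
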