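import Mathlib
import Cfsg.Agent.Class.MinDegO.SpMain

/-!
Minimal degree of symplectic groups in dimension four.
-/

set_option autoImplicit false
set_option linter.unusedSectionVars false

namespace Cfsg.Agent.Class.MinDegO

open Module Cfsg.Agent.Class.Max Cfsg.Agent.Class.Max.Fm

variable {F V : Type*} [Field F] [AddCommGroup V] [Module F V] {Φ : Fm F V}
  [Finite F] [Finite V] [FiniteDimensional F V] {H : Subgroup (V ≃ₗ[F] V)} {x x' y z : V}

theorem finrank_span_pair_eq (hx0 : x ≠ 0) (hn : ∀ t : F, z ≠ t • x) :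
    finrank F (Submodule.span F {x, z}) = 2 := by
  have := finrank_span_eq_card
    ((LinearIndependent.pair_iff' hx0).2 fun t e => hn t e.symm)
  rwa [Matrix.range_cons_cons_empty] at this

theorem IsSp.perp_pair (hΦ : IsSp Φ) (h4 : finrank F V = 4) (hx0 : x ≠ 0) (hn : ∀ t : F, z ≠ t • x)
    (hxz : Φ.B x z = 0) {w : V} (h1 : Φ.B x w = 0) (h2 : Φ.B z w = 0) :
    ∃ a b : F, w = a • x + b • z := by
  have key : ∀ w, Φ.B x w = 0 → Φ.B z w = 0 → w ∈ Φ.perp (Submodule.span F {x, z}) :=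
    fun w h1 h2 => Φ.mem_perp.2 fun v hv => by
      obtain ⟨a, b, rfl⟩ := Submodule.mem_span_pair.1 hv
      simp [h1, h2]
  have h3 := Φ.finrank_add_perp (Submodule.span F {x, z})
  have h5 := finrank_span_pair_eq hx0 hn
  have h6 := Submodule.eq_of_le_of_finrank_eq (S₁ := Submodule.span F {x, z})
    (S₂ := Φ.perp (Submodule.span F {x, z})) (Submodule.span_le.2 (by
      rintro v (rfl | rfl)
      · exact key _ (hΦ.self _) (Φ.perp_symm hxz)
      · exact key _ hxz (hΦ.self _))) (by omega)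
  obtain ⟨a, b, e⟩ := Submodule.mem_span_pair.1 (h6.ge (key w h1 h2))
  exact ⟨a, b, e.symm⟩

theorem IsSp.four_big (hΦ : IsSp Φ) (h4 : finrank F V = 4) (h2 : (2 : F) = 0) (hq : 3 ≤ Nat.card F)
    (hH : H ≤ Φ.EG) (hN : (Nat.card F - 1) * H.relIndex Φ.EG < Nat.card F ^ 4) (hT : ¬ Tv Φ H x)
    (hmin : ∀ y, ¬ Tv Φ H y → Nat.card (RS Φ H x) ≤ Nat.card (RS Φ H y))
    (h1 : 2 * Nat.card F ≤ mb Φ H x) : False := by
  have := finite_equiv (F := F) (V := V)
  have hx := hΦ.hQ x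
  have hx0 : x ≠ 0 := fun c => hT (c ▸ tv_zero)
  have hε := hΦ.eps_two h2
  have hσ := hΦ.hσ
  have m3 := mb_mul_abar (H := H) hx hx0
  obtain ⟨z, g⟩ := exists_good (H := H) hσ hε (by rw [hΦ.hd]; omega) hx hx0
    (fun h => hT fun c => h 0 c (hΦ.valid (map_zero _) c)) (.inl (by
      rw [h4, show 4 - 2 = 2 from rfl] at m3
      rw [h4, hΦ.lam_eq, Nat.sub_self, pow_zero]
      exact Nat.le_of_mul_le_mul_right (by nlinarith) (show 0 < Nat.card F by omega)))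
  have hm := hmin z (hΦ.not_tv_of_good h2 hq g)
  obtain ⟨m₁, c₁, hm₁, e₁⟩ := g.surj 1
  have hxz := g.perp
  have hzx := Φ.perp_symm hxz
  have hn : ∀ w, Φ.B x w = 0 → Φ.B z w = 0 → ∃ a b : F, w = a • x + b • z := fun w =>
    hΦ.perp_pair h4 hx0 (fun t e => by simp [e, hm₁.1.perp] at e₁) g.perp
  have hC : ∀ w c, RR Φ H x w c → Φ.B z w = 0 → c = 0 := fun w c h hw => by
    obtain ⟨a, b, rfl⟩ := hn w h.1.perp hw
    have key : ∀ β t : F, RR Φ H x ((-(t * t * c * β)) • z) (β * β * (t * t * c)) := fun β t => by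
      obtain ⟨m, c', hm', rfl⟩ := g.surj β
      refine ((g.main hσ hε hx hx0 hm h hw hm' t).add_self hσ hε
        (-(Φ.B z m * t * a))).congr ?_ rfl
      simp only [Φ.bsimp, hσ, hm'.1.perp]
      module
    obtain ⟨β, b0, b1⟩ := exists_ne_zero_ne hq (1 : F)
    have h3 : c * (β * (β - 1)) = 0 := g.eq_zero fun t => by
      obtain ⟨s, rfl⟩ := FiniteField.isSquare_of_char_two (F := F)
        (CharP.ringChar_of_prime_eq_zero Nat.prime_two h2) t
      exact ((key β s).sub (key 1 (β * s))).congr (by module) (by simp [Φ.bsimp, hΦ.self]; ring)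
    simpa [b0, sub_ne_zero.2 b1] using h3
  let L : AddSubgroup F :=
    { carrier := LL Φ H x z
      zero_mem' := (rr_zero hx).congr (by simp) rfl
      add_mem' := fun ha hb => (RR.add ha hb).congr (by module) (by simp [hΦ.self])
      neg_mem' := fun ha => (RR.neg ha).congr (by module) (by simp) }
  have hL : L ≠ ⊤ := fun c => g.nl.elim fun t ht => ht (c ▸ AddSubgroup.mem_top t : t ∈ L)
  have a1 := g.card_le hσ hε hx hx0 hm (fun w h => hn w h.1.perp) {0} hC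
  have a2 : (LL Φ H x z).ncard * L.index = Nat.card F := L.card_mul_index
  have a3 := card_RS_mul (H := H) hx hx0
  have a4 := card_RS_eq_mb (H := H) hx hx0
  have hQP := (Qx_le_Sx hx hx0).trans (Sx_le_Px (Φ := Φ))
  have hnorm := fun g hg u hu => conj_mem_Qx (Φ := Φ) (g := g) (u := u) hx0 hg hu
  have a5 := cover ((H ⊓ Px Φ x) ⊔ Qx Φ x) (Px Φ x) (fun g (p : F × F) =>
    ∃ k ∈ (H ⊓ Px Φ x) ⊔ Qx Φ x, (g * k) x = p.2 • x ∧
      ∀ w, Φ.B x w = 0 → ∃ r : F, (g * k) w = w + (p.1 * Φ.B z w) • z + r • x) (by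
      rintro g - k - hk t ⟨l, hl, e⟩
      exact ⟨k⁻¹ * l, Subgroup.mul_mem _ (Subgroup.inv_mem _ hk) hl, by
        rwa [mul_assoc, mul_inv_cancel_left]⟩) (L.index - 1) (fun g _ => ?_)
      (Set.univ ×ˢ {t | t ≠ 0}) fun p hp => ?_
  · have a6 := relIndex_le_EG (H := H) (S := Px Φ x) inf_le_right
    rw [relIndex_split H _ _ hQP hnorm] at a6
    rw [Set.ncard_prod, Set.ncard_univ, ncard_ne_zero_field] at a5
    rw [h4, hΦ.lam_eq] at a3
    rw [Set.ncard_singleton] at a1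
    have a7 := Nat.le_mul_of_pos_right (mb Φ H x * Nat.card F) (r0_pos (Φ := Φ) (H := H) (x := x))
    have a8 : 1 < L.index := AddSubgroup.one_lt_index_of_ne_top hL
    generalize ((H ⊓ Px Φ x) ⊔ Qx Φ x).relIndex (Px Φ x) = ρ at *
    generalize (LL Φ H x z).ncard = l at *
    generalize H.relIndex (Qx Φ x) = a at *
    obtain ⟨j, hj⟩ : ∃ j, L.index = j + 1 := ⟨_, (Nat.sub_add_cancel (by omega)).symm⟩
    obtain ⟨q, hq'⟩ : ∃ q, Nat.card F = q + 1 := ⟨_, (Nat.sub_add_cancel (by omega)).symm⟩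
    simp only [hj, hq', Nat.add_sub_cancel] at *
    have b1 : 2 ≤ l := Nat.le_of_mul_le_mul_right (by nlinarith)
      (show 0 < (q + 1) * (q + 1) by positivity)
    have b2 : (q + 1) * (j + 1) ≤ a := Nat.le_of_mul_le_mul_right (by
      calc (q + 1) * (j + 1) * (l * ((q + 1) * (q + 1))) = (q + 1) ^ 3 * (l * (j + 1)) := by ring
        _ = Nat.card (RS Φ H x) * a := by rw [a2, a3]
        _ ≤ 1 * ((q + 1) * l) * (q + 1) * a := by gcongr
        _ = _ := by ring) (show 0 < l * ((q + 1) * (q + 1)) by positivity)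
    have b3 : (q + 1) * (j + 1) * ((q + 1) * q) * q < (q + 1) ^ 4 * j :=
      calc _ ≤ a * (ρ * j) * q := by gcongr
        _ = q * (a * ρ) * j := by ring
        _ ≤ q * H.relIndex Φ.EG * j := by gcongr
        _ < _ := Nat.mul_lt_mul_of_pos_right hN (by omega)
    have b4 : (j + 1) * (q * q) < (q + 1) ^ 2 * j :=
      Nat.lt_of_mul_lt_mul_left (a := (q + 1) ^ 2) (by nlinarith)
    nlinarith
  · rcases Set.eq_empty_or_nonempty {p : F × F | ∃ k ∈ (H ⊓ Px Φ x) ⊔ Qx Φ x,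
      (g * k) x = p.2 • x ∧ ∀ w, Φ.B x w = 0 → ∃ r : F,
        (g * k) w = w + (p.1 * Φ.B z w) • z + r • x} with h0 | ⟨p₀, hp₀⟩
    · exact (congrArg Set.ncard h0).trans_le (by simp)
    have key : ∀ p p' : F × F, (∃ k ∈ (H ⊓ Px Φ x) ⊔ Qx Φ x, (g * k) x = p.2 • x ∧
        ∀ w, Φ.B x w = 0 → ∃ r : F, (g * k) w = w + (p.1 * Φ.B z w) • z + r • x) →
        (∃ k ∈ (H ⊓ Px Φ x) ⊔ Qx Φ x, (g * k) x = p'.2 • x ∧
        ∀ w, Φ.B x w = 0 → ∃ r : F, (g * k) w = w + (p'.1 * Φ.B z w) • z + r • x) →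
        p.2 ≠ 0 ∧ ∀ w c, RR Φ H x w c → RR Φ H x ((p'.2 * p.2⁻¹) •
          (w + ((p'.1 - p.1) * Φ.B z w) • z)) (p'.2 * p.2⁻¹ * (p'.2 * p.2⁻¹) * c) := by
      rintro p p' ⟨k, hk, e1, e2⟩ ⟨k', hk', e1', e2'⟩
      have ht := smul_ne_of_eq hx0 e1
      refine ⟨ht, fun w c h => ?_⟩
      obtain ⟨l, hl, -, u, hu, e⟩ := mem_sup_of_normal hQP hnorm
        (Subgroup.mul_mem _ (Subgroup.inv_mem _ hk) hk')
      have e3 : ∀ v, (g * k) (l (u v)) = (g * k') v := fun v => by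
        rw [← mul_app l, ← e, ← mul_app, mul_assoc, mul_inv_cancel_left]
      obtain ⟨r, hr⟩ := hu.2.2 w h.1.perp
      obtain ⟨r₁, hr₁⟩ := e2' w h.1.perp
      obtain ⟨r₂, hr₂⟩ := e2 (w + ((p'.1 - p.1) * Φ.B z w) • z) (by simp [h.1.perp, hxz])
      have b1 := (h.add_self hσ hε r).conj hl (Φ.EG_le_Iso (hH hl))
      have b2 : l x = (p'.2 * p.2⁻¹) • x := (g * k).injective (by
        rw [map_smul, e1, smul_smul, inv_mul_cancel_right₀ ht, ← e1', ← e3, hu.2.1])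
      have b3 : l (w + r • x) = w + ((p'.1 - p.1) * Φ.B z w) • z + ((r₁ - r₂) * p.2⁻¹) • x :=
        (g * k).injective (by
          rw [← hr, e3, hr₁, map_add, hr₂, map_smul, e1, smul_smul, inv_mul_cancel_right₀ ht]
          simp only [Φ.bsimp, hΦ.self]
          module)
      rw [b2, b3] at b1
      have b4 := hasE_smul_left.1 b1.2
      rw [hσ] at b4
      exact (RR.add_self hσ hε ⟨hΦ.valid (by simp [h.1.perp, hxz, hΦ.self]) _, b4⟩
        (-(p'.2 * p.2⁻¹ * ((r₁ - r₂) * p.2⁻¹)))).congr (by module) rfl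
    refine le_trans (Set.ncard_le_ncard_of_injOn (fun p => p.2 * p₀.2⁻¹) (fun p hp => ?_)
      fun p hp p' hp' e => ?_) (Nat.le_sub_one_of_lt (ncard_mult_le L hL))
    · refine ⟨mul_ne_zero (key p p hp hp).1 (inv_ne_zero (key p₀ p₀ hp₀ hp₀).1), fun c hc => ?_⟩
      exact ((key p₀ p hp₀ hp).2 _ _ hc).congr (by simp [hΦ.self, smul_smul]) (by simp)
    · have e := mul_right_cancel₀ (inv_ne_zero (key p₀ p₀ hp₀ hp₀).1) e
      have b1 := (key p p' hp hp').2 _ _ hm₁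
      rw [← e, mul_inv_cancel₀ (key p p hp hp).1, one_smul, e₁] at b1
      have b2 := hC _ _ (b1.sub hm₁) (by simp [hΦ.self])
      exact Prod.ext (by simpa [e₁, hσ, sub_eq_zero, eq_comm] using b2) e
  · obtain ⟨x', -, h⟩ := exists_partner_top hx hx0
    obtain ⟨k, hk, h⟩ := exists_tor_alt hΦ.hQ h hp.2
    have e1 : ((hΦ.valid (e := z) (map_zero _) p.1).eich * k) x = p.2 • x := by
      simp [mul_app, h.1, Valid.eich_apply, hΦ.ef_zero, hzx]
    refine ⟨_, mem_Px.2 ⟨⟨_, e1⟩, Subgroup.mul_mem _ (Valid.eich_mem _) hk⟩, 1,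
      Subgroup.one_mem _, by rwa [mul_one], fun w hw => (h.2 w hw).imp fun r hr => ?_⟩
    simp only [mul_one, mul_app, hr, Valid.eich_apply, hΦ.ef_zero, Φ.bsimp, hzx]
    module

theorem IsSp.four_line (hΦ : IsSp Φ) (h4 : finrank F V = 4) (hq : 4 ≤ Nat.card F)
    (hH : H ≤ Φ.EG) (hN : (Nat.card F - 1) * H.relIndex Φ.EG < Nat.card F ^ 4) (hT : ¬ Tv Φ H x)
    (h : Φ.B x x' = 1) {v : V} (hv : v ∈ pp Φ ⊤ x x') (hv0 : v ≠ 0) (hA : Φ.InA H x v)
    (h1 : mb Φ H x = Nat.card F) (h2 : ∀ v' ∈ pp Φ ⊤ x x', Φ.InA H x v' → Φ.B v v' = 0) :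
    ns Φ ≤ (Nat.card F - 1) * H.relIndex Φ.EG := by
  have := finite_equiv (F := F) (V := V)
  have hx := hΦ.hQ x
  have hx' := hΦ.hQ x'
  have hx0 : x ≠ 0 := fun c => hT (c ▸ tv_zero)
  have hd : Φ.d + 2 ≤ finrank F V := by rw [hΦ.hd]; omega
  have hxv := (mem_pp.1 hv).2.1
  have hvx := Φ.perp_symm hxv
  have hn : ∀ t : F, v ≠ t • x := fun t e => hv0 (by
    have := (mem_pp.1 hv).2.2
    rw [e, map_smul, hΦ.skew, h] at this
    simp [e, show t = 0 by simpa using this])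
  have hS : ∀ w, Φ.InA H x w ↔ w ∈ Submodule.span F {x, v} := fun w => by
    have := AddSubgroup.eq_of_le_of_card_ge (H := MA Φ H x)
      (K := (Submodule.span F {x, v}).toAddSubgroup) (fun w hw => by
        obtain ⟨d, hd, hd', s, rfl⟩ := exists_inA_pp hx hx' h ((mem_MA hx).1 hw)
        obtain ⟨a, b, e⟩ := hΦ.perp_pair h4 hx0 hn hxv ((mem_MA hx).1 hw).perp
          (by simp [h2 d hd hd', hvx])
        exact Submodule.mem_span_pair.2 ⟨a, b, e.symm⟩) (by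
        rw [card_MA_eq hx hx0, h1, ← sq, ← finrank_span_pair_eq hx0 hn, ← card_submodule]
        exact le_rfl)
    rw [← mem_MA hx, this]
    rfl
  have hSS : ∀ a ∈ Submodule.span F {x, v}, ∀ b ∈ Submodule.span F {x, v}, Φ.B a b = 0 :=
    fun a ha b hb => by
      obtain ⟨_, _, rfl⟩ := Submodule.mem_span_pair.1 ha
      obtain ⟨_, _, rfl⟩ := Submodule.mem_span_pair.1 hb
      simp [hxv, hvx, hΦ.self]
  have hvS := (hS v).1 hA
  have a1 := mb_mul_abar (H := H) hx hx0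
  rw [h1, h4, show 4 - 2 = 2 from rfl, sq] at a1
  have a2 := Nat.eq_of_mul_eq_mul_left Nat.card_pos a1
  obtain ⟨f, hf, -, hvf⟩ := exists_partner hv (hΦ.hQ v)
    ((nd_pp Φ.nd_top trivial trivial hx hx' h).exists_ne hv hv0)
  have hfv : Φ.B f v = -1 := by rw [hΦ.skew, hvf]
  have a3 := cover (stab (Submodule.span F {x, v})) (Sx Φ x)
    (fun g (d : F) => g ∈ Sx Φ x ∧ g⁻¹ (v + d • f) ∈ Submodule.span F {x, v})
    (fun g hg k hk hk' d hd => ⟨Subgroup.mul_mem _ hg hk, by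
      rw [mul_inv_rev, mul_app]; exact (Subgroup.inv_mem _ hk' _).1 hd.2⟩) 1
    (fun g hg => (Set.ncard_le_one (Set.toFinite _)).2 fun a ha b hb => by
      have := hSS _ ha.2 _ hb.2
      rw [Iso.B (Φ.EG_le_Iso (Subgroup.inv_mem _ hg).2)] at this
      simp only [Φ.bsimp, hΦ.self, hΦ.hσ, hvf, hfv] at this
      linear_combination -this) Set.univ fun d _ => by
      have b1 : (hΦ.valid (e := f) (map_zero _) (-d)).eich ∈ Sx Φ x := mem_Sx.2
        ⟨ef_apply_of_perp (Φ.perp_symm (mem_pp.1 hf).2.1) (by simp), Valid.eich_mem _⟩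
      refine ⟨_, b1, b1, ?_⟩
      rwa [show v + d • f = (hΦ.valid (e := f) (map_zero _) (-d)).eich v by
        simp [Valid.eich_apply, hΦ.ef_zero, hfv], inv_app_app]
  rw [Set.ncard_univ, mul_one] at a3
  obtain ⟨y, hy, h3⟩ := hΦ.sub_torus (by omega) hq hH (by rwa [h4]) hx0 hT hS (by
    rw [h4, a2, show 4 - 2 = 2 from rfl, sq]; gcongr)
  have hyx : Φ.B y x = -1 := by rw [hΦ.skew, hy]
  have huS : v + Φ.B y v • x ∈ Submodule.span F {x, v} :=
    Submodule.mem_span_pair.2 ⟨Φ.B y v, 1, by module⟩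
  have hu := h3 (v + Φ.B y v • x) (mem_pp.2 ⟨trivial, by simp [hxv, hΦ.self], by simp [hyx]⟩) fun c w hw => by
    rwa [ef_apply_of_perp (hSS _ huS w hw) (by simp)]
  have hu0 : v + Φ.B y v • x ≠ 0 := fun c => hn (-Φ.B y v) (by linear_combination (norm := module) c)
  generalize v + Φ.B y v • x = u at hu hu0
  have a4 := hΦ.cover_sp h hv hA hv0
  have a5 : H.relIndex (Sx Φ x) ≤ H.relIndex (Px Φ x) :=
    Subgroup.relIndex_le_of_le_right Sx_le_Px (relIndex_ne_zero _ _)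
  rw [hΦ.a_eq hx0, a2, h1, h4, show 4 - 2 = 2 from rfl] at a4
  have fin : ∀ Y : Set V, (∀ g ∈ H, ∀ t : F, t ≠ 0 → t • g x ∈ Y) →
      Y.ncard ≤ Nat.card F * jj Φ H hΦ x * (Nat.card F ^ 2 - 1) →
      ns Φ ≤ (Nat.card F - 1) * H.relIndex Φ.EG := fun Y h1 h2 =>
    ns_le_of_orbit hd hH hx hx0 (Nat.le_of_mul_le_mul_left ((mul_orbit_le hH hx0 Y h1).trans
      (h2.trans (a4.trans (by rw [mul_comm]; gcongr)))) (by omega))
  have hI := fun g hg => Φ.EG_le_Iso (hH (x := g) hg)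
  obtain ⟨X, hX⟩ : ∃ X, Nat.card F ^ 2 = X + 1 := 
    ⟨_, (Nat.sub_add_cancel (Nat.pow_pos (by omega))).symm⟩
  have hX' : 15 ≤ X := by nlinarith
  by_cases c : ∀ c, Φ.HasE H x 0 c → c = 0
  swap
  · push Not at c
    obtain ⟨c, hc, c0⟩ := c
    refine fin (LinearMap.ker (Φ.B u)) (fun g hg t _ => Submodule.smul_mem _ _ (Φ.perp_symm ?_)) ?_
    · by_contra c2
      refine hT (hΦ.tv_of_center c0 hc (hu.conj (H.inv_mem hg) (hI _ (H.inv_mem hg))) ?_)
      rwa [Iso.B_inv (hI g hg)]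
    · have b1 := finrank_ker_B (Φ := Φ) hu0
      refine (card_submodule _).le.trans ?_
      rw [show finrank F (LinearMap.ker (Φ.B u)) = 2 + 1 by omega, pow_succ, hX, Nat.add_sub_cancel]
      nlinarith [Nat.mul_le_mul_right (Nat.card F * X) (hΦ.two_le_jj hT)]
  rw [hΦ.jj_eq c, ← sq, hX, Nat.add_sub_cancel] at fin
  have hW : ∀ a b : V, a ≠ 0 → (∀ t : F, b ≠ t • a) →
      (Submodule.span F {a, b} : Set V).ncard = X + 1 ∧
      (Submodule.span F {a, b} : Set V)ᶜ.ncard = (X + 1) * X := fun a b ha hb => by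
    have b1 : (Submodule.span F {a, b} : Set V).ncard = X + 1 := by
      rw [← hX, ← finrank_span_pair_eq ha hb, ← card_submodule]; rfl
    have b2 := Set.ncard_add_ncard_compl (Submodule.span F {a, b} : Set V)
    rw [b1, Module.natCard_eq_pow_finrank (K := F), h4, show 4 = 2 * 2 from rfl, pow_mul, hX] at b2
    exact ⟨b1, by nlinarith⟩
  have nT : ∀ g ∈ H, ∀ t : F, t ≠ 0 → ¬ Tv Φ H (t • g x) := fun g hg t ht c => hT (by
    simpa using (c.of_smul ht).conj (H.inv_mem hg) (hI _ (H.inv_mem hg)))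
  by_cases c2 : ∀ a b, Tv Φ H a → Tv Φ H b → Φ.B a b = 0
  swap
  · push Not at c2
    obtain ⟨a, b, ha, hb, hab⟩ := c2
    refine fin (Submodule.span F {a, b} : Set V)ᶜ (fun g hg t ht c => ?_) (hW a b (fun c => by simp [c] at hab)
      fun t c => by simp [c, hΦ.self] at hab).2.le
    obtain ⟨r, s, e⟩ := Submodule.mem_span_pair.1 c
    exact nT g hg t ht (e ▸ hΦ.tv_line ha hb hab r s)
  by_cases c3 : H ≤ Px Φ u
  · exact ns_le_of_le_Px hd (hΦ.hQ u) hu0 c3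
  obtain ⟨k, hk, c3⟩ := SetLike.not_le_iff_exists.1 c3
  have hn' : ∀ t : F, k u ≠ t • u := fun t e => c3 (mem_Px.2 ⟨⟨t, e⟩, hH hk⟩)
  have hk' := hu.conj hk (hI k hk)
  have b1 : ∀ e, Tv Φ H e → e ∈ Submodule.span F {u, k u} := fun e he => by
    obtain ⟨a, b, rfl⟩ := hΦ.perp_pair h4 hu0 hn' (c2 _ _ hu hk') (c2 _ _ hu he) (c2 _ _ hk' he)
    exact Submodule.mem_span_pair.2 ⟨a, b, rfl⟩
  have b2 : ∀ g ∈ H, ∀ w ∈ Submodule.span F {u, k u}, g w ∈ Submodule.span F {u, k u} :=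
    fun g hg w hw => by
      obtain ⟨a, b, rfl⟩ := Submodule.mem_span_pair.1 hw
      rw [map_add, map_smul, map_smul]
      exact Submodule.add_mem _ (Submodule.smul_mem _ _ (b1 _ (hu.conj hg (hI g hg))))
        (Submodule.smul_mem _ _ (b1 _ (hk'.conj hg (hI g hg))))
  by_cases c4 : x ∈ Submodule.span F {u, k u}
  · exact fin _ (fun g hg t _ => Submodule.smul_mem _ _ (b2 g hg x c4))
      ((hW _ _ hu0 hn').1.le.trans (Nat.le_mul_of_pos_right _ (by omega)))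
  · refine fin (Submodule.span F {u, k u} : Set V)ᶜ (fun g hg t ht c => c4 ?_) (hW _ _ hu0 hn').2.le
    simpa using b2 _ (H.inv_mem hg) _ ((Submodule.smul_mem_iff _ ht).1 c)

theorem IsSp.four (hΦ : IsSp Φ) (h4 : finrank F V = 4) (hq : 4 ≤ Nat.card F) (hH : H ≤ Φ.EG)
    (hE : ¬ Φ.EG ≤ H) (hN : (Nat.card F - 1) * H.relIndex Φ.EG < ns Φ) : False := by
  have hN' : (Nat.card F - 1) * H.relIndex Φ.EG < Nat.card F ^ 4 := by
    rw [hΦ.ns_eq, h4] at hN; omega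
  obtain ⟨x, hT, hmin⟩ := exists_min_not_tv (mt hΦ.EG_le hE)
  have hx := hΦ.hQ x
  have hx0 : x ≠ 0 := fun c => hT (c ▸ tv_zero)
  by_cases h1 : mb Φ H x = 1
  · exact absurd (hΦ.alpha h4.ge hq hH (by rwa [h4]) hT h1) (not_le.2 hN)
  have a1 := (relIndex_Sx_mul (H := H) (by rw [hΦ.hd]; omega) hx hx0).trans (Nat.mul_le_mul
    (relIndex_le_EG inf_le_right) (hΦ.ncard_Tt_le hH hT))
  have a2 := hΦ.cover_N hx0 h1
  have a3 := mb_dvd (H := H) hx hx0
  have a4 := hΦ.two_le_jj hT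
  have a5 := mb_mul_abar (H := H) hx hx0
  have a6 := e2_le_two (F := F)
  rw [h4, show 4 - 2 = 2 from rfl] at a2 a5
  obtain ⟨j, hj⟩ : ∃ j, jj Φ H hΦ x = j + 1 := ⟨_, (Nat.sub_add_cancel (by omega)).symm⟩
  obtain ⟨q, hq'⟩ : ∃ q, Nat.card F = q + 1 := ⟨_, (Nat.sub_add_cancel (by omega)).symm⟩
  have hX : (q + 1) ^ 2 - 1 = q * (q + 2) := Nat.sub_eq_of_eq_add (by ring)
  rcases lt_trichotomy (mb Φ H x) (Nat.card F) with c | c | c
  · have b1 := two_mul_le_of_dvd a3 (dvd_pow_self _ one_ne_zero) c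
    simp only [hj, hq', Nat.add_sub_cancel, hX] at *
    have b2 : 4 * (mb Φ H x * (mb Φ H x - 1)) ≤ (q + 1) ^ 2 := by
      nlinarith [Nat.mul_le_mul b1 (le_trans (Nat.mul_le_mul_left 2 (Nat.sub_le (mb Φ H x) 1)) b1)]
    generalize mb Φ H x * (mb Φ H x - 1) = M at *
    have b3 : 4 * ((q + 1) ^ 2 * (j + 1) * (q * (q + 2))) * (q * q) ≤
        (q + 1) ^ 4 * (j * 2) * (q + 1) ^ 2 :=
      calc _ ≤ 4 * (H.relIndex (Sx Φ x) * M) * (q * q) := by gcongr
        _ = H.relIndex (Sx Φ x) * q * q * (4 * M) := by ring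
        _ ≤ H.relIndex Φ.EG * (j * e2 F) * q * (q + 1) ^ 2 := by gcongr
        _ = q * H.relIndex Φ.EG * (j * e2 F) * (q + 1) ^ 2 := by ring
        _ ≤ _ := by gcongr
    have b4 : 2 * (j + 1) * (q ^ 3 * (q + 2)) ≤ j * (q + 1) ^ 4 :=
      Nat.le_of_mul_le_mul_left (c := 2 * (q + 1) ^ 2) (by nlinarith) (by positivity)
    obtain ⟨q, rfl⟩ : ∃ r, q = r + 3 := ⟨_, (Nat.sub_add_cancel (by omega)).symm⟩
    have b5 : (q + 3 + 1) ^ 4 ≤ 2 * ((q + 3) ^ 3 * (q + 3 + 2)) := by ring_nf; omega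
    have b6 : 0 < (q + 3) ^ 3 * (q + 3 + 2) := by positivity
    nlinarith [Nat.mul_le_mul_left j b5]
  · obtain ⟨x', hx', h⟩ := exists_partner_top hx hx0
    obtain ⟨v, hv, hA, hv0⟩ := exists_of_mb_ne_one hx hx' h h1
    by_cases c2 : ∀ v' ∈ pp Φ ⊤ x x', Φ.InA H x v' → Φ.B v v' = 0
    · exact absurd (hΦ.four_line h4 hq hH hN' hT h hv hv0 hA c c2) (not_le.2 hN)
    push Not at c2
    obtain ⟨v', hv', hA', c2⟩ := c2
    have b1 := hΦ.pair_ne h hv hv' hA hA' c2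
    rw [c, sq] at a5
    rw [hΦ.a_eq hx0, Nat.eq_of_mul_eq_mul_left Nat.card_pos a5, h4, c, show 4 - 2 = 2 from rfl,
      show 4 - 3 = 1 from rfl, pow_one] at b1
    have b2 : e2 F ≤ 1 ∨ jj Φ H hΦ x < Nat.card F := by
      by_cases h2 : (2 : F) = 0
      · exact .inl (e2_le_one h2)
      refine .inr (hΦ.jj_le.lt_of_ne fun c => ?_)
      have d1 := hΦ.r0_mul_jj (H := H) (x := x)
      rw [c, ← hΦ.card_R0] at d1
      have d2 := AddSubgroup.card_eq_one.1 (Nat.eq_of_mul_eq_mul_right Nat.card_pos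
        (d1.trans (one_mul _).symm))
      have d3 : _ ∈ R0 Φ H hΦ x := InA.comm hA hA'
      rw [d2, hΦ.skew v' v, sub_neg_eq_add, ← two_mul] at d3
      exact mul_ne_zero h2 c2 d3
    rw [hΦ.ns_eq, h4] at hN
    simp only [hj, hq', Nat.add_sub_cancel, hX] at *
    have b3 : H.relIndex Φ.EG ≤ (q + 1) * ((q + 1) ^ 2 + (q + 1) + 1) := by
      rw [show (q + 1) ^ 4 - 1 = q * ((q + 1) * ((q + 1) ^ 2 + (q + 1) + 1) + 1) from
        Nat.sub_eq_of_eq_add (by ring)] at hN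
      exact Nat.le_of_lt_succ (Nat.lt_of_mul_lt_mul_left hN)
    have b4 : 2 * ((q + 1) * (j + 1) * (q * (q + 2))) ≤
        (q + 1) * ((q + 1) ^ 2 + (q + 1) + 1) * (j * e2 F) := by
      refine le_trans (Nat.le_of_mul_le_mul_right ?_ (show 0 < q + 1 by omega))
        (a1.trans (Nat.mul_le_mul_right _ b3))
      nlinarith [Nat.mul_le_mul_left (H.relIndex (Sx Φ x) * q) (Nat.mul_div_le (q + 1) 2)]
    have b5 : 2 * ((j + 1) * (q * (q + 2))) ≤ ((q + 1) ^ 2 + (q + 1) + 1) * (j * e2 F) :=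
      Nat.le_of_mul_le_mul_left (c := q + 1) (by nlinarith) (by omega)
    have h3 : 3 ≤ q := by omega
    rcases b2 with b2 | b2
    · nlinarith [Nat.mul_le_mul_left (((q + 1) ^ 2 + (q + 1) + 1) * j) b2,
        Nat.mul_le_mul_left (j * q) h3]
    · nlinarith [Nat.mul_le_mul_left (((q + 1) ^ 2 + (q + 1) + 1) * j) a6,
        Nat.mul_le_mul_left (q + 3) (show j + 1 ≤ q by omega)]
  · by_cases h2 : (2 : F) = 0
    · exact hΦ.four_big h4 h2 (by omega) hH hN' hT hmin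
        (two_mul_le_of_dvd (dvd_pow_self _ one_ne_zero) a3 c)
    · nlinarith [hΦ.mb_le_abar h2 hT]

end Cfsg.Agent.Class.MinDegO
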