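import Mathlib
import Cfsg.Agent.Class.MinDegO.SpMain
import Cfsg.Agent.Class.Orth.TypeCount

/-!
Minimal degree of symplectic groups over the field with two elements.
-/

set_option autoImplicit false
set_option linter.unusedSectionVars false

namespace Cfsg.Agent.Class.MinDegO

open Module Cfsg.Agent.Class.Max Cfsg.Agent.Class.Max.Fm

theorem eq_one_of_two {F : Type*} [Field F] [Finite F] (hq : Nat.card F = 2) {a : F} (h : a ≠ 0) :
    a = 1 := by
  obtain ⟨b, -, hb⟩ := (Nat.card_eq_two_iff' (0 : F)).1 hq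
  exact (hb a h).trans (hb 1 one_ne_zero).symm

theorem two_eq_zero_of_two {F : Type*} [Field F] [Finite F] (hq : Nat.card F = 2) : (2 : F) = 0 := by
  by_contra c
  have := eq_one_of_two hq c
  exact one_ne_zero (show (1 : F) = 0 by linear_combination this)

variable {F V : Type*} [Field F] [AddCommGroup V] [Module F V] {Φ : Fm F V}
  [Finite F] [Finite V] [FiniteDimensional F V] {H : Subgroup (V ≃ₗ[F] V)} {x x' y z : V}

variable (Φ) in
/-- A quadratic function with polar form `B`. -/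
def IsQd (Q : V → F) : Prop := ∀ u v, Q (u + v) = Q u + Q v + Φ.B u v

theorem IsQd.zero {Q : V → F} (h : IsQd Φ Q) : Q 0 = 0 := by
  simpa using h 0 0

theorem IsQd.smul (hq : Nat.card F = 2) {Q : V → F} (h : IsQd Φ Q) (a : F) (v : V) :
    Q (a • v) = a * Q v := by
  by_cases c : a = 0
  · simp [c, h.zero]
  · simp [eq_one_of_two hq c]

theorem IsQd.card (hΦ : IsSp Φ) (hq : Nat.card F = 2) {Q : V → F} (h : IsQd Φ Q) {m : ℕ}
    (hm : finrank F V = 2 * m) : 2 * {v | Q v = 0}.ncard = 2 ^ (2 * m) + 2 ^ m ∨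
      2 * {v | Q v = 0}.ncard + 2 ^ m = 2 ^ (2 * m) := by
  let Q' : QuadraticForm F V := ⟨Q, fun a v => by
    by_cases c : a = 0
    · simp [c, h.zero]
    · simp [eq_one_of_two hq c], LinearMap.mk₂ F (fun u v => Φ.B u v) (by simp)
      (by simp [hΦ.hσ]) (by simp) (by simp), h⟩
  have hQ : Orth.ND Q' := fun x hx => Φ.nondeg x fun y => by
    rw [← hx y]
    change _ = Q (x + y) - Q x - Q y
    rw [h]; ring
  rw [show {v | Q v = 0}.ncard = Nat.card {x // Q' x = 0} from rfl]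
  by_cases c : QF.IsPlus Q'
  · have := hQ.card_singular_of_isPlus c hm
    rw [hq] at this
    left
    zify
    simpa using this
  · have := hQ.card_singular_of_not_isPlus c hm
    rw [hq] at this
    right
    zify
    simpa [eq_sub_iff_add_eq] using this

theorem IsQd.twist {Q : V → F} (h : IsQd Φ Q) (w : V) : IsQd Φ fun v => Q v + Φ.B w v :=
  fun u v => by simp only [h u v, map_add]; ring

theorem IsQd.card_twist (hΦ : IsSp Φ) (hq : Nat.card F = 2) {Q : V → F} (h : IsQd Φ Q) {w : V}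
    (hw : Q w ≠ 0) : {v | Q v = 0}.ncard + {v | Q v + Φ.B w v = 0}.ncard = Nat.card V := by
  have h2 := two_eq_zero_of_two hq
  rw [← Set.ncard_add_ncard_compl {v | Q v = 0}]
  congr 1
  refine Set.ncard_congr (fun v _ => w + v) (fun v hv c => ?_)
    (fun _ _ _ _ e => add_left_cancel e) fun v hv => ⟨v - w, ?_, by simp⟩
  · have c : Q (w + v) = 0 := c
    have hv : Q v + Φ.B w v = 0 := hv
    exact hw (by rw [h] at c; linear_combination c - hv)
  · have := h w (v - w)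
    rw [add_sub_cancel, eq_one_of_two hq hv, eq_one_of_two hq hw] at this
    change Q (v - w) + _ = 0
    linear_combination -this

theorem IsQd.le_relIndex (hΦ : IsSp Φ) (hq : Nat.card F = 2) {Q : V → F} (h : IsQd Φ Q)
    (hH : ∀ g ∈ H, ∀ v, Q (g v) = Q v) : {v | Q v = 0}.ncard ≤ H.relIndex Φ.EG := by
  have := finite_equiv (F := F) (V := V)
  rw [← mul_one (H.relIndex _)]
  refine cover H Φ.EG (fun g w => ∀ v, Q (g⁻¹ v) = Q v + Φ.B w v)
    (fun g _ k _ hk w h v => ?_) 1 (fun g _ => (Set.ncard_le_one (Set.toFinite _)).2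
      fun a ha b hb => Φ.eq_of_B_eq fun v => add_left_cancel ((ha v).symm.trans (hb v))) _
    fun w hw => ⟨_, (Φ.EG).inv_mem (hΦ.valid (e := w) (map_zero _) 1).eich_mem, fun v => ?_⟩
  · rw [mul_inv_rev, mul_app, hH _ (H.inv_mem hk), h]
  · have hw : Q w = 0 := hw
    rw [inv_inv, Valid.eich_apply, hΦ.ef_zero, h, h.smul hq, hw, map_smul, hΦ.skew v w]
    by_cases c : Φ.B w v = 0
    · simp [c]
    · rw [eq_one_of_two hq c, smul_eq_mul]
      linear_combination -two_eq_zero_of_two hq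

/-- The stabiliser of a function. -/
def stabF (Q : V → F) : Subgroup (V ≃ₗ[F] V) where
  carrier := {g | ∀ v, Q (g v) = Q v}
  one_mem' _ := rfl
  mul_mem' ha hb v := by rw [mul_app, ha, hb]
  inv_mem' {g} hg v := by rw [← hg, app_inv_app]

theorem IsQd.relIndex_eq (hΦ : IsSp Φ) (hq : Nat.card F = 2) {Q : V → F} (h : IsQd Φ Q) {m : ℕ}
    (hm : finrank F V = 2 * m) : (stabF Q).relIndex Φ.EG = {v | Q v = 0}.ncard := by
  refine le_antisymm ?_ (h.le_relIndex hΦ hq fun _ hg => hg)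
  have ex : ∀ g ∈ Φ.EG, ∃ w, ∀ v, Q (g⁻¹ v) = Q v + Φ.B w v := fun g hg => by
    obtain ⟨w, hw⟩ := Φ.exists_eq_dual
      { toFun := fun v => Q (g⁻¹ v) - Q v
        map_add' := fun u v => by
          rw [map_add, h, h, Iso.B (Φ.EG_le_Iso ((Φ.EG).inv_mem hg))]; ring
        map_smul' := fun a v => by rw [map_smul, h.smul hq, h.smul hq]; simp [mul_sub] }
    exact ⟨w, fun v => by simp [hw]⟩
  choose! φ hφ using ex
  refine relIndex_le_ncard _ _ φ _ (fun g hg => ?_) fun g hg g' hg' e v => ?_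
  · by_contra c
    have h1 := h.card_twist hΦ hq c
    have h2 : {v | Q v + Φ.B (φ g) v = 0}.ncard = {v | Q v = 0}.ncard :=
      Set.ncard_congr (fun v _ => g⁻¹ v) (fun v hv => (hφ g hg v).trans hv)
        (fun _ _ _ _ e => g⁻¹.injective e) fun v hv =>
          ⟨g v, by rw [Set.mem_setOf_eq, ← hφ g hg, inv_app_app]; exact hv, by simp⟩
    have h3 := h.card hΦ hq hm
    rw [h2, Module.natCard_eq_pow_finrank (K := F), hq, hm] at h1
    have : 0 < 2 ^ m := by positivity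
    omega
  · rw [mul_app, hφ g hg, e, ← hφ g' hg', inv_app_app]

theorem IsSp.exists_alpha (hΦ : IsSp Φ) (h6 : 6 ≤ finrank F V) (hq : Nat.card F = 2)
    (hE : ¬ Φ.EG ≤ H) (hN : H.relIndex Φ.EG < 2 ^ (finrank F V - 1)) :
    ∃ z, z ≠ 0 ∧ mb Φ H z = 1 := by
  by_contra hc
  push Not at hc
  obtain ⟨e₀, f₀, qe, qf, hef⟩ := Φ.exists_hyp (by rw [hΦ.hd]; omega)
  obtain ⟨x, hx0, hmin⟩ := Set.exists_min_image {x | x ≠ 0}
    (fun x => Nat.card (RS Φ H x)) (Set.toFinite _) ⟨e₀, fun c => by simp [c] at hef⟩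
  have hx := hΦ.hQ x
  by_cases hF : Φ.Full H x
  · refine hE (hΦ.EG_le fun y c => ?_)
    by_cases hy : y = 0
    · exact (hy ▸ tv_zero : Tv Φ H y) c
    · exact full_of_card_le hx hx0 (hΦ.hQ y) hy hF (hmin y hy) 0 c (hΦ.valid (map_zero _) c)
  have a1 := (hΦ.cover_N hx0 (hc x hx0)).trans (Nat.mul_le_mul_right _
    ((relIndex_le_EG inf_le_right).trans hN.le))
  have a2 := hΦ.r0_mul_jj (H := H) (x := x)
  have a3 := card_RS_eq_mb (H := H) hx hx0
  have a4 : 2 ^ 4 ≤ 2 ^ (finrank F V - 2) := Nat.pow_le_pow_right (by omega) (by omega)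
  rw [hq] at a1 a2 a3
  rw [show finrank F V - 1 = finrank F V - 2 + 1 by omega, pow_succ, mul_assoc, mul_assoc] at a1
  have a5 := (Nat.mul_le_mul_left _ (show 15 ≤ 2 ^ (finrank F V - 2) - 1 by omega)).trans
    (Nat.le_of_mul_le_mul_left a1 (by omega))
  have a6 := hΦ.jj_le (H := H) (x := x)
  have key : 4 ≤ mb Φ H x ∧ 4 < mb Φ H x * r0 Φ H x := by
    generalize mb Φ H x = a at *
    obtain h | h | h : jj Φ H hΦ x = 0 ∨ jj Φ H hΦ x = 1 ∨ jj Φ H hΦ x = 2 := by omega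
    all_goals rw [h] at a2 a5
    · omega
    · rw [show r0 Φ H x = 2 by omega]
      by_contra c
      have : a ≤ 3 := by omega
      interval_cases a <;> omega
    · rw [show r0 Φ H x = 1 by omega]
      by_contra c
      have : a ≤ 4 := by omega
      interval_cases a <;> omega
  exact hΦ.even_main h6 (two_eq_zero_of_two hq) (by rw [hq]; omega) hx0 hF
    (fun z g => hmin z g.ne) (by omega) (.inr (by rw [hq, a3]; nlinarith [key.2]))

theorem IsSp.tv_of_one (hq : Nat.card F = 2) (h : Φ.HasE H y 0 1) : Tv Φ H y := fun c => by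
  by_cases h0 : c = 0
  · exact h0 ▸ hasE_zero y
  · exact eq_one_of_two hq h0 ▸ h

theorem IsSp.tv_or (hΦ : IsSp Φ) (h6 : 6 ≤ finrank F V) (hq : Nat.card F = 2)
    (h : Φ.B x x' = 1) (hT : Tv Φ H x) (hreg : ∀ w, Φ.InA H x w → ∃ t : F, w = t • x)
    (hcov : ∀ g ∈ Px Φ x, ∃ k ∈ H, k ∈ Px Φ x ∧ ∃ u ∈ Qx Φ x, g = k * u)
    (hy : y ∈ pp Φ ⊤ x x') : Tv Φ H y ∨ Tv Φ H (x + y) := by
  have hx := hΦ.hQ x
  have hx' := hΦ.hQ x'
  have fx : ∀ e ∈ pp Φ ⊤ x x', (hΦ.valid (e := e) (map_zero _) 1).eich x = x := fun e he =>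
    ef_apply_of_perp (Φ.perp_symm (mem_pp.1 he).2.1) (by simp)
  have ex : ∀ e ∈ pp Φ ⊤ x x', ∃ w ∈ pp Φ ⊤ x x',
      LF Φ H x (hΦ.valid (e := e) (map_zero _) 1).eich w := fun e he => by
    have hP := Sx_le_Px (mem_Sx.2 ⟨fx e he, Valid.eich_mem _⟩)
    obtain ⟨k, hk, -, u, hu, e1⟩ := hcov _ hP
    exact exists_LF hx hx' h hP hk hu e1
  obtain ⟨w, hw, h1⟩ := ex y hy
  have key : ∀ e ∈ pp Φ ⊤ x x', Φ.B y e = 0 → (∀ t : F, e ≠ t • y) → Φ.B e w = 0 :=
    fun e he hye hn => by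
      obtain ⟨w', hw', h2⟩ := ex e he
      have a1 := h1.mul (Φ.EG_le_Iso (Valid.eich_mem _)) (fx y hy) h2
      have a2 := h2.mul (Φ.EG_le_Iso (Valid.eich_mem _)) (fx e he) h1
      have a3 : (hΦ.valid (e := y) (map_zero _) 1).eich * (hΦ.valid (e := e) (map_zero _) 1).eich =
          (hΦ.valid (e := e) (map_zero _) 1).eich * (hΦ.valid (e := y) (map_zero _) 1).eich :=
        LinearEquiv.ext fun v => by
          simp only [mul_app, Valid.eich_apply, hΦ.ef_zero, Φ.bsimp, hye, Φ.perp_symm hye]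
          module
      rw [a3] at a1
      have a4 := a1.sub a2
      simp only [Valid.eich_apply, hΦ.ef_zero] at a4
      have a5 := eq_zero_of_reg h hreg (Submodule.sub_mem _ (Submodule.add_mem _ hw
        (Submodule.add_mem _ hw' (Submodule.smul_mem _ _ hy))) (Submodule.add_mem _ hw'
        (Submodule.add_mem _ hw (Submodule.smul_mem _ _ he)))) a4
      by_contra c
      rw [eq_one_of_two hq c] at a5
      exact hn (Φ.B y w') (by linear_combination (norm := module) -a5)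
  obtain ⟨t, rfl⟩ : ∃ t : F, w = t • y := by
    by_cases hy0 : y = 0
    · obtain ⟨c, v1, k, hk, e⟩ := h1
      refine ⟨0, (eq_zero_of_reg h hreg hw ⟨c, v1, k, hk, fun v => ?_⟩).trans (zero_smul _ _).symm⟩
      simp [e, Valid.eich_apply, hΦ.ef_zero, hy0]
    obtain ⟨f, hf, -, hyf⟩ := exists_partner hy (hΦ.hQ y)
      ((nd_pp Φ.nd_top trivial trivial hx hx' h).exists_ne hy hy0)
    obtain ⟨e, he, he0, h3⟩ := exists_ne_zero_ker [Φ.B y, Φ.B f] (pp Φ ⊤ x x') (by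
      have := two_le_finrank h hx hx'
      simp; omega)
    have b1 : Φ.B y e = 0 := h3 _ (by simp)
    have b2 : Φ.B f e = 0 := h3 _ (by simp)
    have b3 : ∀ t : F, e ≠ t • y := fun t ht => he0 (by
      rw [ht, map_smul, hΦ.skew, hyf] at b2
      simp [ht, show t = 0 by simpa using b2])
    have b4 : Φ.B y w = 0 := by
      have c1 := key e he b1 b3
      have c2 := key (e + y) (Submodule.add_mem _ he hy) (by simp [b1, hΦ.self])
        fun t ht => b3 (t - 1) (by rw [sub_smul, ← ht]; simp)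
      simpa [c1] using c2
    refine Φ.exists_smul_of_perp fun v hv => ?_
    obtain ⟨d, hd, e1⟩ := hyp_decomp_mem (U := ⊤) trivial trivial hx hx' h (y := v) trivial
    have k2 : ∀ u ∈ pp Φ ⊤ x x', Φ.B u v = Φ.B u d := fun u hu => by
      rw [e1]
      simp [Φ.perp_symm (mem_pp.1 hu).2.1, Φ.perp_symm (mem_pp.1 hu).2.2]
    rw [k2 w hw]
    by_cases c : ∀ t : F, d ≠ t • y
    · exact Φ.perp_symm (key d hd ((k2 y hy).symm.trans hv) c)
    · push Not at c
      obtain ⟨t, rfl⟩ := c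
      simp [Φ.perp_symm b4]
  obtain ⟨c, -, k, hk, e⟩ := h1
  have hxy := (mem_pp.1 hy).2.1
  by_cases ht : t = 0
  · obtain ⟨l, hl, e'⟩ := hT (-c)
    refine .inl (IsSp.tv_of_one hq ⟨l * k, H.mul_mem hl hk, fun v => ?_⟩)
    simp only [mul_app, e, e', ht, zero_smul, Valid.eich_apply, hΦ.ef_zero, Φ.bsimp, hxy, hΦ.self]
    module
  · obtain ⟨l, hl, e'⟩ := hT (1 - c)
    refine .inr (IsSp.tv_of_one hq ⟨l * k, H.mul_mem hl hk, fun v => ?_⟩)
    simp only [mul_app, e, e', eq_one_of_two hq ht, one_smul, Valid.eich_apply, ef, Φ.bsimp, hxy,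
      hΦ.self, hΦ.hε, hΦ.hσ]
    module

open Classical in
variable (Φ H) in
/-- The indicator function of the transvections in `H`. -/
noncomputable def Qf (y : V) : F := if Tv Φ H y ∧ y ≠ 0 then 1 else 0

theorem Qf_zero : Qf Φ H 0 = 0 := if_neg fun h => h.2 rfl

theorem Qf_conj (hH : H ≤ Φ.EG) {g : V ≃ₗ[F] V} (hg : g ∈ H) (v : V) :
    Qf Φ H (g v) = Qf Φ H v := by
  have : Tv Φ H (g v) ↔ Tv Φ H v := ⟨fun h => by
    simpa using h.conj (H.inv_mem hg) (Φ.EG_le_Iso (hH (H.inv_mem hg))),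
    fun h => h.conj hg (Φ.EG_le_Iso (hH hg))⟩
  classical
  unfold Qf
  convert if_congr (and_congr this g.map_ne_zero_iff) rfl rfl

theorem IsSp.Qf_add (hΦ : IsSp Φ) (h6 : 6 ≤ finrank F V) (hq : Nat.card F = 2) (hH : H ≤ Φ.EG)
    (hx0 : x ≠ 0) (hT : Tv Φ H x) (hreg : ∀ w, Φ.InA H x w → ∃ t : F, w = t • x)
    (hcov : ∀ g ∈ Px Φ x, ∃ k ∈ H, k ∈ Px Φ x ∧ ∃ u ∈ Qx Φ x, g = k * u) (y : V) :
    Qf Φ H (x + y) = Qf Φ H x + Qf Φ H y + Φ.B x y := by
  have h2 := two_eq_zero_of_two hq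
  have hxx : x + x = 0 := by rw [← two_smul F, h2, zero_smul]
  have h1 : Qf Φ H x = 1 := if_pos ⟨hT, hx0⟩
  by_cases c : Φ.B x y = 0
  swap
  · obtain ⟨g, hg, e⟩ := hT 1
    rw [← Qf_conj hH hg y, e, hΦ.ef_zero, h1, eq_one_of_two hq c, one_mul, one_smul, add_comm x]
    linear_combination -h2
  rw [c, h1, add_zero]
  by_cases c0 : y = 0
  · simp [c0, h1, Qf_zero]
  by_cases c1 : x + y = 0
  · rw [c1, show y = x by rw [← add_right_inj x, c1, hxx], h1]
    rw [Qf_zero, one_add_one_eq_two, h2]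
  have a1 : Tv Φ H y ∨ Tv Φ H (x + y) := by
    obtain ⟨x', hx', h⟩ := exists_partner_top (hΦ.hQ x) hx0
    by_cases c2 : Φ.B x' y = 0
    · exact hΦ.tv_or h6 hq h hT hreg hcov (mem_pp.2 ⟨trivial, c, c2⟩)
    · have := hΦ.tv_or h6 hq h hT hreg hcov (y := x + y) (mem_pp.2 ⟨trivial, by simp [c, hΦ.self],
        by rw [map_add, hΦ.skew, h, eq_one_of_two hq c2, neg_add_cancel]⟩)
      rw [← add_assoc, hxx, zero_add] at this
      exact this.symm
  have a2 : ¬ (Tv Φ H y ∧ Tv Φ H (x + y)) := fun h => by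
    obtain ⟨t, ht⟩ := hreg y ⟨0, hΦ.valid c 0, by simpa using hΦ.hasE_of_tv c hT h.1 h.2 1⟩
    by_cases c3 : t = 0
    · exact c0 (by simp [ht, c3])
    · exact c1 (by rw [ht, eq_one_of_two hq c3, one_smul, hxx])
  by_cases c4 : Tv Φ H y
  · rw [Qf, Qf, if_neg fun h => a2 ⟨c4, h.1⟩, if_pos ⟨c4, c0⟩, one_add_one_eq_two, h2]
  · rw [Qf, Qf, if_pos ⟨a1.resolve_left c4, c1⟩, if_neg fun h => c4 h.1, add_zero]

theorem IsSp.two (hΦ : IsSp Φ) (h6 : 6 ≤ finrank F V) (hq : Nat.card F = 2) (hH : H ≤ Φ.EG)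
    (hE : ¬ Φ.EG ≤ H) (hN : H.relIndex Φ.EG < 2 ^ (finrank F V - 1)) : IsQd Φ (Qf Φ H) := by
  obtain ⟨x, hx0, h1⟩ := hΦ.exists_alpha h6 hq hE hN
  have hx := hΦ.hQ x
  have hd : Φ.d + 2 ≤ finrank F V := by rw [hΦ.hd]; omega
  have hreg := (mb_eq_one hx hx0).1 h1
  have a1 := hΦ.mb_mul_a (H := H) hx0
  have a2 := relIndex_le_EG (H := H) (Qx_le_EG hx hx0)
  have a3 : 2 ^ (finrank F V - 1) = 2 * 2 ^ (finrank F V - 2) := by
    rw [← pow_succ']; congr 1; omega
  have a4 := pow_le_relIndex_Qx hx hx0 hreg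
  rw [h1, one_mul, hq] at a1
  rw [hq] at a4
  have hT : Tv Φ H x := by
    by_contra c
    have := Nat.mul_le_mul_left (2 ^ (finrank F V - 2)) (hΦ.two_le_jj c)
    omega
  have hcov := fun g => covers (H := H) (g := g) hx hx0 (by omega)
  let A : Submodule F V :=
    { carrier := {z | ∀ y, Qf Φ H (z + y) = Qf Φ H z + Qf Φ H y + Φ.B z y}
      zero_mem' := fun y => by simp [Qf_zero]
      add_mem' := fun {a b} ha hb y => by
        rw [add_assoc, ha, hb, ha]; simp only [Φ.bsimp]; ring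
      smul_mem' := fun a z hz y => by
        by_cases c : a = 0
        · simp [c, Qf_zero]
        · rw [eq_one_of_two hq c, one_smul]; exact hz y }
  have hA : ∀ g ∈ H, ∀ z ∈ A, g z ∈ A := fun g hg z hz y => by
    obtain ⟨y, rfl⟩ := g.surjective y
    rw [← map_add, Qf_conj hH hg, Qf_conj hH hg, Qf_conj hH hg, Iso.B (Φ.EG_le_Iso (hH hg))]
    exact hz y
  have hxA : x ∈ A := hΦ.Qf_add h6 hq hH hx0 hT hreg hcov
  by_contra hc
  have hns : ¬ ns Φ ≤ (Nat.card F - 1) * H.relIndex Φ.EG := by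
    have : 2 ^ finrank F V = 2 * 2 ^ (finrank F V - 1) := by rw [← pow_succ']; congr 1; omega
    rw [hΦ.ns_eq, hq]; omega
  by_cases c : ∀ a ∈ A, Φ.B x a = 0 → ∃ t : F, a = t • x
  · obtain ⟨y, hy⟩ : ∃ y, ∀ g ∈ H, ∃ a b : F, g x = a • x + b • y := by
      by_cases c2 : ∀ a ∈ A, Φ.B x a = 0
      · exact ⟨0, fun g hg => (c _ (hA g hg x hxA) (c2 _ (hA g hg x hxA))).imp
          fun _ e => ⟨0, by simpa using e⟩⟩
      push Not at c2
      obtain ⟨a, ha, c2⟩ := c2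
      refine ⟨a, fun g hg => ?_⟩
      obtain ⟨t, ht⟩ := c (g x - Φ.B x (g x) • a) (A.sub_mem (hA g hg x hxA) (A.smul_mem _ ha))
        (by simp [eq_one_of_two hq c2])
      exact ⟨t, _, eq_add_of_sub_eq ht⟩
    refine hns (ns_le_of_orbit hd hH hx hx0 ((relIndex_Px_le_of_line hH hx0 hy).trans
      (le_trans ?_ (a4.trans (relIndex_Qx_le_Px hx hx0)))))
    have : 2 ^ 2 ≤ 2 ^ (finrank F V - 2) := Nat.pow_le_pow_right (by omega) (by omega)
    omega
  push Not at c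
  obtain ⟨a, ha, ha1, ha2⟩ := c
  obtain ⟨x', hx', h⟩ := exists_partner_top hx hx0
  have hD := nd_pp Φ.nd_top trivial trivial hx hx' h
  have dec : ∀ v, Φ.B x v = 0 → ∃ d ∈ pp Φ ⊤ x x', ∃ t : F, v = d + t • x := fun v hv => by
    obtain ⟨d, hd, e⟩ := hyp_decomp_mem (U := ⊤) trivial trivial hx hx' h (y := v) trivial
    exact ⟨d, hd, _, by rwa [hv, zero_smul, add_zero] at e⟩
  have b1 : ∀ v, Φ.B x v = 0 → v ∈ A := fun v hv => by
    obtain ⟨d, hd, t, rfl⟩ := dec a ha1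
    obtain ⟨d', hd', t', rfl⟩ := dec v hv
    refine A.add_mem ?_ (A.smul_mem _ hxA)
    by_cases c : d' = 0
    · exact c ▸ A.zero_mem
    obtain ⟨g, hg, rfl⟩ := hΦ.move (hasOn_GU _) hd hd'
      (hD.exists_ne hd fun c => ha2 t (by simp [c])) (hD.exists_ne hd' c)
    obtain ⟨k, hk, -, u, hu, rfl⟩ := hcov g (Sx_le_Px (GU_pp_le_Sx hg))
    obtain ⟨r, hr⟩ := hu.2.2 d (mem_pp.1 hd).2.1
    rw [mul_app, hr]
    exact hA k hk _ (A.add_mem ((A.add_mem_iff_left (A.smul_mem _ hxA)).1 ha) (A.smul_mem _ hxA))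
  have b2 : ∀ v ∈ A, Φ.B x v = 0 := fun v hv => by
    by_contra c
    refine hc fun u => show u ∈ A from ?_
    rw [← sub_add_cancel u (Φ.B x u • v)]
    exact A.add_mem (b1 _ (by simp [eq_one_of_two hq c])) (A.smul_mem _ hv)
  refine hns (ns_le_of_le_Px hd hx hx0 fun g hg => mem_Px.2 ⟨Φ.exists_smul_of_perp fun v hv => ?_,
    hH hg⟩)
  rw [← Iso.B_inv (Φ.EG_le_Iso (hH hg))]
  exact b2 _ (hA _ (H.inv_mem hg) _ (b1 v hv))

theorem IsQd.exists_minus (hΦ : IsSp Φ) (hq : Nat.card F = 2) {Q : V → F} (h : IsQd Φ Q) {m : ℕ}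
    (hm : finrank F V = 2 * m) (h1 : 1 ≤ m) :
    ∃ Q', IsQd Φ Q' ∧ 2 * {v | Q' v = 0}.ncard + 2 ^ m = 2 ^ (2 * m) := by
  refine (h.card hΦ hq hm).elim (fun h2 => ?_) fun h2 => ⟨Q, h, h2⟩
  have h3 := Module.natCard_eq_pow_finrank (K := F) (V := V)
  rw [hq, hm] at h3
  obtain ⟨w, hw⟩ : ∃ w, Q w ≠ 0 := by
    by_contra c
    push Not at c
    rw [show {v | Q v = 0} = Set.univ from Set.eq_univ_of_forall c, Set.ncard_univ, h3] at h2
    have : 2 ^ m < 2 ^ (2 * m) := Nat.pow_lt_pow_right (by omega) (by omega)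
    omega
  have := h.card_twist hΦ hq hw
  exact ⟨_, h.twist w, by omega⟩

theorem isSp_std (m : ℕ) : IsSp (fmSpStd F m) := ⟨fun _ => rfl, rfl, fun _ => rfl, fun _ => rfl, rfl⟩

end Cfsg.Agent.Class.MinDegO
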